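import Cfsg.Agent.Lib.CharTheory.Orthogonality
import Mathlib.LinearAlgebra.Eigenspace.Charpoly
import Mathlib.LinearAlgebra.PID
import Mathlib.LinearAlgebra.Eigenspace.Minpoly
import Mathlib.RingTheory.IntegralClosure.IsIntegralClosure.Basic
import Mathlib.Tactic

/-!
# The algebra of endomorphisms commuting with a representation

For an endomorphism `T` commuting with `ρ`, the inner product of `g ↦ tr (T ρ(g))` with an
irreducible character `χ` is the trace of `T` on the space of intertwining maps from `χ` to `ρ`.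
-/

set_option autoImplicit false
set_option linter.unusedSectionVars false
set_option linter.style.haveILetI false

open scoped ComplexConjugate
open Module Cfsg

namespace CfsgLib.AltGroups

open CfsgLib.CharTheory

variable {G : Type*} [Group G] [Fintype G] {U V : Type*}
  [AddCommGroup U] [Module ℂ U] [FiniteDimensional ℂ U]
  [AddCommGroup V] [Module ℂ V] [FiniteDimensional ℂ V]

/-- The sandwich `X ↦ A X B`. -/
noncomputable def sandwich (A : V →ₗ[ℂ] V) (B : U →ₗ[ℂ] U) : (U →ₗ[ℂ] V) →ₗ[ℂ] (U →ₗ[ℂ] V) where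
  toFun X := A ∘ₗ X ∘ₗ B
  map_add' X Y := by ext u; simp
  map_smul' c X := by ext u; simp

theorem trace_sandwich (A : V →ₗ[ℂ] V) (B : U →ₗ[ℂ] U) :
    LinearMap.trace ℂ _ (sandwich A B) = LinearMap.trace ℂ _ B * LinearMap.trace ℂ _ A := by
  have h : sandwich A B
      = (dualTensorHomEquiv ℂ U V).conj (TensorProduct.map B.dualMap A) := by
    refine LinearMap.ext fun X => ?_
    obtain ⟨y, rfl⟩ := (dualTensorHomEquiv ℂ U V).surjective X
    rw [LinearEquiv.conj_apply_apply, LinearEquiv.symm_apply_apply]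
    induction y using TensorProduct.induction_on with
    | zero => simp
    | add a b ha hb => rw [map_add, map_add, map_add, map_add, ha, hb]
    | tmul f v =>
      ext u
      simp [sandwich, TensorProduct.map_tmul, dualTensorHom_apply]
  rw [h, LinearMap.trace_conj', LinearMap.trace_tensorProduct']
  exact congrArg (· * _) (LinearMap.trace_transpose' B)

variable (σ : Representation ℂ G U) (ρ : Representation ℂ G V)

theorem mem_hom_iff {X : U →ₗ[ℂ] V} :
    X ∈ (σ.linHom ρ).invariants ↔ ∀ g, X ∘ₗ σ g = ρ g ∘ₗ X := by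
  rw [Representation.mem_invariants]
  constructor
  · intro h g
    have := h g
    rw [Representation.linHom_apply] at this
    conv_lhs => rw [← this]
    ext u
    simp [← Module.End.mul_apply (σ g⁻¹), ← map_mul]
  · intro h g
    rw [Representation.linHom_apply, h g⁻¹]
    ext u
    simp [← Module.End.mul_apply, ← map_mul]

variable {σ ρ}

theorem comp_mem_hom {T : V →ₗ[ℂ] V} (hT : ∀ g, T ∘ₗ ρ g = ρ g ∘ₗ T) {X : U →ₗ[ℂ] V}
    (hX : X ∈ (σ.linHom ρ).invariants) : T ∘ₗ X ∈ (σ.linHom ρ).invariants := by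
  rw [mem_hom_iff] at hX ⊢
  intro g
  rw [LinearMap.comp_assoc, hX, ← LinearMap.comp_assoc, hT, LinearMap.comp_assoc]

/-- Post-composition with `T` on the intertwining maps. -/
noncomputable def postOn {T : V →ₗ[ℂ] V} (hT : ∀ g, T ∘ₗ ρ g = ρ g ∘ₗ T)
    (σ : Representation ℂ G U) : (σ.linHom ρ).invariants →ₗ[ℂ] (σ.linHom ρ).invariants :=
  LinearMap.restrict (LinearMap.llcomp ℂ U V V T) fun _ hX => comp_mem_hom hT hX

@[simp] theorem postOn_apply {T : V →ₗ[ℂ] V} (hT : ∀ g, T ∘ₗ ρ g = ρ g ∘ₗ T)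
    (σ : Representation ℂ G U) (X : (σ.linHom ρ).invariants) :
    (postOn hT σ X : U →ₗ[ℂ] V) = T ∘ₗ (X : U →ₗ[ℂ] V) := rfl

theorem trace_postOn {T : V →ₗ[ℂ] V} (hT : ∀ g, T ∘ₗ ρ g = ρ g ∘ₗ T)
    (σ : Representation ℂ G U) :
    LinearMap.trace ℂ _ (postOn hT σ)
      = classInner (fun g => LinearMap.trace ℂ V (T ∘ₗ ρ g)) σ.character := by
  classical
  haveI : Invertible (Fintype.card G : ℂ) := invertibleOfNonzero (by exact_mod_cast Fintype.card_ne_zero)
  let avg := (σ.linHom ρ).averageMap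
  let f : (U →ₗ[ℂ] V) →ₗ[ℂ] (U →ₗ[ℂ] V) := LinearMap.llcomp ℂ U V V T ∘ₗ avg
  have hf : ∀ X, f X ∈ (σ.linHom ρ).invariants := fun X =>
    comp_mem_hom hT ((σ.linHom ρ).averageMap_invariant X)
  have h1 : postOn hT σ = f.restrict (p := (σ.linHom ρ).invariants) fun X _ => hf X := by
    refine LinearMap.ext fun X => Subtype.ext ?_
    show T ∘ₗ (X : U →ₗ[ℂ] V) = T ∘ₗ avg X
    rw [(σ.linHom ρ).averageMap_id _ X.2]
  have h2 : f = (Fintype.card G : ℂ)⁻¹ • ∑ g, sandwich (T ∘ₗ ρ g) (σ g⁻¹) := by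
    refine LinearMap.ext fun X => LinearMap.ext fun u => ?_
    simp [f, avg, GroupAlgebra.average, map_sum, LinearMap.sum_apply, sandwich, invOf_eq_inv]
  rw [h1, LinearMap.trace_restrict_eq_of_forall_mem _ f hf, h2, map_smul, map_sum]
  simp only [trace_sandwich, smul_eq_mul, classInner, Nat.card_eq_fintype_card]
  refine congrArg _ (Finset.sum_congr rfl fun g _ => ?_)
  rw [mul_comm]
  exact congrArg _ (isCharacter_inv (isCharacter_character σ) g)

/-- `⟨tr (T ρ), χ⟩` is an algebraic integer when `T` is integral. -/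
theorem isIntegral_classInner_trace {T : V →ₗ[ℂ] V} (hT : ∀ g, T ∘ₗ ρ g = ρ g ∘ₗ T)
    (hint : IsIntegral ℤ T) {χ : G → ℂ} (hχ : IsIrrCharacter G χ) :
    IsIntegral ℤ (classInner (fun g => LinearMap.trace ℂ V (T ∘ₗ ρ g)) χ) := by
  obtain ⟨n, σ, -, rfl⟩ := hχ
  rw [← trace_postOn hT σ]
  obtain ⟨p, hp, hp0⟩ := hint
  set f := postOn hT σ
  rw [Module.End.trace_eq_sum_roots_charpoly_of_splits (IsAlgClosed.splits _)]
  refine IsIntegral.multiset_sum fun c hc => ⟨p, hp, ?_⟩
  obtain ⟨X, hX⟩ := (Module.End.hasEigenvalue_iff_isRoot_charpoly f c).mpr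
    ((Polynomial.mem_roots (LinearMap.charpoly_monic f).ne_zero).mp hc) |>.exists_hasEigenvector
  obtain ⟨u, hu⟩ : ∃ u, (X : (Fin n → ℂ) →ₗ[ℂ] V) u ≠ 0 := by
    by_contra h
    push Not at h
    exact hX.2 (Subtype.ext (LinearMap.ext h))
  have hev : Module.End.HasEigenvector T c ((X : (Fin n → ℂ) →ₗ[ℂ] V) u) := by
    refine ⟨Module.End.mem_eigenspace_iff.mpr ?_, hu⟩
    exact LinearMap.congr_fun (congrArg Subtype.val hX.apply_eq_smul) u
  have h3 := Module.End.aeval_apply_of_hasEigenvector (p := p.map (algebraMap ℤ ℂ)) hev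
  rw [Polynomial.aeval_map_algebraMap, Polynomial.aeval_def, hp0, LinearMap.zero_apply,
    Polynomial.eval_map] at h3
  exact (smul_eq_zero.mp h3.symm).resolve_right hu

theorem classInner_eq_finrank_hom (σ : Representation ℂ G U) (ρ : Representation ℂ G V) :
    classInner ρ.character σ.character = (finrank ℂ (σ.linHom ρ).invariants : ℂ) := by
  rw [classInner_character_eq_finrank σ ρ,
    (Representation.invariantsEquivIntertwiningMap σ ρ).finrank_eq]

theorem hom_eq_zero (h : classInner ρ.character σ.character = 0) {X : U →ₗ[ℂ] V}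
    (hX : X ∈ (σ.linHom ρ).invariants) : X = 0 := by
  rw [classInner_eq_finrank_hom, Nat.cast_eq_zero] at h
  haveI := Module.finrank_zero_iff.mp h
  exact congrArg Subtype.val (Subsingleton.elim (⟨X, hX⟩ : (σ.linHom ρ).invariants) 0)

theorem exists_hom_ne_zero (h : classInner ρ.character σ.character = 1) :
    ∃ X ∈ (σ.linHom ρ).invariants, X ≠ 0 := by
  rw [classInner_eq_finrank_hom, Nat.cast_eq_one] at h
  obtain ⟨⟨X, hX⟩, hX0, -⟩ := finrank_eq_one_iff'.mp h
  exact ⟨X, hX, fun h0 => hX0 (Subtype.ext h0)⟩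

/-- `⟨tr (T ρ), χ⟩` vanishes when `χ` is no constituent of `ρ`. -/
theorem classInner_trace_eq_zero {T : V →ₗ[ℂ] V} (hT : ∀ g, T ∘ₗ ρ g = ρ g ∘ₗ T) {χ : G → ℂ}
    (hχ : IsIrrCharacter G χ) (h0 : classInner ρ.character χ = 0) :
    classInner (fun g => LinearMap.trace ℂ V (T ∘ₗ ρ g)) χ = 0 := by
  obtain ⟨n, σ, -, rfl⟩ := hχ
  rw [classInner_eq_finrank_hom, Nat.cast_eq_zero] at h0
  haveI := Module.finrank_zero_iff.mp h0
  rw [← trace_postOn hT σ, Subsingleton.elim (postOn hT σ) 0, map_zero]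

/-- The trace of a commuting endomorphism, resolved over the irreducible characters. -/
theorem trace_eq_sum [Fintype (IrrCharacter G)] {T : V →ₗ[ℂ] V} (hT : ∀ g, T ∘ₗ ρ g = ρ g ∘ₗ T) :
    LinearMap.trace ℂ V T = ∑ χ : IrrCharacter G,
      classInner (fun g => LinearMap.trace ℂ V (T ∘ₗ ρ g)) (χ : G → ℂ) * (χ : G → ℂ) 1 := by
  have hcl : IsClassFunction G fun g => LinearMap.trace ℂ V (T ∘ₗ ρ g) := by
    intro g x
    show LinearMap.trace ℂ V (T ∘ₗ ρ (x * g * x⁻¹)) = LinearMap.trace ℂ V (T ∘ₗ ρ g)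
    rw [map_mul, map_mul, Module.End.mul_eq_comp, Module.End.mul_eq_comp, LinearMap.comp_assoc,
      ← LinearMap.comp_assoc, hT, LinearMap.comp_assoc, LinearMap.trace_comp_comm',
      LinearMap.comp_assoc, LinearMap.comp_assoc, ← Module.End.mul_eq_comp (ρ x⁻¹), ← map_mul,
      inv_mul_cancel, map_one, Module.End.one_eq_id, LinearMap.comp_id]
  have := congrFun (eq_sum_classInner hcl) 1
  simpa [Finset.sum_apply, Module.End.one_eq_id] using this

/-- A commuting endomorphism acts by a scalar on a constituent of multiplicity one, and that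
scalar is `⟨tr (T ρ), χ⟩`. -/
theorem comp_eq_smul {T : V →ₗ[ℂ] V} (hT : ∀ g, T ∘ₗ ρ g = ρ g ∘ₗ T) (σ : Representation ℂ G U)
    (h1 : classInner ρ.character σ.character = 1) {X : U →ₗ[ℂ] V}
    (hX : X ∈ (σ.linHom ρ).invariants) :
    T ∘ₗ X = classInner (fun g => LinearMap.trace ℂ V (T ∘ₗ ρ g)) σ.character • X := by
  rw [classInner_eq_finrank_hom, Nat.cast_eq_one] at h1
  obtain ⟨X₀, hX₀, hsp⟩ := finrank_eq_one_iff'.mp h1
  obtain ⟨c, hc⟩ := hsp (postOn hT σ X₀)
  have hall : postOn hT σ = c • LinearMap.id := by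
    refine LinearMap.ext fun Y => ?_
    obtain ⟨a, rfl⟩ := hsp Y
    rw [map_smul, ← hc]
    simp [smul_smul, mul_comm]
  have htr := trace_postOn hT σ
  rw [hall, map_smul, LinearMap.trace_id, h1, Nat.cast_one, smul_eq_mul, mul_one] at htr
  have := congrArg Subtype.val (LinearMap.congr_fun hall ⟨X, hX⟩)
  rw [← htr]
  exact this

/-- Endomorphisms agreeing on all irreducible constituents are equal. -/
theorem eq_of_eq_on_constituents {A B : V →ₗ[ℂ] V}
    (h : ∀ (n : ℕ) (σ : Representation ℂ G (Fin n → ℂ)), σ.IsIrreducible →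
      ∀ X ∈ (σ.linHom ρ).invariants, A ∘ₗ X = B ∘ₗ X) : A = B := by
  suffices H : ∀ r : Subrepresentation ρ, ∀ v ∈ r.toSubmodule, A v = B v from
    LinearMap.ext fun v => H ⊤ v trivial
  refine subrep_induction ρ ?_ (fun p hp => ?_) ?_
  · intro v hv
    rw [(Submodule.mem_bot ℂ).1 hv, map_zero, map_zero]
  · haveI := isIrreducible_of_isAtom hp
    intro v hv
    let e := (Module.finBasis ℂ p.toSubmodule).equivFun
    let σ := conjRep p.toRepresentation e
    haveI : σ.IsIrreducible := isIrreducible_of_equiv (conjRepEquiv p.toRepresentation e)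
    let X : (Fin (finrank ℂ p.toSubmodule) → ℂ) →ₗ[ℂ] V := p.toSubmodule.subtype ∘ₗ e.symm.toLinearMap
    have hX : X ∈ (σ.linHom ρ).invariants := by
      rw [mem_hom_iff]
      intro g
      refine LinearMap.ext fun w => ?_
      simp [X, σ, conjRep_apply, toRepresentation_apply]
    have := LinearMap.congr_fun (h _ σ inferInstance X hX) (e ⟨v, hv⟩)
    simpa [X] using this
  · intro p q r hr _ hp hq v hv
    rw [← hr, Subrepresentation.toSubmodule_sup] at hv
    obtain ⟨a, ha, b, hb, rfl⟩ := Submodule.mem_sup.1 hv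
    rw [map_add, map_add, hp a ha, hq b hb]

/-- Multiplicity free implies that commuting endomorphisms commute with each other. -/
theorem comp_comm_of_multiplicityFree
    (hm : ∀ χ : G → ℂ, IsIrrCharacter G χ →
      classInner ρ.character χ = 0 ∨ classInner ρ.character χ = 1)
    {S T : V →ₗ[ℂ] V} (hS : ∀ g, S ∘ₗ ρ g = ρ g ∘ₗ S) (hT : ∀ g, T ∘ₗ ρ g = ρ g ∘ₗ T) :
    S ∘ₗ T = T ∘ₗ S := by
  refine eq_of_eq_on_constituents (ρ := ρ) fun n σ hσ X hX => ?_
  haveI := hσ
  rcases hm σ.character (isIrrCharacter_character σ) with h | h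
  · rw [classInner_eq_finrank_hom, Nat.cast_eq_zero] at h
    haveI := Module.finrank_zero_iff.mp h
    have : X = 0 := congrArg Subtype.val (Subsingleton.elim (⟨X, hX⟩ : (σ.linHom ρ).invariants) 0)
    simp [this]
  · rw [LinearMap.comp_assoc, LinearMap.comp_assoc, comp_eq_smul hT σ h hX, LinearMap.comp_smul,
      comp_eq_smul hS σ h hX, LinearMap.comp_smul, comp_eq_smul hT σ h hX, smul_comm]

/-- If all commuting endomorphisms commute with each other, `ρ` is multiplicity free. -/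
theorem multiplicityFree_of_comm
    (hc : ∀ S T : V →ₗ[ℂ] V, (∀ g, S ∘ₗ ρ g = ρ g ∘ₗ S) → (∀ g, T ∘ₗ ρ g = ρ g ∘ₗ T) →
      S ∘ₗ T = T ∘ₗ S)
    {χ : G → ℂ} (hχ : IsIrrCharacter G χ) :
    classInner ρ.character χ = 0 ∨ classInner ρ.character χ = 1 := by
  obtain ⟨n, σ, hσ, rfl⟩ := hχ
  haveI := hσ
  rw [classInner_eq_finrank_hom, Nat.cast_eq_zero, Nat.cast_eq_one]
  by_contra hcon
  push Not at hcon
  haveI : Nontrivial (σ.linHom ρ).invariants :=
    Module.nontrivial_of_finrank_pos (R := ℂ) (Nat.pos_of_ne_zero hcon.1)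
  obtain ⟨⟨X, hX⟩, hX0⟩ := exists_ne (0 : (σ.linHom ρ).invariants)
  obtain ⟨⟨Y, hY⟩, hYX⟩ : ∃ Y : (σ.linHom ρ).invariants,
      ∀ c : ℂ, c • (⟨X, hX⟩ : (σ.linHom ρ).invariants) ≠ Y := by
    by_contra h
    push Not at h
    exact hcon.2 (finrank_eq_one_iff'.mpr ⟨_, hX0, h⟩)
  have hX' := (mem_hom_iff σ ρ).mp hX
  have hY' := (mem_hom_iff σ ρ).mp hY
  let FX : Representation.IntertwiningMap σ ρ := Representation.invariantsEquivIntertwiningMap σ ρ ⟨X, hX⟩
  have hinj : Function.Injective X := by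
    have := Representation.IsIrreducible.injective_or_eq_zero FX
    refine this.resolve_right fun h0 => hX0 ?_
    exact (Representation.invariantsEquivIntertwiningMap σ ρ).map_eq_zero_iff.mp h0
  haveI : Invertible (Fintype.card G : ℂ) := invertibleOfNonzero (by exact_mod_cast Fintype.card_ne_zero)
  obtain ⟨P₀, hP₀⟩ := X.exists_leftInverse_of_injective (LinearMap.ker_eq_bot.mpr hinj)
  set P := (ρ.linHom σ).averageMap P₀ with hPdef
  have hP := (mem_hom_iff ρ σ).mp ((ρ.linHom σ).averageMap_invariant P₀)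
  rw [← hPdef] at hP
  have hPX : P ∘ₗ X = LinearMap.id := by
    refine LinearMap.ext fun u => ?_
    have h1 : ∀ g : G, σ g (P₀ (ρ g⁻¹ (X u))) = u := by
      intro g
      rw [← LinearMap.comp_apply (ρ g⁻¹) X, ← hX', LinearMap.comp_apply,
        ← LinearMap.comp_apply P₀ X, hP₀, LinearMap.id_apply, ← Module.End.mul_apply, ← map_mul,
        mul_inv_cancel, map_one]
      rfl
    simp [hPdef, GroupAlgebra.average, map_sum, LinearMap.sum_apply, h1, Finset.card_univ,
      ← Nat.cast_smul_eq_nsmul ℂ, smul_smul, invOf_eq_inv]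
  obtain ⟨c, hc'⟩ := exists_smul_of_commute σ (P ∘ₗ Y) fun g => by
    rw [LinearMap.comp_assoc, hY', ← LinearMap.comp_assoc, hP, LinearMap.comp_assoc]
  let Z := Y - c • X
  have hZ : Z ∈ (σ.linHom ρ).invariants := Submodule.sub_mem _ hY (Submodule.smul_mem _ c hX)
  have hZ' := (mem_hom_iff σ ρ).mp hZ
  have hPZ : P ∘ₗ Z = 0 := by
    simp only [Z, LinearMap.comp_sub, LinearMap.comp_smul, hc', hPX, sub_self]
  have hST := hc (X ∘ₗ P) (Z ∘ₗ P)
    (fun g => by rw [LinearMap.comp_assoc, hP, ← LinearMap.comp_assoc, hX', LinearMap.comp_assoc])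
    (fun g => by rw [LinearMap.comp_assoc, hP, ← LinearMap.comp_assoc, hZ', LinearMap.comp_assoc])
  have h2 := congrArg (· ∘ₗ X) hST
  simp only [LinearMap.comp_assoc, hPX, LinearMap.comp_id, hPZ, LinearMap.comp_zero] at h2
  refine hYX c (Subtype.ext ?_)
  exact (sub_eq_zero.mp h2.symm).symm

end CfsgLib.AltGroups
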