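import Cfsg.Agent.Lib.AltGroups.FourTransFive
import Cfsg.Agent.Lib.Mathieu.Jordan

/-!
`t`-transitive groups, `4 ≤ t`, in which only the identity fixes more than `t` points.
-/

set_option autoImplicit false
set_option linter.style.haveILetI false
set_option linter.unusedSectionVars false

open MulAction

namespace CfsgLib.AltGroups.MT

universe u v

theorem stabilizer_embedding_eq_bot {G : Type u} {α : Type v} [Group G] [MulAction G α] [Fintype α] {t m : ℕ}
    (hfix : FixFew G α t) (hm : t < m) (x : Fin m ↪ α) : stabilizer G x = ⊥ := by
  rw [Subgroup.eq_bot_iff_forall]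
  intro g hg
  refine hfix g (Finset.univ.map x) (by simp [hm]) fun a ha => ?_
  obtain ⟨i, -, rfl⟩ := Finset.mem_map.mp ha
  exact DFunLike.congr_fun hg i

/-- The classification of `t`-transitive groups, `4 ≤ t`, in which only the identity fixes more than
`t` points: they have degree at most `t + 3`, or the parameters of `M₁₁` or `M₁₂`. -/
theorem transitive_fixFew (t : ℕ) (ht : 4 ≤ t) :
    ∀ (G : Type u) (α : Type v) [Group G] [Finite G] [MulAction G α] [Fintype α],
      IsMultiplyPretransitive G α t → FixFew G α t →
        Fintype.card α ≤ t + 3 ∨ (t = 4 ∧ Fintype.card α = 11 ∧ Nat.card G = 7920) ∨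
          (t = 5 ∧ Fintype.card α = 12 ∧ Nat.card G = 95040) ∨
          (t = 4 ∧ Fintype.card α = 12 ∧ Nat.card G = 95040) := by
  induction t, ht using Nat.le_induction with
  | base =>
    intro G α _ _ _ _ h hfix
    rcases four_transitive_fixFew h hfix with h | h | h
    · exact Or.inl h
    · exact Or.inr (Or.inl ⟨rfl, h⟩)
    · exact Or.inr (Or.inr (Or.inr ⟨rfl, h⟩))
  | succ t ht ih =>
    intro G α _ _ _ _ h hfix
    rcases Nat.lt_or_ge (t + 1 + 3) (Fintype.card α) with hn | hn
    swap
    · exact Or.inl hn
    classical
    haveI := h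
    have hc : (Fintype.card α : ℕ) = Nat.card α := Fintype.card_eq_nat_card
    haveI : IsPretransitive G α := by
      rw [← is_one_pretransitive_iff]
      exact isMultiplyPretransitive_of_le (n := t + 1) (by omega) (by rw [← hc]; omega)
    obtain ⟨a⟩ : Nonempty α := Fintype.card_pos_iff.mp (by omega)
    haveI : Fintype (SubMulAction.ofStabilizer G a) := Fintype.ofFinite _
    have hh := (SubMulAction.ofStabilizer.isMultiplyPretransitive (n := t) (a := a)).mp h
    have hcard : Fintype.card (SubMulAction.ofStabilizer G a) = Fintype.card α - 1 := by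
      rw [← Nat.card_eq_fintype_card, SubMulAction.nat_card_ofStabilizer_eq G a, hc]
    have hG : Nat.card G = Fintype.card α * Nat.card (stabilizer G a) := by
      rw [← (stabilizer G a).index_mul_card, index_stabilizer_of_transitive, hc]
    have hfix' : FixFew (stabilizer G a) (SubMulAction.ofStabilizer G a) t := by
      intro g s hs hg
      refine Subtype.ext (hfix _ (insert a (s.map (Function.Embedding.subtype _))) ?_ ?_)
      · rw [Finset.card_insert_of_notMem, Finset.card_map]
        · omega
        · simp only [Finset.mem_map, Function.Embedding.coe_subtype, not_exists, not_and]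
          rintro ⟨b, hb⟩ - h
          exact hb h
      · intro b hb
        rcases Finset.mem_insert.mp hb with rfl | hb
        · exact g.2
        · obtain ⟨c, hc', rfl⟩ := Finset.mem_map.mp hb
          exact congrArg Subtype.val (hg c hc')
    have hkill : Fintype.card α = 13 → Nat.card G = 1235520 → t + 1 ≤ 6 → False := by
      intro h13 hG' ht6
      have hs : ∀ x : Fin 6 ↪ α, stabilizer G x = ⊥ := by
        intro x
        rcases Nat.lt_or_ge (t + 1) 6 with h' | h'
        · exact stabilizer_embedding_eq_bot hfix h' x
        · have e : t + 1 = 6 := by omega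
          rw [e] at h
          have h1 := card_eq_descFactorial_mul h (Finset.univ.map x) (by simp)
          rw [hG', h13, show (13 : ℕ).descFactorial 6 = 1235520 from rfl, eq_comm,
            mul_eq_left₀ (by norm_num), Subgroup.card_eq_one] at h1
          rw [eq_bot_iff, ← h1]
          intro g hg
          rw [mem_fixingSubgroup_iff]
          intro b hb
          obtain ⟨i, -, rfl⟩ := Finset.mem_map.mp (Finset.mem_coe.mp hb)
          exact DFunLike.congr_fun hg i
      haveI : IsMultiplyPretransitive G α 6 := pretransitive_of_card hs (by rw [hG', h13]; rfl)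
      exact CfsgLib.Mathieu.Jordan.card_ne_thirteen hs (by rw [← hc, h13])
    rcases ih (stabilizer G a) (SubMulAction.ofStabilizer G a) hh hfix' with
      h' | ⟨rfl, h1, h2⟩ | ⟨rfl, h1, h2⟩ | ⟨rfl, h1, h2⟩
    · omega
    · refine Or.inr (Or.inr (Or.inl ⟨rfl, by omega, ?_⟩))
      rw [hG, h2, show Fintype.card α = 12 by omega]
    · exact (hkill (by omega) (by rw [hG, h2, show Fintype.card α = 13 by omega]) le_rfl).elim
    · exact (hkill (by omega) (by rw [hG, h2, show Fintype.card α = 13 by omega]) (by omega)).elim

end CfsgLib.AltGroups.MT
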