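import Cfsg.Agent.Lib.AltGroups.MultiTransTools
import Cfsg.Agent.Lib.AltGroups.ZassenhausBasic
import Cfsg.Agent.Lib.Derangements.PermIndex

/-!
Quadruply transitive groups in which only the identity fixes five points.
-/

set_option autoImplicit false
set_option linter.style.haveILetI false
set_option linter.unusedSectionVars false

open MulAction

namespace CfsgLib.AltGroups.MT

variable {G α : Type*} [Group G] [Finite G] [MulAction G α] [Fintype α]

/-- Only the identity fixes more than `t` points. -/
def FixFew (G α : Type*) [Group G] [MulAction G α] (t : ℕ) : Prop :=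
  ∀ g : G, ∀ s : Finset α, t < s.card → (∀ a ∈ s, g • a = a) → g = 1

theorem exists_move4 (h4 : IsMultiplyPretransitive G α 4) {a b c d a' b' c' d' : α}
    (h1 : a ≠ b) (h2 : a ≠ c) (h3 : a ≠ d) (h5 : b ≠ c) (h6 : b ≠ d) (h7 : c ≠ d)
    (k1 : a' ≠ b') (k2 : a' ≠ c') (k3 : a' ≠ d') (k5 : b' ≠ c') (k6 : b' ≠ d') (k7 : c' ≠ d') :
    ∃ g : G, g • a = a' ∧ g • b = b' ∧ g • c = c' ∧ g • d = d' := by
  let u : Fin 4 ↪ α := ⟨![a, b, c, d], fun i j hij => by
    fin_cases i <;> fin_cases j <;>
      simp_all [h1.symm, h2.symm, h3.symm, h5.symm, h6.symm, h7.symm]⟩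
  let v : Fin 4 ↪ α := ⟨![a', b', c', d'], fun i j hij => by
    fin_cases i <;> fin_cases j <;>
      simp_all [k1.symm, k2.symm, k3.symm, k5.symm, k6.symm, k7.symm]⟩
  obtain ⟨g, hg⟩ := h4.exists_smul_eq u v
  exact ⟨g, DFunLike.congr_fun hg 0, DFunLike.congr_fun hg 1, DFunLike.congr_fun hg 2, DFunLike.congr_fun hg 3⟩

/-- The order of a four-point stabiliser divides the number of remaining points. -/
theorem dvd_of_fixFew (hfix : FixFew G α 4) (B : Finset α) (hB : B.card = 4) :
    Nat.card (fixingSubgroup G (B : Set α)) ∣ Fintype.card α - 4 := by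
  classical
  let β := SubMulAction.ofFixingSubgroup G (B : Set α)
  have hβ : Nat.card β = Fintype.card α - 4 := by
    show Nat.card (((B : Set α)ᶜ : Set α)) = _
    rw [Nat.card_coe_set_eq, Set.ncard_compl, Nat.card_eq_fintype_card, Set.ncard_coe_finset, hB]
  rw [← hβ]
  refine CfsgLib.AltGroups.dvd_card_of_card_stabilizer (m := 1) (one_mul _).symm fun r => ?_
  rw [Subgroup.card_eq_one, Subgroup.eq_bot_iff_forall]
  intro y hy
  refine Subtype.ext (hfix _ (insert (r : α) B) ?_ ?_)
  · rw [Finset.card_insert_of_notMem (show (r : α) ∉ B from r.2), hB]; omega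
  · intro e he
    rcases Finset.mem_insert.mp he with rfl | he
    · exact congrArg Subtype.val hy
    · exact (mem_fixingSubgroup_iff G).mp y.2 e he

/-- The action is faithful. -/
theorem faithful_of_fixFew (hfix : FixFew G α 4) (hn : 5 ≤ Fintype.card α) : FaithfulSMul G α := by
  refine ⟨fun {g g'} h => (inv_mul_eq_one.mp (hfix (g'⁻¹ * g) Finset.univ ?_ fun a _ => ?_)).symm⟩
  · rw [Finset.card_univ]; omega
  · rw [mul_smul, h, inv_smul_smul]

/-- Four-point stabilisers of odd order. -/
theorem four_odd (h4 : IsMultiplyPretransitive G α 4) (hfix : FixFew G α 4) (hn : 8 ≤ Fintype.card α)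
    (B₀ : Finset α) (hB₀ : B₀.card = 4) (hodd : Odd (Nat.card (fixingSubgroup G (B₀ : Set α)))) :
    Fintype.card α = 11 ∧ Nat.card G = 7920 := by
  classical
  haveI := Fintype.ofFinite G
  haveI := faithful_of_fixFew hfix (by omega)
  set x := Nat.card (fixingSubgroup G (B₀ : Set α)) with hx
  have hG := card_eq_descFactorial_mul h4 B₀ hB₀
  have hdvd := dvd_of_fixFew hfix B₀ hB₀
  -- involutions fix at most three points
  have hinvol : ∀ (w : G) (s : Finset α), w * w = 1 → 4 ≤ s.card → (∀ e ∈ s, w • e = e) → w = 1 := by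
    intro w s hw hs hws
    obtain ⟨s', hs', hs'c⟩ := Finset.exists_subset_card_eq hs
    have hmem : w ∈ fixingSubgroup G (s' : Set α) :=
      (mem_fixingSubgroup_iff G).mpr fun e he => hws e (hs' he)
    have h1 : orderOf (⟨w, hmem⟩ : fixingSubgroup G (s' : Set α)) ∣ 2 :=
      orderOf_dvd_of_pow_eq_one (Subtype.ext (by rw [pow_two]; exact hw))
    have h2 := orderOf_dvd_natCard (⟨w, hmem⟩ : fixingSubgroup G (s' : Set α))
    rw [card_fixing_congr h4 s' B₀ hs'c hB₀] at h2
    have h3 := Nat.eq_one_of_dvd_coprimes (Nat.coprime_two_left.mpr hodd) h1 h2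
    exact congrArg Subtype.val (orderOf_eq_one_iff.mp h3)
  -- involutive lifts, commuting with a given involution
  have hlift : ∀ (g : G) (B' : Finset α), B'.card = 4 → (∀ e ∈ B', g • e ∈ B' ∧ g • g • e = e) →
      ∀ u : G, u * u = 1 → (∀ e ∈ B', u • e ∈ B' ∧ u • g • e = g • u • e) →
      ∃ w : G, w * w = 1 ∧ u * w = w * u ∧ ∀ e ∈ B', w • e = g • e := by
    intro g B' hB' hg u hu hug
    obtain ⟨m, hm⟩ := hodd
    have hx' : Nat.card (fixingSubgroup G (B' : Set α)) = x := card_fixing_congr h4 B' B₀ hB' hB₀
    have hgg : g * g ∈ fixingSubgroup G (B' : Set α) :=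
      (mem_fixingSubgroup_iff G).mpr fun e he => by rw [mul_smul, (hg e he).2]
    have hu2 : ∀ e : α, u • u • e = e := fun e => by rw [smul_smul, hu, one_smul]
    let J : Finset G := Finset.univ.filter fun w => w * w = 1 ∧ ∀ e ∈ B', w • e = g • e
    obtain ⟨g₀, hg₀J⟩ : ∃ g₀, g₀ ∈ J := by
      refine ⟨(g * g) ^ m * g, ?_⟩
      simp only [J, Finset.mem_filter, Finset.mem_univ, true_and]
      refine ⟨?_, fun e he => ?_⟩
      · have h1 : (g * g) ^ x = 1 := by
          rw [← hx']
          exact congrArg Subtype.val (pow_card_eq_one' (x := (⟨g * g, hgg⟩ : fixingSubgroup G (B' : Set α))))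
        have h2 : (g * g) ^ m * g = g ^ x := by rw [← pow_two g, ← pow_mul, hm, pow_succ]
        rw [h2, ← (Commute.refl g).mul_pow, h1]
      · rw [mul_smul]
        exact (mem_fixingSubgroup_iff G).mp (Subgroup.pow_mem _ hgg m) _ (hg e he).1
    have hg₀ := hg₀J
    simp only [J, Finset.mem_filter, Finset.mem_univ, true_and] at hg₀
    have hJconj : ∀ w ∈ J, g₀ * w * g₀ ∈ J := by
      intro w hw
      simp only [J, Finset.mem_filter, Finset.mem_univ, true_and] at hw ⊢
      refine ⟨?_, fun e he => ?_⟩
      · calc g₀ * w * g₀ * (g₀ * w * g₀) = g₀ * w * (g₀ * g₀) * w * g₀ := by group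
          _ = g₀ * (w * w) * g₀ := by rw [hg₀.1]; group
          _ = _ := by rw [hw.1, mul_one, hg₀.1]
      · rw [mul_smul, mul_smul, hg₀.2 e he, hw.2 _ (hg e he).1, (hg e he).2, hg₀.2 e he]
    have h1 := card_modEq_fixed (β := J) (fun w => ⟨g₀ * w.1 * g₀, hJconj w.1 w.2⟩) (fun w => Subtype.ext (by
      show g₀ * (g₀ * w.1 * g₀) * g₀ = w.1
      calc g₀ * (g₀ * w.1 * g₀) * g₀ = (g₀ * g₀) * w.1 * (g₀ * g₀) := by group
        _ = _ := by rw [hg₀.1]; group))
    have h2 : (Finset.univ.filter fun w : J => (⟨g₀ * w.1 * g₀, hJconj w.1 w.2⟩ : J) = w)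
        = {⟨g₀, hg₀J⟩} := by
      ext ⟨w, hw⟩
      simp only [Finset.mem_filter, Finset.mem_univ, true_and, Finset.mem_singleton, Subtype.mk.injEq]
      refine ⟨fun h => ?_, fun h => by subst h; rw [hg₀.1, one_mul]⟩
      have hw' := hw
      simp only [J, Finset.mem_filter, Finset.mem_univ, true_and] at hw'
      have h3 : g₀ * w = w * g₀ := by
        calc g₀ * w = g₀ * w * (g₀ * g₀) := by rw [hg₀.1, mul_one]
          _ = (g₀ * w * g₀) * g₀ := by group
          _ = _ := by rw [h]
      have h4' : g₀ * w = 1 := hinvol _ B' (by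
        calc g₀ * w * (g₀ * w) = g₀ * w * (w * g₀) := by rw [← h3]
          _ = g₀ * (w * w) * g₀ := by group
          _ = _ := by rw [hw'.1, mul_one, hg₀.1]) (by omega) fun e he => by
        rw [mul_smul, hw'.2 e he, hg₀.2 _ (hg e he).1, (hg e he).2]
      exact (mul_left_cancel (h4'.trans hg₀.1.symm) : w = g₀)
    rw [Fintype.card_coe, h2, Finset.card_singleton] at h1
    have hJu : ∀ w ∈ J, u * w * u ∈ J := by
      intro w hw
      simp only [J, Finset.mem_filter, Finset.mem_univ, true_and] at hw ⊢
      refine ⟨?_, fun e he => ?_⟩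
      · calc u * w * u * (u * w * u) = u * w * (u * u) * w * u := by group
          _ = u * (w * w) * u := by rw [hu]; group
          _ = _ := by rw [hw.1, mul_one, hu]
      · rw [mul_smul, mul_smul, hw.2 _ (hug e he).1, ← (hug e he).2, hu2]
    have h3 := card_modEq_fixed (β := J) (fun w => ⟨u * w.1 * u, hJu w.1 w.2⟩) (fun w => Subtype.ext (by
      show u * (u * w.1 * u) * u = w.1
      calc u * (u * w.1 * u) * u = (u * u) * w.1 * (u * u) := by group
        _ = _ := by rw [hu]; group))
    rw [Fintype.card_coe, h1] at h3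
    obtain ⟨⟨w, hwJ⟩, hwf⟩ := Finset.card_pos.mp (show 0 < (Finset.univ.filter fun w : J =>
      (⟨u * w.1 * u, hJu w.1 w.2⟩ : J) = w).card by omega)
    simp only [Finset.mem_filter, Finset.mem_univ, true_and] at hwf
    have hwf' : u * w * u = w := congrArg Subtype.val hwf
    have hw := hwJ
    simp only [J, Finset.mem_filter, Finset.mem_univ, true_and] at hw
    refine ⟨w, hw.1, ?_, hw.2⟩
    calc u * w = u * w * (u * u) := by rw [hu, mul_one]
      _ = (u * w * u) * u := by group
      _ = _ := by rw [hwf']
  -- the base involution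
  obtain ⟨a, b, c, d, hab, hac, had, hbc, hbd, hcd, hBeq⟩ := Finset.card_eq_four.mp hB₀
  obtain ⟨g, hga, hgb, hgc, hgd⟩ := exists_move4 h4 hab hac had hbc hbd hcd hab.symm hbc hbd hac had hcd
  obtain ⟨u, huu, -, hu⟩ := hlift g B₀ hB₀ (by
      intro e he
      simp only [hBeq, Finset.mem_insert, Finset.mem_singleton] at he ⊢
      rcases he with rfl | rfl | rfl | rfl <;> simp [hga, hgb, hgc, hgd]) 1 (one_mul 1)
    (fun e he => ⟨by rw [one_smul]; exact he, by rw [one_smul, one_smul]⟩)
  have hua : u • a = b := by rw [hu a (by simp [hBeq]), hga]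
  have hub : u • b = a := by rw [hu b (by simp [hBeq]), hgb]
  have huc : u • c = c := by rw [hu c (by simp [hBeq]), hgc]
  have hud : u • d = d := by rw [hu d (by simp [hBeq]), hgd]
  have hu1 : u ≠ 1 := fun h => hab (by rw [← hua, h, one_smul])
  have hu2 : ∀ e : α, u • u • e = e := fun e => by rw [smul_smul, huu, one_smul]
  let Fu : Finset α := Finset.univ.filter fun e => u • e = e
  have hFu : ∀ e, e ∈ Fu ↔ u • e = e := fun e => by simp [Fu]
  have hFle : Fu.card ≤ 3 := by
    by_contra h
    exact hu1 (hinvol u Fu huu (by omega) fun e he => (hFu e).mp he)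
  have hFge : ({c, d} : Finset α) ⊆ Fu := by
    intro e he
    simp only [Finset.mem_insert, Finset.mem_singleton] at he
    rcases he with rfl | rfl <;> rw [hFu] <;> assumption
  have hFge' := Finset.card_le_card hFge
  rw [Finset.card_pair hcd] at hFge'
  have hFpar : Fintype.card α % 2 = Fu.card % 2 := card_modEq_fixed (fun e : α => u • e) hu2
  -- points moved by `u` outside `{a, b}`
  let M : Finset α := Finset.univ \ (Fu ∪ {a, b})
  have hM : ∀ p, p ∈ M ↔ u • p ≠ p ∧ p ≠ a ∧ p ≠ b := fun p => by simp [M, hFu]; tauto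
  have hMc : M.card + (Fu.card + 2) = Fintype.card α := by
    have hd' : Disjoint Fu ({a, b} : Finset α) := by
      simp [Finset.disjoint_insert_right, hFu, hua, hub, hab, hab.symm]
    simp only [M]
    rw [Finset.card_sdiff_of_subset (Finset.subset_univ _), Finset.card_union_of_disjoint hd',
      Finset.card_pair hab, Finset.card_univ]
    have := Finset.card_le_univ (Fu ∪ {a, b})
    rw [Finset.card_union_of_disjoint hd', Finset.card_pair hab] at this
    omega
  have hMu : ∀ p ∈ M, u • p ∈ M := fun p hp => by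
    rw [hM] at hp ⊢
    refine ⟨fun h => hp.1 (by rw [hu2] at h; exact h.symm), fun h => hp.2.2 ?_, fun h => hp.2.1 ?_⟩
    · rw [← hu2 p, h, hua]
    · rw [← hu2 p, h, hub]
  have hw : ∀ p ∈ M, ∃ w : G, w * w = 1 ∧ u * w = w * u ∧ w • a = a ∧ w • b = b ∧ w • p = u • p := by
    intro p hp
    obtain ⟨hpp, hpa, hpb⟩ := (hM p).mp hp
    obtain ⟨-, hqa, hqb⟩ := (hM _).mp (hMu p hp)
    obtain ⟨g, g1, g2, g3, g4⟩ := exists_move4 (a := a) (b := b) (c := p) (d := u • p) (a' := a) (b' := b)
      (c' := u • p) (d' := p) h4 hab hpa.symm hqa.symm hpb.symm hqb.symm hpp.symm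
      hab hqa.symm hpa.symm hqb.symm hpb.symm hpp
    obtain ⟨w, h1, h2, h3⟩ := hlift g {a, b, p, u • p}
      (by simp [hab, hpa.symm, hqa.symm, hpb.symm, hqb.symm, hpp.symm])
      (by
        intro e he
        simp only [Finset.mem_insert, Finset.mem_singleton] at he ⊢
        rcases he with rfl | rfl | rfl | rfl <;> simp [g1, g2, g3, g4])
      u huu (by
        intro e he
        simp only [Finset.mem_insert, Finset.mem_singleton] at he ⊢
        rcases he with rfl | rfl | rfl | rfl <;> simp [g1, g2, g3, g4, hua, hub, hu2])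
    exact ⟨w, h1, h2, by rw [h3 a (by simp), g1], by rw [h3 b (by simp), g2], by rw [h3 p (by simp), g3]⟩
  choose! w hw1 hw2 hwa hwb hwp using hw
  have hwne : ∀ p ∈ M, w p ≠ 1 := fun p hp h => ((hM p).mp hp).1 (by rw [← hwp p hp, h, one_smul])
  have hw2' : ∀ p ∈ M, ∀ e : α, w p • w p • e = e := fun p hp e => by rw [smul_smul, hw1 p hp, one_smul]
  have hwq : ∀ p ∈ M, w p • u • p = p := fun p hp => by rw [← hwp p hp, hw2' p hp]
  have hwF : ∀ p ∈ M, ∀ e ∈ Fu, w p • e ∈ Fu := fun p hp e he => by
    rw [hFu] at he ⊢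
    rw [smul_smul, hw2 p hp, mul_smul, he]
  -- equal involutions come from the same cycle
  have hsame : ∀ p ∈ M, ∀ p' ∈ M, w p = w p' → p' = p ∨ p' = u • p := by
    intro p hp p' hp' he
    by_contra hcon
    push Not at hcon
    obtain ⟨hpp, -, -⟩ := (hM p).mp hp
    obtain ⟨hpp', -, -⟩ := (hM p').mp hp'
    have h1 : w p * u = 1 := hinvol _ {p, u • p, p', u • p'}
      (by
        calc w p * u * (w p * u) = w p * (u * w p) * u := by group
          _ = (w p * w p) * (u * u) := by rw [hw2 p hp]; group
          _ = 1 := by rw [hw1 p hp, huu, mul_one])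
      (by
        have e1 : u • p' ≠ p := fun h => hcon.2 (by rw [← hu2 p', h])
        have e2 : u • p' ≠ u • p := fun h => hcon.1 (MulAction.injective u h)
        simp [hpp.symm, hpp'.symm, hcon.1.symm, hcon.2.symm, e1.symm, e2.symm])
      (by
        intro e he'
        simp only [Finset.mem_insert, Finset.mem_singleton] at he'
        rw [mul_smul]
        rcases he' with rfl | rfl | rfl | rfl
        · exact hwq _ hp
        · rw [hu2, hwp p hp]
        · rw [he]; exact hwq _ hp'
        · rw [hu2, he, hwp p' hp'])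
    have := congrArg (fun v : G => v • a) h1
    simp only [mul_smul, hua, hwb p hp, one_smul] at this
    exact hab this.symm
  rcases Nat.even_or_odd (Fintype.card α) with hev | hod
  · -- an even number of points
    exfalso
    rw [Nat.even_iff] at hev
    have hF2 : Fu = {c, d} := (Finset.eq_of_subset_of_card_le hFge (by rw [Finset.card_pair hcd]; omega)).symm
    rw [hF2, Finset.card_pair hcd] at hMc
    have hwc : ∀ p ∈ M, w p • c = d ∧ w p • d = c := by
      intro p hp
      have h1 : w p • c = c ∨ w p • c = d := by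
        simpa [hF2] using hwF p hp c (by simp [hF2])
      rcases h1 with h1 | h1
      · exfalso
        have h2 : w p • d = d := by
          have : w p • d = c ∨ w p • d = d := by simpa [hF2] using hwF p hp d (by simp [hF2])
          exact this.resolve_left fun h => hcd (MulAction.injective (w p) (h1.trans h.symm))
        refine hwne p hp (hinvol _ B₀ (hw1 p hp) (by omega) ?_)
        intro e he
        simp only [hBeq, Finset.mem_insert, Finset.mem_singleton] at he
        rcases he with rfl | rfl | rfl | rfl
        · exact hwa p hp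
        · exact hwb p hp
        · exact h1
        · exact h2
      · exact ⟨h1, by rw [← h1, hw2' p hp]⟩
    obtain ⟨p₀, hp₀⟩ : M.Nonempty := Finset.card_pos.mp (by omega)
    let D : Finset G := Finset.univ.filter fun y => y ∈ fixingSubgroup G (B₀ : Set α)
    have hDc : D.card = x := by
      rw [hx, Nat.card_eq_fintype_card, Fintype.card_subtype]
    let f : α → G := fun p => w p₀ * w p
    have hfD : ∀ p ∈ M, f p ∈ D ∧ u * f p = f p * u ∧ w p₀ * f p * (w p₀ * f p) = 1 := by
      intro p hp
      refine ⟨?_, ?_, ?_⟩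
      · simp only [D, Finset.mem_filter, Finset.mem_univ, true_and, mem_fixingSubgroup_iff]
        intro e he
        simp only [hBeq, Finset.coe_insert, Finset.coe_singleton, Set.mem_insert_iff,
          Set.mem_singleton_iff] at he
        simp only [f, mul_smul]
        rcases he with rfl | rfl | rfl | rfl
        · rw [hwa p hp, hwa p₀ hp₀]
        · rw [hwb p hp, hwb p₀ hp₀]
        · rw [(hwc p hp).1, (hwc p₀ hp₀).2]
        · rw [(hwc p hp).2, (hwc p₀ hp₀).1]
      · simp only [f]
        rw [← mul_assoc, hw2 p₀ hp₀, mul_assoc, hw2 p hp, mul_assoc]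
      · simp only [f]
        rw [show w p₀ * (w p₀ * w p) = w p from by rw [← mul_assoc, hw1 p₀ hp₀, one_mul], hw1 p hp]
    have h1 : M.card ≤ 2 * (M.image f).card := by
      refine Finset.card_le_mul_card_image M 2 fun y hy => ?_
      obtain ⟨p, hp, rfl⟩ := Finset.mem_image.mp hy
      refine le_trans (Finset.card_le_card (t := {p, u • p}) fun p' hp' => ?_) Finset.card_le_two
      rw [Finset.mem_filter] at hp'
      rcases hsame p hp p' hp'.1 (mul_left_cancel hp'.2.symm) with h | h <;> simp [h]
    have h2 : M.image f ⊆ D := by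
      intro y hy
      obtain ⟨p, hp, rfl⟩ := Finset.mem_image.mp hy
      exact (hfD p hp).1
    have h3 := Finset.card_le_card h2
    have hdvd2 : x ∣ (Fintype.card α - 4) / 2 := by
      refine (Nat.Coprime.dvd_of_dvd_mul_left (Nat.coprime_two_right.mpr hodd) ?_)
      rwa [Nat.mul_div_cancel' (by omega)]
    have h5 := Nat.le_of_dvd (by omega) hdvd2
    have himg : M.image f = D := Finset.eq_of_subset_of_card_le h2 (by omega)
    have hall : ∀ y ∈ fixingSubgroup G (B₀ : Set α), u * y = y * u ∧ w p₀ * y * w p₀ = y⁻¹ := by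
      intro y hy
      have : y ∈ M.image f := by
        rw [himg]
        simp only [D, Finset.mem_filter, Finset.mem_univ, true_and]
        exact hy
      obtain ⟨p, hp, rfl⟩ := Finset.mem_image.mp this
      exact ⟨(hfD p hp).2.1, eq_inv_of_mul_eq_one_left (by rw [mul_assoc]; exact (hfD p hp).2.2)⟩
    obtain ⟨g', g1, g2, g3, g4⟩ := exists_move4 (a := c) (b := d) (c := a) (d := b) (a' := a) (b' := b)
      (c' := c) (d' := d) h4 hcd hac.symm hbc.symm had.symm hbd.symm hab hab hac had hbc hbd hcd
    have hg'mem : ∀ v ∈ fixingSubgroup G (B₀ : Set α), g' * v * g'⁻¹ ∈ fixingSubgroup G (B₀ : Set α) := by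
      intro v hv
      rw [mem_fixingSubgroup_iff] at hv ⊢
      intro e he
      rw [mul_smul, mul_smul]
      simp only [hBeq, Finset.coe_insert, Finset.coe_singleton, Set.mem_insert_iff,
        Set.mem_singleton_iff] at he
      rcases he with h | h | h | h <;> subst h
      · rw [inv_smul_eq_iff.mpr g1.symm, hv c (by simp [hBeq]), g1]
      · rw [inv_smul_eq_iff.mpr g2.symm, hv d (by simp [hBeq]), g2]
      · rw [inv_smul_eq_iff.mpr g3.symm, hv a (by simp [hBeq]), g3]
      · rw [inv_smul_eq_iff.mpr g4.symm, hv b (by simp [hBeq]), g4]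
    set y₀ := g' * w p₀ * g'⁻¹ * u with hy₀
    have hy₀X : y₀ ∈ fixingSubgroup G (B₀ : Set α) := by
      rw [mem_fixingSubgroup_iff]
      intro e he
      simp only [hy₀, mul_smul]
      simp only [hBeq, Finset.coe_insert, Finset.coe_singleton, Set.mem_insert_iff,
        Set.mem_singleton_iff] at he
      rcases he with h | h | h | h <;> subst h
      · rw [hua, inv_smul_eq_iff.mpr g2.symm, (hwc p₀ hp₀).2, g1]
      · rw [hub, inv_smul_eq_iff.mpr g1.symm, (hwc p₀ hp₀).1, g2]
      · rw [huc, inv_smul_eq_iff.mpr g3.symm, hwa p₀ hp₀, g3]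
      · rw [hud, inv_smul_eq_iff.mpr g4.symm, hwb p₀ hp₀, g4]
    have hinv : ∀ v ∈ fixingSubgroup G (B₀ : Set α),
        y₀ * (g' * v * g'⁻¹) * y₀⁻¹ = (g' * v * g'⁻¹)⁻¹ := by
      intro v hv
      have h6 := (hall v hv).2
      have h7 := (hall _ (hg'mem v hv)).1
      have e1 : g' * (w p₀ * v * w p₀) * g'⁻¹ = (g' * v * g'⁻¹)⁻¹ := by rw [h6]; group
      rw [← e1]
      have e2 : u * (g' * v * g'⁻¹) * u = g' * v * g'⁻¹ := by rw [h7, mul_assoc, huu, mul_one]
      have e3 : y₀⁻¹ = u⁻¹ * (g' * (w p₀)⁻¹ * g'⁻¹) := by rw [hy₀]; group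
      rw [e3, inv_eq_of_mul_eq_one_right huu, inv_eq_of_mul_eq_one_right (hw1 p₀ hp₀), hy₀]
      calc g' * w p₀ * g'⁻¹ * u * (g' * v * g'⁻¹) * (u * (g' * w p₀ * g'⁻¹))
          = g' * w p₀ * g'⁻¹ * (u * (g' * v * g'⁻¹) * u) * (g' * w p₀ * g'⁻¹) := by group
        _ = g' * w p₀ * g'⁻¹ * (g' * v * g'⁻¹) * (g' * w p₀ * g'⁻¹) := by rw [e2]
        _ = _ := by group
    have htriv : ∀ v ∈ fixingSubgroup G (B₀ : Set α), v = 1 := by
      intro v hv
      set v' := g' * v * g'⁻¹
      have hy2 : y₀ * y₀ * v' * (y₀ * y₀)⁻¹ = v' := by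
        have h6 := hinv v hv
        have h7 : y₀ * v'⁻¹ * y₀⁻¹ = v' := by
          have e : y₀ * v'⁻¹ * y₀⁻¹ = (y₀ * v' * y₀⁻¹)⁻¹ := by group
          rw [e, h6, inv_inv]
        calc y₀ * y₀ * v' * (y₀ * y₀)⁻¹ = y₀ * (y₀ * v' * y₀⁻¹) * y₀⁻¹ := by group
          _ = v' := by rw [h6, h7]
      obtain ⟨m, hm⟩ := hodd
      have hpow : y₀ ^ x = 1 := congrArg Subtype.val
        (pow_card_eq_one' (x := (⟨y₀, hy₀X⟩ : fixingSubgroup G (B₀ : Set α))))
      have hcomm : Commute y₀ v' := by
        have h8 : Commute ((y₀ * y₀) ^ (m + 1)) v' :=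
          (show Commute (y₀ * y₀) v' from mul_inv_eq_iff_eq_mul.mp hy2).pow_left _
        rwa [← pow_two, ← pow_mul, show 2 * (m + 1) = x + 1 by omega, pow_succ, hpow, one_mul] at h8
      have h6 := hinv v hv
      rw [hcomm.eq, mul_inv_cancel_right] at h6
      have h9 : v' * v' = 1 := mul_eq_one_iff_eq_inv.mpr h6
      have h10 := hinvol v' B₀ h9 (by omega) fun e he => (mem_fixingSubgroup_iff G).mp (hg'mem v hv) e he
      exact conj_eq_one_iff.mp h10
    have hx1 : x = 1 := by
      rw [hx, Subgroup.card_eq_one, Subgroup.eq_bot_iff_forall]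
      exact htriv
    omega
  · -- an odd number of points
    rw [Nat.odd_iff] at hod
    have hF3 : Fu.card = 3 := by omega
    rw [hF3] at hMc
    have hfixw : ∀ p ∈ M, ∃ f ∈ Fu, ∀ e, w p • e = e → e = a ∨ e = b ∨ e = f := by
      intro p hp
      have h1 := card_modEq_fixed (β := Fu) (fun e => ⟨w p • e.1, hwF p hp e.1 e.2⟩)
        (fun e => Subtype.ext (hw2' p hp e.1))
      rw [Fintype.card_coe, hF3] at h1
      obtain ⟨⟨f, hf⟩, hff⟩ := Finset.card_pos.mp (show 0 < (Finset.univ.filter fun e : Fu =>
        (⟨w p • e.1, hwF p hp e.1 e.2⟩ : Fu) = e).card by omega)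
      simp only [Finset.mem_filter, Finset.mem_univ, true_and, Subtype.mk.injEq] at hff
      refine ⟨f, hf, fun e he => ?_⟩
      by_contra hcon
      push Not at hcon
      have hfab : f ≠ a ∧ f ≠ b := by
        rw [hFu] at hf
        exact ⟨fun h => hab (by rw [h, hua] at hf; exact hf.symm), fun h => hab (by rw [h, hub] at hf; exact hf)⟩
      refine hwne p hp (hinvol _ {a, b, f, e} (hw1 p hp) ?_ ?_)
      · simp [hab, hfab.1.symm, hfab.2.symm, hcon.1.symm, hcon.2.1.symm, hcon.2.2.symm]
      · intro v hv
        simp only [Finset.mem_insert, Finset.mem_singleton] at hv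
        rcases hv with rfl | rfl | rfl | rfl
        · exact hwa p hp
        · exact hwb p hp
        · exact hff
        · exact he
    choose! f hfF hfu using hfixw
    have hfw : ∀ p ∈ M, w p • f p = f p := by
      intro p hp
      have h1 := card_modEq_fixed (β := Fu) (fun e => ⟨w p • e.1, hwF p hp e.1 e.2⟩)
        (fun e => Subtype.ext (hw2' p hp e.1))
      rw [Fintype.card_coe, hF3] at h1
      obtain ⟨⟨e, he⟩, hee⟩ := Finset.card_pos.mp (show 0 < (Finset.univ.filter fun e : Fu =>
        (⟨w p • e.1, hwF p hp e.1 e.2⟩ : Fu) = e).card by omega)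
      simp only [Finset.mem_filter, Finset.mem_univ, true_and, Subtype.mk.injEq] at hee
      rcases hfu p hp e hee with h | h | h
      · exfalso; rw [hFu, h, hua] at he; exact hab he.symm
      · exfalso; rw [hFu, h, hub] at he; exact hab he
      · rwa [← h]
    have hne_fix : ∀ p ∈ M, ∀ e ∈ Fu, e ≠ f p → w p • e ≠ e := by
      intro p hp e he hne h
      rw [hFu] at he
      rcases hfu p hp e h with rfl | rfl | rfl
      · exact hab (he.symm.trans hua)
      · exact hab (hub.symm.trans he)
      · exact hne rfl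
    have hweq : ∀ p ∈ M, ∀ p' ∈ M, f p = f p' → w p = w p' := by
      intro p hp p' hp' hpp
      have hagree : ∀ e ∈ Fu, w p • e = w p' • e := by
        intro e he
        by_cases hef : e = f p
        · rw [hef, hfw p hp, hpp, hfw p' hp']
        have hc : ((Fu.erase (f p)).erase e).card ≤ 1 := by
          rw [Finset.card_erase_of_mem (Finset.mem_erase.mpr ⟨hef, he⟩),
            Finset.card_erase_of_mem (hfF p hp), hF3]
        refine Finset.card_le_one.mp hc _ ?_ _ ?_
        · simp only [Finset.mem_erase]
          exact ⟨hne_fix p hp e he hef, fun h => hef (MulAction.injective (w p) (h.trans (hfw p hp).symm)),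
            hwF p hp e he⟩
        · simp only [Finset.mem_erase]
          refine ⟨hne_fix p' hp' e he (hpp ▸ hef), fun h => hef ?_, hwF p' hp' e he⟩
          rw [hpp] at h ⊢
          exact MulAction.injective (w p') (h.trans (hfw p' hp').symm)
      have hd' : Disjoint Fu ({a, b} : Finset α) := by
        simp [Finset.disjoint_insert_right, hFu, hua, hub, hab, hab.symm]
      have h1 := hfix ((w p')⁻¹ * w p) (Fu ∪ {a, b})
        (by rw [Finset.card_union_of_disjoint hd', hF3, Finset.card_pair hab]; norm_num) (by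
          intro e he
          rw [mul_smul, inv_smul_eq_iff]
          simp only [Finset.mem_union, Finset.mem_insert, Finset.mem_singleton] at he
          rcases he with he | rfl | rfl
          · exact hagree e he
          · rw [hwa p hp, hwa p' hp']
          · rw [hwb p hp, hwb p' hp'])
      exact (inv_mul_eq_one.mp h1).symm
    have hbound : M.card ≤ 2 * Fu.card := by
      refine Finset.card_le_mul_card_image_of_maps_to (f := f) hfF 2 fun e _ => ?_
      rcases (M.filter fun p => f p = e).eq_empty_or_nonempty with h | ⟨p, hp⟩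
      · rw [h]; simp
      rw [Finset.mem_filter] at hp
      refine le_trans (Finset.card_le_card (t := {p, u • p}) fun p' hp' => ?_) Finset.card_le_two
      rw [Finset.mem_filter] at hp'
      rcases hsame p hp.1 p' hp'.1 (hweq p hp.1 p' hp'.1 (hp.2.trans hp'.2.symm)) with h | h <;> simp [h]
    rw [hF3] at hbound
    have hn9 : Fintype.card α ≠ 9 := by
      intro h9
      obtain ⟨p, hp⟩ : M.Nonempty := Finset.card_pos.mp (by omega)
      have hp' := hMu p hp
      obtain ⟨hpp, -, -⟩ := (hM p).mp hp
      let O : Finset α := M \ {p, u • p}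
      have hsub : ({p, u • p} : Finset α) ⊆ M := by
        intro e he
        simp only [Finset.mem_insert, Finset.mem_singleton] at he
        rcases he with rfl | rfl
        · exact hp
        · exact hp'
      have hOc : O.card = 2 := by
        simp only [O]
        rw [Finset.card_sdiff_of_subset hsub, Finset.card_pair hpp.symm]
        omega
      obtain ⟨r, hr⟩ : O.Nonempty := Finset.card_pos.mp (by omega)
      have hO : ∀ e, e ∈ O ↔ u • e ≠ e ∧ e ≠ a ∧ e ≠ b ∧ e ≠ p ∧ e ≠ u • p := fun e => by
        simp [O, hM, and_assoc]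
      obtain ⟨hr1, hr2, hr3, hr4, hr5⟩ := (hO r).mp hr
      have hur : u • r ∈ O := by
        refine (hO _).mpr ⟨fun h => hr1 (by rw [hu2] at h; exact h.symm), fun h => hr3 ?_, fun h => hr2 ?_,
          fun h => hr5 ?_, fun h => hr4 (MulAction.injective u h)⟩
        · rw [← hu2 r, h, hua]
        · rw [← hu2 r, h, hub]
        · rw [← hu2 r, h]
      have hwr : w p • r ∈ O := by
        refine (hO _).mpr ⟨fun h => hr1 ?_, fun h => hr2 ?_, fun h => hr3 ?_, fun h => hr5 ?_, fun h => hr4 ?_⟩
        · rw [smul_smul, hw2 p hp, mul_smul] at h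
          exact MulAction.injective (w p) h
        · exact MulAction.injective (w p) (h.trans (hwa p hp).symm)
        · exact MulAction.injective (w p) (h.trans (hwb p hp).symm)
        · exact MulAction.injective (w p) (h.trans (hwq p hp).symm)
        · exact MulAction.injective (w p) (h.trans (hwp p hp).symm)
      have hwr' : w p • r = u • r := by
        have hne : w p • r ≠ r := by
          intro h
          rcases hfu p hp r h with h' | h' | h'
          · exact hr2 h'
          · exact hr3 h'
          · exact hr1 (by rw [h']; exact (hFu _).mp (hfF p hp))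
        have hc : (O.erase r).card ≤ 1 := by rw [Finset.card_erase_of_mem hr, hOc]
        exact Finset.card_le_one.mp hc _ (Finset.mem_erase.mpr ⟨hne, hwr⟩) _ (Finset.mem_erase.mpr ⟨hr1, hur⟩)
      have h1 : w p * u = 1 := hinvol _ {p, u • p, r, u • r}
        (by
          calc w p * u * (w p * u) = w p * (u * w p) * u := by group
            _ = (w p * w p) * (u * u) := by rw [hw2 p hp]; group
            _ = 1 := by rw [hw1 p hp, huu, mul_one])
        (by
          have e1 : u • r ≠ p := ((hO _).mp hur).2.2.2.1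
          have e2 : u • r ≠ u • p := fun h => hr4 (MulAction.injective u h)
          simp [hpp.symm, hr1.symm, hr4.symm, hr5.symm, e1.symm, e2.symm])
        (by
          intro e he'
          simp only [Finset.mem_insert, Finset.mem_singleton] at he'
          rw [mul_smul]
          rcases he' with rfl | rfl | rfl | rfl
          · exact hwq _ hp
          · rw [hu2, hwp p hp]
          · rw [← hwr', hw2' p hp]
          · rw [hu2]; exact hwr')
      have := congrArg (fun v : G => v • a) h1
      simp only [mul_smul, hua, hwb p hp, one_smul] at this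
      exact hab this.symm
    have hn11 : Fintype.card α = 11 := by omega
    refine ⟨hn11, ?_⟩
    rw [hG, hn11]
    suffices hx1 : x = 1 by rw [← hx, hx1]; rfl
    rw [hn11] at hdvd
    rcases (Nat.dvd_prime (show Nat.Prime 7 by norm_num)).mp hdvd with h | h7
    · exact h
    exfalso
    obtain ⟨g', g1, g2, g3, g4⟩ := exists_move4 h4 hab hac had hbc hbd hcd hbc.symm hac.symm hcd hab.symm hbd had
    obtain ⟨v, hvv, -, hv⟩ := hlift g' B₀ hB₀ (by
        intro e he
        simp only [hBeq, Finset.mem_insert, Finset.mem_singleton] at he ⊢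
        rcases he with rfl | rfl | rfl | rfl <;> simp [g1, g2, g3, g4]) 1 (one_mul 1)
      (fun e he => ⟨by rw [one_smul]; exact he, by rw [one_smul, one_smul]⟩)
    have hva : v • a = c := by rw [hv a (by simp [hBeq]), g1]
    have hvb : v • b = b := by rw [hv b (by simp [hBeq]), g2]
    have hvc : v • c = a := by rw [hv c (by simp [hBeq]), g3]
    set X := fixingSubgroup G (B₀ : Set α)
    haveI : Fact (Nat.Prime 7) := ⟨by norm_num⟩
    have hcyc : IsCyclic X := isCyclic_of_prime_card h7
    obtain ⟨⟨y, hy⟩, hgen⟩ := hcyc.exists_generator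
    have hgen' : ∀ z ∈ X, ∃ i : ℤ, y ^ i = z := fun z hz => by
      obtain ⟨i, hi⟩ := hgen ⟨z, hz⟩
      exact ⟨i, congrArg Subtype.val hi⟩
    have hcj : ∀ s : G, s * s = 1 → (∀ e ∈ B₀, s • e ∈ B₀) →
        ∃ i : ℤ, (∀ m : ℤ, s * y ^ m * s = y ^ (i * m)) ∧ y ^ (i * i) = y := by
      intro s hs hsB
      have hsinv : s⁻¹ = s := inv_eq_of_mul_eq_one_right hs
      obtain ⟨i, hi⟩ := hgen' (s * y * s) ((mem_fixingSubgroup_iff G).mpr fun e he => by
        rw [mul_smul, mul_smul, (mem_fixingSubgroup_iff G).mp hy _ (hsB e he), smul_smul, hs, one_smul])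
      have hm : ∀ m : ℤ, s * y ^ m * s = y ^ (i * m) := fun m => by
        have h1 : s * y * s⁻¹ = y ^ i := by rw [hsinv, hi]
        have h2 : s * y ^ m * s⁻¹ = (s * y * s⁻¹) ^ m := conj_zpow.symm
        rw [hsinv] at h2
        rw [h2, ← hi, ← zpow_mul]
      refine ⟨i, hm, ?_⟩
      rw [← hm i, hi]
      calc s * (s * y * s) * s = (s * s) * y * (s * s) := by group
        _ = y := by rw [hs]; group
    obtain ⟨i, hi, hii⟩ := hcj u huu (by
      intro e he
      simp only [hBeq, Finset.mem_insert, Finset.mem_singleton] at he ⊢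
      rcases he with rfl | rfl | rfl | rfl <;> simp [hua, hub, huc, hud])
    obtain ⟨j, hj, hjj⟩ := hcj v hvv (by
      intro e he
      simp only [hBeq, Finset.mem_insert, Finset.mem_singleton] at he ⊢
      rcases he with rfl | rfl | rfl | rfl <;> simp [hva, hvb, hvc, hv, hBeq, g4])
    set k := u * v * (u * v) with hk
    have hky : k * y * k⁻¹ = y := by
      have e : k⁻¹ = v * u * (v * u) := by
        rw [hk, mul_inv_rev, mul_inv_rev, inv_eq_of_mul_eq_one_right huu, inv_eq_of_mul_eq_one_right hvv]
      rw [e, hk]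
      calc u * v * (u * v) * y * (v * u * (v * u))
          = u * (v * (u * (v * y ^ (1 : ℤ) * v) * u) * v) * u := by group
        _ = y := by
          rw [hj, hi, hj, hi, mul_one, show i * (j * (i * j)) = i * i * (j * j) by ring, zpow_mul, hii, hjj]
    have hka : k • a ≠ a := by
      rw [hk]
      simp only [mul_smul, hva, huc, hvc, hua]
      exact hab.symm
    obtain ⟨r, hr⟩ : ∃ r, r ∉ B₀ := by
      by_contra h'
      push Not at h'
      have := Finset.card_le_card (fun e (_ : e ∈ (Finset.univ : Finset α)) => h' e)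
      rw [Finset.card_univ] at this
      omega
    let R : Finset α := Finset.univ \ B₀
    have hRc : R.card = 7 := by
      simp only [R]
      rw [Finset.card_sdiff_of_subset (Finset.subset_univ _), Finset.card_univ, hB₀, hn11]
    have hXR : ∀ z ∈ X, ∀ e ∈ R, z • e ∈ R := by
      intro z hz e he
      simp only [R, Finset.mem_sdiff, Finset.mem_univ, true_and] at he ⊢
      intro h'
      exact he (MulAction.injective z ((mem_fixingSubgroup_iff G).mp hz _ h') ▸ h')
    have htrans : ∀ e ∈ R, ∃ z ∈ X, z • r = e := by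
      have hrR : r ∈ R := by simp [R, hr]
      haveI := Fintype.ofFinite X
      have himg : (Finset.univ.image fun z : X => (z : G) • r) = R := by
        refine Finset.eq_of_subset_of_card_le ?_ ?_
        · intro e he
          obtain ⟨z, -, rfl⟩ := Finset.mem_image.mp he
          exact hXR z z.2 r hrR
        · rw [Finset.card_image_of_injective _ (fun z z' h' => ?_), hRc, Finset.card_univ,
            ← Nat.card_eq_fintype_card, h7]
          have h'' : (z' : G)⁻¹ * z = 1 := hfix _ (insert r B₀)
            (by rw [Finset.card_insert_of_notMem hr, hB₀]; norm_num) (by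
              intro e he
              rcases Finset.mem_insert.mp he with rfl | he
              · rw [mul_smul, inv_smul_eq_iff]; exact h'
              · rw [mul_smul, inv_smul_eq_iff, (mem_fixingSubgroup_iff G).mp z.2 e he,
                  (mem_fixingSubgroup_iff G).mp z'.2 e he])
          exact Subtype.ext (inv_mul_eq_one.mp h'').symm
      intro e he
      rw [← himg] at he
      obtain ⟨z, -, rfl⟩ := Finset.mem_image.mp he
      exact ⟨z, z.2, rfl⟩
    have hkB : ∀ e ∈ B₀, k • e ∈ B₀ := by
      intro e he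
      have hv4 : v • d = d := by rw [hv d (by simp [hBeq]), g4]
      simp only [hBeq, Finset.mem_insert, Finset.mem_singleton] at he ⊢
      rcases he with rfl | rfl | rfl | rfl <;> simp [hk, mul_smul, hua, hub, huc, hud, hva, hvb, hvc, hv4]
    have hkr : k • r ∈ R := by
      simp only [R, Finset.mem_sdiff, Finset.mem_univ, true_and]
      intro h'
      have himg : B₀.image (fun e => k • e) = B₀ := by
        refine Finset.eq_of_subset_of_card_le (fun e he => ?_) ?_
        · obtain ⟨e', he', rfl⟩ := Finset.mem_image.mp he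
          exact hkB e' he'
        · rw [Finset.card_image_of_injective _ (MulAction.injective k)]
      rw [← himg] at h'
      obtain ⟨e', he', he''⟩ := Finset.mem_image.mp h'
      exact hr (MulAction.injective k he'' ▸ he')
    obtain ⟨y₁, hy₁, hy₁r⟩ := htrans _ hkr
    have hky₁ : Commute k y₁ := by
      obtain ⟨m, rfl⟩ := hgen' y₁ hy₁
      exact (show Commute k y from mul_inv_eq_iff_eq_mul.mp hky).zpow_right m
    have h8 : y₁⁻¹ * k = 1 := by
      refine hfix _ R (by omega) fun e he => ?_
      obtain ⟨z, hz, rfl⟩ := htrans e he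
      have hkz : Commute (y₁⁻¹ * k) z := by
        obtain ⟨m, rfl⟩ := hgen' z hz
        obtain ⟨l, rfl⟩ := hgen' y₁ hy₁
        exact (((Commute.refl y).zpow_left l).inv_left.mul_left (show Commute k y from mul_inv_eq_iff_eq_mul.mp hky)).zpow_right m
      rw [smul_smul, hkz.eq, mul_smul, mul_smul, ← hy₁r, inv_smul_smul]
    exact hka (by rw [← inv_mul_eq_one.mp h8]; exact (mem_fixingSubgroup_iff G).mp hy₁ a (by simp [hBeq]))

/-- Four-point stabilisers of even order. -/
theorem four_even (h4 : IsMultiplyPretransitive G α 4) (hfix : FixFew G α 4) (hn : 8 ≤ Fintype.card α)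
    (B : Finset α) (hB : B.card = 4) (heven : Even (Nat.card (fixingSubgroup G (B : Set α)))) :
    Fintype.card α = 12 ∧ Nat.card G = 95040 := by
  classical
  haveI := Fintype.ofFinite G
  haveI := faithful_of_fixFew hfix (by omega)
  set X := fixingSubgroup G (B : Set α) with hX
  have hdvd := dvd_of_fixFew hfix B hB
  have hG := card_eq_descFactorial_mul h4 B hB
  have hn2 : 2 ∣ Fintype.card α - 4 := (even_iff_two_dvd.mp heven).trans hdvd
  obtain ⟨⟨z, hzX⟩, hz⟩ := exists_prime_orderOf_dvd_card' (G := X) 2 (even_iff_two_dvd.mp heven)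
  rw [Subgroup.orderOf_mk] at hz
  have hzz : z * z = 1 := by rw [← pow_two, ← hz, pow_orderOf_eq_one]
  have hz1 : z ≠ 1 := fun e => by rw [e, orderOf_one] at hz; omega
  have hzinv : z⁻¹ = z := inv_eq_of_mul_eq_one_right hzz
  have hzB : ∀ e ∈ B, z • e = e := fun e he => (mem_fixingSubgroup_iff G).mp hzX e he
  have hzfix : ∀ e, z • e = e → e ∈ B := fun e he => by
    by_contra h
    refine hz1 (hfix z (insert e B) ?_ ?_)
    · rw [Finset.card_insert_of_notMem h, hB]; omega
    · intro a ha
      rcases Finset.mem_insert.mp ha with rfl | ha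
      · exact he
      · exact hzB a ha
  have hz2 : ∀ e : α, z • z • e = e := fun e => by rw [smul_smul, hzz, one_smul]
  obtain ⟨a, haB⟩ : B.Nonempty := Finset.card_pos.mp (by omega)
  obtain ⟨p, hp⟩ : ∃ p, p ∉ B := by
    by_contra h
    push Not at h
    have := Finset.card_le_card (fun e (_ : e ∈ (Finset.univ : Finset α)) => h e)
    rw [Finset.card_univ] at this
    omega
  have hzp : z • p ≠ p := fun e => hp (hzfix p e)
  have hzpB : z • p ∉ B := fun h => hzp (by
    have := hzB _ h
    rwa [hz2, eq_comm] at this)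
  set Q : Finset α := Finset.univ \ (B ∪ {p, z • p}) with hQ
  have hQc : Q.card + 6 = Fintype.card α := by
    have hd : Disjoint B ({p, z • p} : Finset α) := by
      simp [Finset.disjoint_insert_right, hp, hzpB]
    rw [hQ, Finset.card_sdiff_of_subset (Finset.subset_univ _), Finset.card_union_of_disjoint hd, hB,
      Finset.card_pair hzp.symm, Finset.card_univ]
    omega
  -- an involution fixing two pairs of `z` and commuting with it
  have hw : ∀ q ∈ Q, ∃ w : G, w * w = 1 ∧ z * w = w * z ∧
      ∀ e, w • e = e ↔ e ∈ ({p, z • p, q, z • q} : Finset α) := by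
    intro q hq
    simp only [hQ, Finset.mem_sdiff, Finset.mem_univ, true_and, Finset.mem_union, Finset.mem_insert,
      Finset.mem_singleton, not_or] at hq
    obtain ⟨hqB, hqp, hqzp⟩ := hq
    have hzq : z • q ≠ q := fun e => hqB (hzfix q e)
    have hzqp : z • q ≠ p := fun e => hqzp (by rw [← e, hz2])
    have hzqzp : z • q ≠ z • p := fun e => hqp (MulAction.injective z e)
    set B' : Finset α := {p, z • p, q, z • q}
    have hB' : B'.card = 4 := by
      simp [B', hzp.symm, Ne.symm hqp, hzqp.symm, Ne.symm hqzp, hzqzp.symm, hzq.symm]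
    have hzB' : ∀ e ∈ B', z • e ∈ B' := by
      intro e he
      simp only [B', Finset.mem_insert, Finset.mem_singleton] at he ⊢
      rcases he with rfl | rfl | rfl | rfl <;> simp [hz2]
    let J : Finset G := Finset.univ.filter fun w => w * w = 1 ∧ ∀ e ∈ B', w • e = e
    have hJeven : J.card % 2 = 0 := by
      have h1 := card_modEq_fixed (β := fixingSubgroup G (B' : Set α)) (fun w => w⁻¹) inv_inv
      have h2 : J.card = (Finset.univ.filter fun w : fixingSubgroup G (B' : Set α) => w⁻¹ = w).card := by
        refine (Finset.card_bij (fun (w : fixingSubgroup G (B' : Set α)) _ => (w : G)) ?_ ?_ ?_).symm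
        · intro w hw
          simp only [Finset.mem_filter, Finset.mem_univ, true_and] at hw
          simp only [J, Finset.mem_filter, Finset.mem_univ, true_and]
          refine ⟨?_, fun e he => (mem_fixingSubgroup_iff G).mp w.2 e he⟩
          have := mul_inv_cancel w
          rw [hw] at this
          exact congrArg Subtype.val this
        · intro w _ w' _ h; exact Subtype.ext h
        · intro w hw
          simp only [J, Finset.mem_filter, Finset.mem_univ, true_and] at hw
          refine ⟨⟨w, (mem_fixingSubgroup_iff G).mpr hw.2⟩, ?_, rfl⟩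
          simp only [Finset.mem_filter, Finset.mem_univ, true_and]
          exact Subtype.ext (inv_eq_of_mul_eq_one_right hw.1)
      have h3 : Fintype.card (fixingSubgroup G (B' : Set α)) % 2 = 0 := by
        rw [← Nat.card_eq_fintype_card, card_fixing_congr h4 B' B hB' hB]
        exact Nat.even_iff.mp heven
      omega
    have hzJ : ∀ w ∈ J, z * w * z ∈ J := by
      intro w hw
      simp only [J, Finset.mem_filter, Finset.mem_univ, true_and] at hw ⊢
      refine ⟨?_, fun e he => ?_⟩
      · calc z * w * z * (z * w * z) = z * w * (z * z) * w * z := by group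
          _ = z * (w * w) * z := by rw [hzz]; group
          _ = _ := by rw [hw.1, mul_one, hzz]
      · rw [mul_smul, mul_smul, hw.2 _ (hzB' e he), hz2]
    have h4' := card_modEq_fixed (β := J) (fun w => ⟨z * w.1 * z, hzJ w.1 w.2⟩) (fun w => Subtype.ext (by
      show z * (z * w.1 * z) * z = w.1
      calc z * (z * w.1 * z) * z = (z * z) * w.1 * (z * z) := by group
        _ = _ := by rw [hzz]; group))
    rw [Fintype.card_coe, hJeven] at h4'
    have h1J : (1 : G) ∈ J := by simp [J]
    obtain ⟨⟨w, hwJ⟩, hwf, hw1⟩ := Finset.exists_mem_ne (s := Finset.univ.filter fun w : J =>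
      (⟨z * w.1 * z, hzJ w.1 w.2⟩ : J) = w) (by
        rcases Nat.lt_or_ge 1 (Finset.univ.filter fun w : J =>
          (⟨z * w.1 * z, hzJ w.1 w.2⟩ : J) = w).card with h | h
        · exact h
        · have : 0 < (Finset.univ.filter fun w : J => (⟨z * w.1 * z, hzJ w.1 w.2⟩ : J) = w).card :=
            Finset.card_pos.mpr ⟨⟨1, h1J⟩, by simp [hzz]⟩
          omega) ⟨1, h1J⟩
    simp only [Finset.mem_filter, Finset.mem_univ, true_and] at hwf
    have hwf' : z * w * z = w := congrArg Subtype.val hwf
    have hwJ' := hwJ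
    simp only [J, Finset.mem_filter, Finset.mem_univ, true_and] at hwJ'
    refine ⟨w, hwJ'.1, ?_, fun e => ⟨fun he => ?_, hwJ'.2 e⟩⟩
    · calc z * w = z * w * (z * z) := by rw [hzz, mul_one]
        _ = (z * w * z) * z := by group
        _ = _ := by rw [hwf']
    · by_contra hne
      have hne' : e ∉ B' := hne
      refine hw1 (Subtype.ext (hfix w (insert e B') ?_ ?_))
      · rw [Finset.card_insert_of_notMem hne', hB']; omega
      · intro a ha
        rcases Finset.mem_insert.mp ha with rfl | ha
        · exact he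
        · exact hwJ'.2 a ha
  choose! w hw1 hw2 hw3 using hw
  have hwB : ∀ q ∈ Q, ∀ e ∈ B, w q • e ∈ B ∧ w q • e ≠ e := by
    intro q hq e he
    refine ⟨hzfix _ ?_, fun h => ?_⟩
    · rw [smul_smul, hw2 q hq, mul_smul, hzB e he]
    · have := ((hw3 q hq) e).mp h
      simp only [hQ, Finset.mem_sdiff, Finset.mem_univ, true_and, Finset.mem_union, Finset.mem_insert,
        Finset.mem_singleton, not_or] at hq this
      rcases this with rfl | rfl | rfl | rfl
      · exact hp he
      · exact hzpB he
      · exact hq.1 he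
      · exact hq.1 (by have h' := hzB _ he; rw [hz2] at h'; exact h' ▸ he)
  have hbound : Q.card ≤ 2 * (B.erase a).card := by
    refine Finset.card_le_mul_card_image_of_maps_to (f := fun q => w q • a) (fun q hq => ?_) 2 fun e he => ?_
    · exact Finset.mem_erase.mpr ⟨(hwB q hq a haB).2, (hwB q hq a haB).1⟩
    rcases (Q.filter fun q => w q • a = e).eq_empty_or_nonempty with h | ⟨q, hq⟩
    · rw [h]; simp
    rw [Finset.mem_filter] at hq
    refine le_trans (Finset.card_le_card (t := {q, z • q}) fun q' hq' => ?_) Finset.card_le_two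
    rw [Finset.mem_filter] at hq'
    have hagree : ∀ f ∈ B, w q • f = w q' • f := by
      intro f hf
      have hea : w q • e = a ∧ w q' • e = a := by
        refine ⟨?_, ?_⟩
        · rw [← hq.2, smul_smul, hw1 q hq.1, one_smul]
        · rw [← hq'.2, smul_smul, hw1 q' hq'.1, one_smul]
      by_cases hfa : f = a
      · rw [hfa, hq.2, hq'.2]
      by_cases hfe : f = e
      · rw [hfe, hea.1, hea.2]
      have hc : (((B.erase a).erase e).erase f).card ≤ 1 := by
        rw [Finset.card_erase_of_mem (by simp [hfa, hfe, hf]), Finset.card_erase_of_mem he,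
          Finset.card_erase_of_mem haB, hB]
      have hm : ∀ r ∈ Q, w r • a = e → w r • f ∈ ((B.erase a).erase e).erase f := by
        intro r hr hre
        simp only [Finset.mem_erase]
        refine ⟨(hwB r hr f hf).2, fun h => hfa (MulAction.injective (w r) (h.trans hre.symm)),
          fun h => hfe ?_, (hwB r hr f hf).1⟩
        rw [← hre, ← h, smul_smul, hw1 r hr, one_smul]
      exact Finset.card_le_one.mp hc _ (hm q hq.1 hq.2) _ (hm q' hq'.1 hq'.2)
    have hww : w q = w q' := by
      have h1 : (w q')⁻¹ * w q = 1 := hfix _ (insert p B)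
        (by rw [Finset.card_insert_of_notMem hp, hB]; omega) (by
          intro f hf
          rcases Finset.mem_insert.mp hf with rfl | hf
          · rw [mul_smul, inv_smul_eq_iff, ((hw3 q hq.1) f).mpr (by simp), ((hw3 q' hq'.1) f).mpr (by simp)]
          · rw [mul_smul, hagree f hf, inv_smul_smul])
      exact (inv_mul_eq_one.mp h1).symm
    have h2 := ((hw3 q hq.1) q').mp (by rw [hww]; exact ((hw3 q' hq'.1) q').mpr (by simp))
    have h3 := hq'.1
    simp only [hQ, Finset.mem_sdiff, Finset.mem_univ, true_and, Finset.mem_union, Finset.mem_insert,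
      Finset.mem_singleton, not_or] at h2 h3 ⊢
    tauto
  rw [Finset.card_erase_of_mem haB, hB] at hbound
  -- the remaining cases
  obtain ⟨x, hx⟩ : ∃ x, Nat.card X = x := ⟨_, rfl⟩
  rw [hx] at hdvd hG heven
  rw [Nat.even_iff] at heven
  have hnle : Fintype.card α ≤ 12 := by omega
  have hxle : x ≤ 8 := le_trans (Nat.le_of_dvd (by omega) hdvd) (by omega)
  obtain ⟨n, hn'⟩ : ∃ n, Fintype.card α = n := ⟨_, rfl⟩
  rw [hn'] at hdvd hG hn hn2 hnle
  rw [hn']
  have hK10 : n = 10 → (x / 2) % 2 = 1 → False := by
    intro h10 hx2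
    set ψ : G →* Equiv.Perm α := MulAction.toPermHom G α
    let sg : G →* ℤˣ := Equiv.Perm.sign.comp ψ
    have hψi : Function.Injective ψ := MulAction.toPerm_injective
    have hord : orderOf (ψ z) = 2 := by rw [orderOf_injective ψ hψi, hz]
    have hsz : sg z = -1 := by
      obtain ⟨m, hm⟩ := Equiv.Perm.cycleType_prime_order (σ := ψ z) (by rw [hord]; norm_num)
      rw [hord] at hm
      have hsupp : (ψ z).support = Finset.univ \ B := by
        ext e
        simp only [Equiv.Perm.mem_support, Finset.mem_sdiff, Finset.mem_univ, true_and]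
        exact not_congr ⟨hzfix e, hzB e⟩
      have h1 := Equiv.Perm.sum_cycleType (ψ z)
      rw [hm, Multiset.sum_replicate, smul_eq_mul, hsupp,
        Finset.card_sdiff_of_subset (Finset.subset_univ _), Finset.card_univ, hB, hn', h10] at h1
      show Equiv.Perm.sign (ψ z) = -1
      rw [Equiv.Perm.sign_of_cycleType, hm, Multiset.sum_replicate, Multiset.card_replicate,
        show m + 1 = 3 by omega]
      rfl
    set H := sg.ker
    have hH4 : IsMultiplyPretransitive H α 4 := by
      refine ⟨fun u v => ?_⟩
      have he : ∀ u : Fin 4 ↪ α, ∀ ε : ℤˣ, ∃ g : G, sg g = ε ∧ g • ((finCongr hB.symm).toEmbedding.trans (enum B)) = u := by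
        intro u ε
        obtain ⟨g, hg⟩ := h4.exists_smul_eq ((finCongr hB.symm).toEmbedding.trans (enum B)) u
        by_cases h : sg g = ε
        · exact ⟨g, h, hg⟩
        refine ⟨g * z, ?_, ?_⟩
        · rw [map_mul, hsz]
          rcases Int.units_eq_one_or (sg g) with h' | h' <;> rcases Int.units_eq_one_or ε with h'' | h'' <;>
            simp [h', h''] at h ⊢
        · rw [mul_smul]
          convert hg using 2
          exact Function.Embedding.ext fun i => hzB _ (B.equivFin.symm _).2
      obtain ⟨g, hg1, hg2⟩ := he u 1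
      obtain ⟨g', hg1', hg2'⟩ := he v 1
      refine ⟨⟨g' * g⁻¹, by rw [MonoidHom.mem_ker, map_mul, map_inv, hg1, hg1', inv_one, mul_one]⟩, ?_⟩
      show (g' * g⁻¹) • u = v
      rw [← hg2, mul_smul, inv_smul_smul, hg2']
    have hind : H.index = 2 := by
      rw [Subgroup.index_ker, MonoidHom.range_eq_top.mpr fun ε => ?_, Subgroup.card_top,
        Nat.card_eq_fintype_card]
      · rfl
      rcases Int.units_eq_one_or ε with rfl | rfl
      exacts [⟨1, map_one _⟩, ⟨z, hsz⟩]
    have hH := card_eq_descFactorial_mul hH4 B hB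
    have h1 := H.index_mul_card
    rw [hind, hH, hG, hn'] at h1
    have h2 : Nat.card (fixingSubgroup H (B : Set α)) * 2 = x := by
      refine Nat.eq_of_mul_eq_mul_left (show 0 < (Fintype.card α).descFactorial 4 from ?_) ?_
      · rw [hn', h10]; norm_num [Nat.descFactorial]
      · rw [hn', ← h1]; ring
    have h3 := four_odd hH4 (fun g s hs hg => Subtype.ext (hfix g s hs hg)) (by omega) B hB
      (by rw [Nat.odd_iff]; omega)
    omega
  interval_cases n
  · -- eight points
    exfalso
    interval_cases x <;> (first | omega | (norm_num at hdvd; done) | skip)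
    · exact false_of_sylow (K := G) (β := α) (p := 7) (b := 42) (k := 3360) (by norm_num) (by omega)
        (by rw [hG]; rfl) (by norm_num) (by rw [hn']; rfl) (by decide)
    · have hr : Nat.card (MulAction.toPermHom G α).range = 6720 := by
        rw [← Nat.card_congr (MonoidHom.ofInjective MulAction.toPerm_injective).toEquiv, hG]; rfl
      set R := (MulAction.toPermHom G α).range
      have hp8 : Nat.card (Equiv.Perm α) = 40320 := by
        rw [Nat.card_perm, Nat.card_eq_fintype_card, hn']; rfl
      haveI : Nontrivial α := Fintype.one_lt_card_iff_nontrivial.mp (by omega)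
      have h1 := R.card_mul_index
      rw [hr, hp8] at h1
      have h2 := CfsgLib.Derangements.card_le_index (by omega) R (fun h => by
        rw [h, Subgroup.card_top, hp8] at hr; omega) (fun h => by
        rw [h, nat_card_alternatingGroup, Nat.card_eq_fintype_card, hn'] at hr
        norm_num [Nat.factorial] at hr)
      omega
  · omega
  · -- ten points
    exfalso
    interval_cases x <;> (first | omega | (norm_num at hdvd; done) | skip)
    · exact hK10 rfl rfl
    · exact hK10 rfl rfl
  · omega
  · -- twelve points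
    interval_cases x <;> (first | omega | (norm_num at hdvd; done) | skip)
    · exfalso
      exact false_of_sylow (K := G) (β := α) (p := 11) (b := 110) (k := 23760) (by norm_num) (by omega)
        (by rw [hG]; rfl) (by norm_num) (by rw [hn']; rfl) (by decide)
    · exfalso
      exact false_of_sylow (K := G) (β := α) (p := 11) (b := 110) (k := 47520) (by norm_num) (by omega)
        (by rw [hG]; rfl) (by norm_num) (by rw [hn']; rfl) (by decide)
    · exact ⟨rfl, by rw [hG]; rfl⟩

/-- A quadruply transitive group in which only the identity fixes five points has at most seven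
points, or has the degree and order of `M₁₁` or of `M₁₂`. -/
theorem four_transitive_fixFew (h4 : IsMultiplyPretransitive G α 4) (hfix : FixFew G α 4) :
    Fintype.card α ≤ 7 ∨ (Fintype.card α = 11 ∧ Nat.card G = 7920) ∨
      (Fintype.card α = 12 ∧ Nat.card G = 95040) := by
  classical
  rcases Nat.lt_or_ge (Fintype.card α) 8 with h | h
  · exact Or.inl (by omega)
  obtain ⟨B, -, hB⟩ := Finset.exists_subset_card_eq (s := (Finset.univ : Finset α)) (n := 4)
    (by rw [Finset.card_univ]; omega)
  rcases Nat.even_or_odd (Nat.card (fixingSubgroup G (B : Set α))) with he | ho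
  · exact Or.inr (Or.inr (four_even h4 hfix h B hB he))
  · exact Or.inr (Or.inl (four_odd h4 hfix h B hB ho))

end CfsgLib.AltGroups.MT
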