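import Cfsg.Agent.Lib.AltGroups.FourTransFive
import Mathlib.Data.Set.PowersetCard
import Mathlib.GroupTheory.SpecificGroups.Alternating

/-!
Tools for `k`-homogeneous groups that are not `k`-transitive.
-/

set_option autoImplicit false
set_option linter.style.haveILetI false
set_option linter.unusedSectionVars false

open MulAction
open scoped Pointwise

namespace CfsgLib.AltGroups.MT

section General

variable {G α : Type*} [Group G] [Finite G] [MulAction G α] [Fintype α] [DecidableEq α]

/-- Homogeneity makes the orders of pointwise stabilisers constant. -/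
theorem card_fixing_homog {j : ℕ} (h : IsPretransitive G (Set.powersetCard α j)) (s s' : Finset α)
    (hs : s.card = j) (hs' : s'.card = j) :
    Nat.card (fixingSubgroup G (s : Set α)) = Nat.card (fixingSubgroup G (s' : Set α)) := by
  suffices H : ∀ s s' : Finset α, s.card = j → s'.card = j →
      Nat.card (fixingSubgroup G (s' : Set α)) ≤ Nat.card (fixingSubgroup G (s : Set α)) from
    le_antisymm (H s' s hs' hs) (H s s' hs hs')
  intro s s' hs hs'
  obtain ⟨g, hg⟩ := h.exists_smul_eq (⟨s', Set.powersetCard.mem_iff.mpr hs'⟩ : Set.powersetCard α j)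
    ⟨s, Set.powersetCard.mem_iff.mpr hs⟩
  have hg' : g • s' = s := congrArg Subtype.val hg
  refine Nat.card_le_card_of_injective (fun u => (⟨g * u.1 * g⁻¹, ?_⟩ : fixingSubgroup G (s : Set α))) ?_
  · rw [mem_fixingSubgroup_iff]
    intro a ha
    rw [← hg', Finset.mem_coe, Finset.mem_smul_finset] at ha
    obtain ⟨b, hb, rfl⟩ := ha
    rw [mul_smul, mul_smul, inv_smul_smul, (mem_fixingSubgroup_iff G).mp u.2 b hb]
  · intro u v huv
    exact Subtype.ext (mul_left_cancel (mul_right_cancel (congrArg Subtype.val huv)))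

/-- A `j`-homogeneous group has order divisible by the number of `j`-sets. -/
theorem choose_dvd_card {j : ℕ} (hj : j ≤ Fintype.card α) (h : IsPretransitive G (Set.powersetCard α j)) :
    (Fintype.card α).choose j ∣ Nat.card G := by
  obtain ⟨s, -, hs⟩ := Finset.exists_subset_card_eq (s := (Finset.univ : Finset α)) (n := j)
    (by rw [Finset.card_univ]; omega)
  have h1 := (stabilizer G (⟨s, Set.powersetCard.mem_iff.mpr hs⟩ : Set.powersetCard α j)).index_mul_card
  rw [index_stabilizer_of_transitive, Set.powersetCard.card, Nat.card_eq_fintype_card] at h1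
  exact Dvd.intro _ h1

/-- If an involution stabilises a `j`-set, a `j`-homogeneous group has even set stabiliser. -/
theorem two_mul_choose_dvd_card {j : ℕ} (h : IsPretransitive G (Set.powersetCard α j)) (z : G)
    (hz : orderOf z = 2) (s : Finset α) (hs : s.card = j) (hzs : ∀ a ∈ s, z • a ∈ s) :
    2 * (Fintype.card α).choose j ∣ Nat.card G := by
  set T : Set.powersetCard α j := ⟨s, Set.powersetCard.mem_iff.mpr hs⟩
  have hzT : z ∈ stabilizer G T := by
    rw [mem_stabilizer_iff]
    refine Subtype.ext (Finset.eq_of_subset_of_card_le ?_ (le_of_eq (Finset.card_smul_finset z s).symm))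
    intro a ha
    obtain ⟨b, hb, rfl⟩ := Finset.mem_smul_finset.mp ha
    exact hzs b hb
  have h2 : 2 ∣ Nat.card (stabilizer G T) := by
    rw [← hz, ← Subgroup.orderOf_mk z hzT]
    exact orderOf_dvd_natCard _
  have h1 := (stabilizer G T).index_mul_card
  rw [index_stabilizer_of_transitive, Set.powersetCard.card, Nat.card_eq_fintype_card (α := α)] at h1
  rw [← h1, mul_comm]
  exact Nat.mul_dvd_mul_left _ h2

/-- The order of the pointwise stabiliser of `t` points divides the number of remaining points. -/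
theorem dvd_of_fixFew' {t : ℕ} (hfix : FixFew G α t) (B : Finset α) (hB : B.card = t) :
    Nat.card (fixingSubgroup G (B : Set α)) ∣ Fintype.card α - t := by
  let β := SubMulAction.ofFixingSubgroup G (B : Set α)
  have hβ : Nat.card β = Fintype.card α - t := by
    show Nat.card (((B : Set α)ᶜ : Set α)) = _
    rw [Nat.card_coe_set_eq, Set.ncard_compl, Nat.card_eq_fintype_card, Set.ncard_coe_finset, hB]
  rw [← hβ]
  refine CfsgLib.AltGroups.dvd_card_of_card_stabilizer (m := 1) (one_mul _).symm fun r => ?_
  rw [Subgroup.card_eq_one, Subgroup.eq_bot_iff_forall]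
  intro y hy
  refine Subtype.ext (hfix _ (insert (r : α) B) ?_ ?_)
  · rw [Finset.card_insert_of_notMem (show (r : α) ∉ B from r.2), hB]; omega
  · intro e he
    rcases Finset.mem_insert.mp he with rfl | he
    · exact congrArg Subtype.val hy
    · exact (mem_fixingSubgroup_iff G).mp y.2 e he

end General

/-- A Sylow count for a prime `p` with `p ≤ n < 2p` when only the identity fixes `p` points. -/
theorem false_of_sylow_fix {K β : Type*} [Group K] [Finite K] [MulAction K β] [FaithfulSMul K β]
    [Fintype β] {t p b k : ℕ} (hp : p.Prime) (h2 : Fintype.card β < 2 * p) (htp : t < p)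
    (hfix : FixFew K β t) (hk : Nat.card K = k) (hpk : p ∣ k) (hpk2 : ¬ p * p ∣ k)
    (hb : (p - 1) * p = b)
    (h : ∀ d ∈ b.divisors, d ∣ k → (k / d) % p ≠ 1) : False := by
  classical
  haveI := Fact.mk hp
  obtain ⟨P⟩ : Nonempty (Sylow p K) := inferInstance
  have hPc : Nat.card (P : Subgroup K) = p := by
    obtain ⟨j, hj⟩ := IsPGroup.iff_card.mp P.2
    have h1 : p ∣ Nat.card (P : Subgroup K) := P.dvd_card_of_dvd_card (hk ▸ hpk)
    have h3 : Nat.card (P : Subgroup K) ∣ k := hk ▸ Subgroup.card_subgroup_dvd_card _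
    rcases j with _ | _ | j
    · rw [hj, pow_zero, Nat.dvd_one] at h1
      exact absurd h1 hp.one_lt.ne'
    · rw [hj, zero_add, pow_one]
    · exact absurd (dvd_trans ⟨p ^ j, by rw [hj, pow_succ, pow_succ]; ring⟩ h3) hpk2
  haveI : IsCyclic (P : Subgroup K) := isCyclic_of_prime_card hPc
  obtain ⟨u, hu, hu1⟩ : ∃ u ∈ (P : Subgroup K), u ≠ 1 := by
    by_contra hcon
    push Not at hcon
    rw [Subgroup.card_eq_one.mpr ((Subgroup.eq_bot_iff_forall _).mpr hcon)] at hPc
    exact hp.one_lt.ne hPc
  have huo : orderOf u = p := by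
    have h1 : orderOf u ∣ p := by
      rw [← Subgroup.orderOf_mk u hu]; exact (orderOf_dvd_natCard _).trans (dvd_of_eq hPc)
    rcases (Nat.dvd_prime hp).mp h1 with e | e
    · exact absurd (orderOf_eq_one_iff.mp e) hu1
    · exact e
  set ψ : K →* Equiv.Perm β := MulAction.toPermHom K β
  have hψ : Function.Injective ψ := MulAction.toPerm_injective
  obtain ⟨m, hm⟩ := Equiv.Perm.cycleType_prime_order (σ := ψ u) (by rw [orderOf_injective ψ hψ, huo]; exact hp)
  rw [orderOf_injective ψ hψ, huo] at hm
  have hsum := Equiv.Perm.sum_cycleType (ψ u)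
  rw [hm, Multiset.sum_replicate, smul_eq_mul] at hsum
  have hle := Finset.card_le_univ (ψ u).support
  have hm0 : m = 0 := by
    by_contra h0
    have : 2 * p ≤ (m + 1) * p := Nat.mul_le_mul_right _ (by omega)
    omega
  subst hm0
  have hsupp : (ψ u).support.card = p := by rw [← hsum]; ring
  have hcyc : (ψ u).IsCycle := Equiv.Perm.card_cycleType_eq_one.mp (by rw [hm]; rfl)
  obtain ⟨a, ha⟩ : (ψ u).support.Nonempty := Finset.card_pos.mp (by rw [hsupp]; exact hp.pos)
  set N := Subgroup.normalizer ((P : Subgroup K) : Set K) with hN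
  let φ := Subgroup.normalizerMonoidHom (P : Subgroup K)
  have hcomm : ∀ g : φ.ker, (g.1.1 : K) * u = u * g.1.1 := fun g => by
    have h5 : φ g.1 = 1 := g.2
    have h6 := congrArg Subtype.val (DFunLike.congr_fun h5 (⟨u, hu⟩ : (P : Subgroup K)))
    exact mul_inv_eq_iff_eq_mul.mp h6
  have hmem : ∀ g : φ.ker, (g.1.1 : K) • a ∈ (ψ u).support := fun g => by
    rw [Equiv.Perm.mem_support] at ha ⊢
    intro he
    have he' : u • (g.1.1 : K) • a = (g.1.1 : K) • a := he
    rw [smul_smul, ← hcomm, mul_smul] at he'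
    exact ha (MulAction.injective _ he')
  have hinj : Function.Injective fun g : φ.ker => (⟨_, hmem g⟩ : (ψ u).support) := by
    intro g g' he
    have he' : (g.1.1 : K) • a = (g'.1.1 : K) • a := congrArg Subtype.val he
    have hc : Commute ((g'.1.1 : K)⁻¹ * g.1.1) u :=
      (show Commute (g'.1.1 : K) u from hcomm g').inv_left.mul_left (hcomm g)
    have h1 : (g'.1.1 : K)⁻¹ * g.1.1 = 1 := by
      refine hfix _ (ψ u).support (by rw [hsupp]; exact htp) fun c hc' => ?_
      obtain ⟨i, hi⟩ := hcyc.exists_zpow_eq (Equiv.Perm.mem_support.mp ha) (Equiv.Perm.mem_support.mp hc')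
      rw [← map_zpow] at hi
      have hi' : (u ^ i) • a = c := hi
      rw [← hi', smul_smul, (hc.zpow_right i).eq, mul_smul, mul_smul, he', inv_smul_smul]
    exact Subtype.ext (Subtype.ext (inv_mul_eq_one.mp h1).symm)
  have hker : Nat.card φ.ker ∣ p := by
    have h1 : Nat.card φ.ker ≤ p := by
      have := Nat.card_le_card_of_injective _ hinj
      rwa [Nat.card_eq_finsetCard, hsupp] at this
    have h3 : p ∣ Nat.card φ.ker := by
      have hle : (P : Subgroup K).subgroupOf N ≤ φ.ker := by
        intro g hg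
        refine MonoidHom.mem_ker.mpr (MulEquiv.ext fun x => Subtype.ext ?_)
        show (g : K) * x * (g : K)⁻¹ = x
        letI : CommGroup (P : Subgroup K) := IsCyclic.commGroup
        have hc := congrArg Subtype.val (mul_comm (⟨g.1, hg⟩ : (P : Subgroup K)) x)
        exact mul_inv_eq_iff_eq_mul.mpr hc
      have := Subgroup.card_dvd_of_le hle
      rwa [Nat.card_congr (Subgroup.subgroupOfEquivOfLe (Subgroup.le_normalizer)).toEquiv, hPc] at this
    exact dvd_of_eq (le_antisymm h1 (Nat.le_of_dvd Nat.card_pos h3))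
  have h1 : Nat.card φ.ker * φ.ker.index = Nat.card N := φ.ker.card_mul_index
  have h3 : φ.ker.index ∣ p - 1 := by
    rw [Subgroup.index_ker]
    refine (Subgroup.card_subgroup_dvd_card φ.range).trans (dvd_of_eq ?_)
    rw [IsCyclic.card_mulAut, hPc, Nat.totient_prime hp]
  have h4 : Nat.card N ∣ b := by
    rw [← h1, ← hb, mul_comm (p - 1)]
    exact Nat.mul_dvd_mul hker h3
  have h5 : Nat.card N * Nat.card (Sylow p K) = k := by
    rw [Sylow.card_eq_index_normalizer P, ← hk]; exact N.card_mul_index
  refine h _ (Nat.mem_divisors.mpr ⟨h4, ?_⟩) (Dvd.intro _ h5) ?_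
  · have := hp.two_le
    rw [← hb]; exact Nat.mul_ne_zero (by omega) (by omega)
  rw [← h5, Nat.mul_div_cancel_left _ Nat.card_pos]
  have := card_sylow_modEq_one p K
  rwa [Nat.ModEq, Nat.mod_eq_of_lt hp.one_lt] at this

end CfsgLib.AltGroups.MT
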