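import Cfsg.Agent.Lib.AltGroups.MultiTransTools
import Mathlib.GroupTheory.Perm.Sign

/-!
In a sharply `k`-transitive group of degree `k + 7` (the parameters of `M₁₁` and `M₁₂`) some
`(k + 1)`-set is acted on as the full symmetric group by its stabiliser.
-/

set_option autoImplicit false
set_option linter.style.haveILetI false
set_option linter.unusedSectionVars false

open MulAction

namespace CfsgLib.AltGroups.MT

variable {α : Type*} [Fintype α] [DecidableEq α]

theorem exists_sym_of_sharp (G : Subgroup (Equiv.Perm α)) {k : ℕ} (hk : 3 ≤ k)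
    (hn : Fintype.card α = k + 7) (h : IsMultiplyPretransitive G α k)
    (hsharp : ∀ g : G, ∀ s : Finset α, k ≤ s.card → (∀ a ∈ s, g • a = a) → g = 1) :
    ∃ D : Finset α, D.card = k + 1 ∧ ∀ σ : Equiv.Perm D, ∃ g ∈ G, ∀ x : D, g (x : α) = σ x := by
  haveI := h
  haveI : Nonempty α := Fintype.card_pos_iff.mp (by omega)
  -- `t` acts on `B` as the transposition of `a` and `b`
  let IsLift : Finset α → α → α → G → Prop := fun B a b t =>
    t • a = b ∧ t • b = a ∧ ∀ e ∈ B, e ≠ a → e ≠ b → t • e = e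
  have hex : ∀ B : Finset α, B.card = k → ∀ a ∈ B, ∀ b ∈ B, ∃ t, IsLift B a b t := by
    intro B hB a ha b hb
    obtain ⟨g, hg⟩ := exists_smul_eqOn (G := G) (α := α) (k := k)
      (by rw [Nat.card_eq_fintype_card]; omega) B hB.le
      (Equiv.swap a b) (Equiv.injective _).injOn
    refine ⟨g, (hg a ha).trans (Equiv.swap_apply_left a b), (hg b hb).trans (Equiv.swap_apply_right a b),
      fun e he h1 h2 => (hg e he).trans (Equiv.swap_apply_of_ne_of_ne h1 h2)⟩
  have huniq : ∀ B : Finset α, B.card = k → ∀ g g' : G, (∀ e ∈ B, g • e = g' • e) → g = g' := by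
    intro B hB g g' he
    exact (inv_mul_eq_one.mp (hsharp (g'⁻¹ * g) B hB.ge fun e he' => by
      rw [mul_smul, he e he', inv_smul_smul])).symm
  have hinvol : ∀ B : Finset α, B.card = k → ∀ a b t, IsLift B a b t → t * t = 1 := by
    intro B hB a b t ht
    refine huniq B hB _ _ fun e he => ?_
    rw [mul_smul, one_smul]
    by_cases h1 : e = a
    · rw [h1, ht.1, ht.2.1]
    by_cases h2 : e = b
    · rw [h2, ht.2.1, ht.1]
    rw [ht.2.2 e he h1 h2, ht.2.2 e he h1 h2]
  -- a nontrivial element fixing `m` points of `B` fixes as many others as the congruence allows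
  have hcount : ∀ (g : G) (q : ℕ), q.Prime → g ^ q = 1 → ∀ B : Finset α,
      ((Finset.univ.filter fun e => g • e = e).filter (· ∈ B)).card +
        ((Finset.univ.filter fun e => g • e = e).filter (· ∉ B)).card ≡ k + 7 [MOD q] := by
    intro g q hq hgq B
    haveI := Fact.mk hq
    let f : Function.End α := fun e => g • e
    have hf : f ^ q ^ 1 = 1 := by
      have hpow : ∀ m : ℕ, ∀ e, (f ^ m) e = (g ^ m) • e := by
        intro m
        induction m with
        | zero => intro e; rw [pow_zero, pow_zero, one_smul]; rfl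
        | succ m ihm => intro e; rw [pow_succ', pow_succ', mul_smul, ← ihm]; rfl
      exact funext fun e => by rw [hpow, pow_one, hgq, one_smul]; rfl
    have h1 := Equiv.Perm.card_fixedPoints_modEq (α := α) (f := f) (p := q) (n := 1) hf
    rw [hn] at h1
    rw [Finset.card_filter_add_card_filter_not]
    refine (h1.trans ?_).symm
    refine congrArg (· % q) ?_
    rw [← Fintype.card_subtype]
    exact Fintype.card_congr (Equiv.refl _)
  have hT : ∀ B : Finset α, B.card = k → ∀ a ∈ B, ∀ b ∈ B, a ≠ b → ∀ t, IsLift B a b t →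
      ∃ p ∉ B, t • p = p ∧ ∀ q, q ∉ B → t • q = q → q = p := by
    intro B hB a ha b hb hab t ht
    set F := Finset.univ.filter fun e : α => t • e = e with hF
    have hc := hcount t 2 Nat.prime_two (by rw [pow_two]; exact hinvol B hB a b t ht) B
    rw [← hF] at hc
    have hin : F.filter (· ∈ B) = (B.erase a).erase b := by
      ext e
      simp only [hF, Finset.mem_filter, Finset.mem_univ, true_and, Finset.mem_erase]
      refine ⟨fun ⟨h1, h2⟩ => ⟨?_, ?_, h2⟩, fun ⟨h1, h2, h3⟩ => ⟨ht.2.2 e h3 h2 h1, h3⟩⟩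
      · rintro rfl; exact hab (ht.2.1.symm.trans h1)
      · rintro rfl; exact hab.symm (ht.1.symm.trans h1)
    rw [hin, Finset.card_erase_of_mem (Finset.mem_erase.mpr ⟨hab.symm, hb⟩), Finset.card_erase_of_mem ha, hB] at hc
    have hle : F.card < k := by
      by_contra hh
      have := hsharp t F (by omega) fun e he => (Finset.mem_filter.mp he).2
      rw [this] at ht
      exact hab ((one_smul G a).symm.trans ht.1)
    rw [← Finset.card_filter_add_card_filter_not (p := (· ∈ B)), hin,
      Finset.card_erase_of_mem (Finset.mem_erase.mpr ⟨hab.symm, hb⟩), Finset.card_erase_of_mem ha, hB] at hle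
    unfold Nat.ModEq at hc
    obtain ⟨p, hp⟩ := Finset.card_eq_one.mp (show (F.filter (· ∉ B)).card = 1 by omega)
    have hmem : ∀ q, q ∈ F.filter (· ∉ B) ↔ t • q = q ∧ q ∉ B := fun q => by simp [hF]
    obtain ⟨h1, h2⟩ := (hmem p).mp (by simp [hp])
    exact ⟨p, h2, h1, fun q hq hq' => by simpa [hp] using (hmem q).mpr ⟨hq', hq⟩⟩
  choose! P hP using fun B hB a ha b hb hab t ht => hT B hB a ha b hb hab t ht
  -- intersecting transpositions fix the same outside point
  have hadj : ∀ B : Finset α, B.card = k → ∀ a ∈ B, ∀ b ∈ B, ∀ c ∈ B, a ≠ b → b ≠ c → a ≠ c →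
      ∀ t t', IsLift B a b t → IsLift B b c t' → P B a b t = P B b c t' := by
    intro B hB a ha b hb c hc hab hbc hac t t' ht ht'
    obtain ⟨hp1, hp2, hp3⟩ := hP B hB a ha b hb hab t ht
    obtain ⟨hq1, hq2, hq3⟩ := hP B hB b hb c hc hbc t' ht'
    have htt := hinvol B hB a b t ht
    have htt' := hinvol B hB b c t' ht'
    set u := t * t' with hu
    have hua : u • a = b := by rw [hu, mul_smul, ht'.2.2 a ha hab hac, ht.1]
    have hub : u • b = c := by rw [hu, mul_smul, ht'.1, ht.2.2 c hc hac.symm hbc.symm]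
    have huc : u • c = a := by rw [hu, mul_smul, ht'.2.1, ht.2.1]
    have huo : ∀ e ∈ B, e ≠ a → e ≠ b → e ≠ c → u • e = e := fun e he h1 h2 h3 => by
      rw [hu, mul_smul, ht'.2.2 e he h2 h3, ht.2.2 e he h1 h2]
    have hu3 : u ^ 3 = 1 := by
      refine huniq B hB _ _ fun e he => ?_
      rw [pow_succ, pow_two, mul_smul, mul_smul, one_smul]
      by_cases h1 : e = a
      · rw [h1, hua, hub, huc]
      by_cases h2 : e = b
      · rw [h2, hub, huc, hua]
      by_cases h3 : e = c
      · rw [h3, huc, hua, hub]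
      rw [huo e he h1 h2 h3, huo e he h1 h2 h3, huo e he h1 h2 h3]
    set F := Finset.univ.filter fun e : α => u • e = e with hF
    have hcc := hcount u 3 Nat.prime_three hu3 B
    rw [← hF] at hcc
    have hin : F.filter (· ∈ B) = ((B.erase a).erase b).erase c := by
      ext e
      simp only [hF, Finset.mem_filter, Finset.mem_univ, true_and, Finset.mem_erase]
      refine ⟨fun ⟨h1, h2⟩ => ⟨?_, ?_, ?_, h2⟩, fun ⟨h1, h2, h3, h4⟩ => ⟨huo e h4 h3 h2 h1, h4⟩⟩
      · rintro rfl; exact hac (huc.symm.trans h1)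
      · rintro rfl; exact hbc.symm (hub.symm.trans h1)
      · rintro rfl; exact hab.symm (hua.symm.trans h1)
    have hin' : (((B.erase a).erase b).erase c).card = k - 3 := by
      rw [Finset.card_erase_of_mem (by simp [hbc.symm, hac.symm, hc]),
        Finset.card_erase_of_mem (Finset.mem_erase.mpr ⟨hab.symm, hb⟩), Finset.card_erase_of_mem ha, hB]
      omega
    rw [hin, hin'] at hcc
    have hle : F.card < k := by
      by_contra hh
      have := hsharp u F (by omega) fun e he => (Finset.mem_filter.mp he).2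
      rw [this] at hua
      exact hab ((one_smul G a).symm.trans hua)
    rw [← Finset.card_filter_add_card_filter_not (p := (· ∈ B)), hin, hin'] at hle
    unfold Nat.ModEq at hcc
    obtain ⟨q, hq⟩ := Finset.card_eq_one.mp (show (F.filter (· ∉ B)).card = 1 by omega)
    have hmem : ∀ e, e ∈ F.filter (· ∉ B) ↔ u • e = e ∧ e ∉ B := fun e => by simp [hF]
    obtain ⟨huq, hqB⟩ := (hmem q).mp (by simp [hq])
    have hconj : ∀ s : G, s * s = 1 → s * u * s = u⁻¹ → (∀ e ∈ B, s • e ∈ B) → s • q = q := by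
      intro s hs hsu hsB
      have h1 : u • s • q = s • q := by
        have e1 : u * s = s * u⁻¹ := by
          rw [← hsu, ← mul_assoc, ← mul_assoc, hs, one_mul]
        rw [smul_smul, e1, mul_smul, inv_smul_eq_iff.mpr huq.symm]
      have h2 : s • q ∉ B := fun hh => hqB (by
        have := hsB _ hh
        rwa [smul_smul, hs, one_smul] at this)
      simpa [hq] using (hmem (s • q)).mpr ⟨h1, h2⟩
    have hinv : u⁻¹ = t' * t := by
      rw [hu, mul_inv_rev, inv_eq_of_mul_eq_one_right htt, inv_eq_of_mul_eq_one_right htt']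
    have hq_t : t • q = q := by
      refine hconj t htt (by rw [hinv, hu, ← mul_assoc, htt, one_mul]) fun e he => ?_
      by_cases h1 : e = a
      · rw [h1, ht.1]; exact hb
      by_cases h2 : e = b
      · rw [h2, ht.2.1]; exact ha
      rw [ht.2.2 e he h1 h2]; exact he
    have hq_t' : t' • q = q := by
      refine hconj t' htt' (by rw [hinv, hu, mul_assoc, mul_assoc, htt', mul_one]) fun e he => ?_
      by_cases h1 : e = b
      · rw [h1, ht'.1]; exact hc
      by_cases h2 : e = c
      · rw [h2, ht'.2.1]; exact hb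
      rw [ht'.2.2 e he h1 h2]; exact he
    rw [← hp3 q hqB hq_t, hq3 q hqB hq_t']
  have hsymm : ∀ B : Finset α, ∀ a b t, IsLift B a b t → IsLift B b a t := fun B a b t ht =>
    ⟨ht.2.1, ht.1, fun e he h1 h2 => ht.2.2 e he h2 h1⟩
  have hPsymm : ∀ B : Finset α, B.card = k → ∀ a ∈ B, ∀ b ∈ B, a ≠ b → ∀ t, IsLift B a b t →
      P B a b t = P B b a t := by
    intro B hB a ha b hb hab t ht
    obtain ⟨h1, h2, h3⟩ := hP B hB a ha b hb hab t ht
    obtain ⟨g1, g2, g3⟩ := hP B hB b hb a ha hab.symm t (hsymm B a b t ht)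
    exact g3 _ h1 h2
  -- the point attached to a `k`-set
  have hpoint : ∀ B : Finset α, B.card = k → ∃ p ∉ B, ∀ a ∈ B, ∀ b ∈ B, a ≠ b → ∀ t, IsLift B a b t →
      t • p = p ∧ ∀ q, q ∉ B → t • q = q → q = p := by
    intro B hB
    obtain ⟨a₀, ha₀, b₀, hb₀, hab₀⟩ := Finset.one_lt_card.mp (show 1 < B.card by omega)
    obtain ⟨t₀, ht₀⟩ := hex B hB a₀ ha₀ b₀ hb₀
    refine ⟨P B a₀ b₀ t₀, (hP B hB a₀ ha₀ b₀ hb₀ hab₀ t₀ ht₀).1, ?_⟩
    have hstep : ∀ x ∈ B, x ≠ b₀ → ∀ t, IsLift B b₀ x t → P B b₀ x t = P B a₀ b₀ t₀ := by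
      intro x hx hxb t ht
      by_cases hxa : x = a₀
      · subst hxa
        have : t = t₀ := huniq B hB t t₀ fun e he => by
          by_cases h1 : e = b₀
          · rw [h1, ht.1, ht₀.2.1]
          by_cases h2 : e = x
          · rw [h2, ht.2.1, ht₀.1]
          rw [ht.2.2 e he h1 h2, ht₀.2.2 e he h2 h1]
        subst this
        exact hPsymm B hB b₀ hb₀ x hx hxb.symm t ht
      · exact (hadj B hB a₀ ha₀ b₀ hb₀ x hx hab₀ (Ne.symm hxb) (Ne.symm hxa) t₀ t ht₀ ht).symm
    intro a ha b hb hab t ht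
    have : P B a b t = P B a₀ b₀ t₀ := by
      by_cases h1 : a = b₀
      · subst h1; exact hstep b hb hab.symm t ht
      by_cases h2 : b = b₀
      · subst h2; rw [hPsymm B hB a ha b hb hab t ht]; exact hstep a ha hab t (hsymm B a b t ht)
      obtain ⟨s, hs⟩ := hex B hB b₀ hb₀ a ha
      rw [← hstep a ha h1 s hs]
      exact (hadj B hB b₀ hb₀ a ha b hb (Ne.symm h1) hab (Ne.symm h2) s t hs ht).symm
    rw [← this]
    exact (hP B hB a ha b hb hab t ht).2
  choose! Q hQB hQ using hpoint
  obtain ⟨B, -, hB⟩ := Finset.exists_subset_card_eq (s := (Finset.univ : Finset α)) (n := k)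
    (by rw [Finset.card_univ]; omega)
  refine ⟨insert (Q B) B, by rw [Finset.card_insert_of_notMem (hQB B hB), hB], ?_⟩
  set D := insert (Q B) B with hD
  let M : Subgroup (Equiv.Perm D) :=
    { carrier := {σ | ∃ g ∈ G, ∀ x : D, g (x : α) = σ x}
      mul_mem' := by
        rintro σ τ ⟨g, hg, hgσ⟩ ⟨g', hg', hgτ⟩
        exact ⟨g * g', G.mul_mem hg hg', fun x => by rw [Equiv.Perm.mul_apply, hgτ, hgσ]; rfl⟩
      one_mem' := ⟨1, G.one_mem, fun x => rfl⟩
      inv_mem' := by
        rintro σ ⟨g, hg, hgσ⟩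
        refine ⟨g⁻¹, G.inv_mem hg, fun x => ?_⟩
        rw [Equiv.Perm.inv_def, Equiv.symm_apply_eq, hgσ]
        simp }
  have hlift : ∀ a ∈ D, ∀ b ∈ D, a ≠ b → ∃ t : G, t • a = b ∧ t • b = a ∧
      ∀ e ∈ D, e ≠ a → e ≠ b → t • e = e := by
    have hmain : ∀ a ∈ B, ∀ b ∈ B, a ≠ b → ∃ t : G, t • a = b ∧ t • b = a ∧
        ∀ e ∈ D, e ≠ a → e ≠ b → t • e = e := by
      intro a ha b hb hab
      obtain ⟨t, ht⟩ := hex B hB a ha b hb
      refine ⟨t, ht.1, ht.2.1, fun e he h1 h2 => ?_⟩
      rcases Finset.mem_insert.mp he with rfl | he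
      · exact (hQ B hB a ha b hb hab t ht).1
      · exact ht.2.2 e he h1 h2
    have hp : ∀ x ∈ B, ∃ t : G, t • Q B = x ∧ t • x = Q B ∧
        ∀ e ∈ D, e ≠ Q B → e ≠ x → t • e = e := by
      intro x hx
      obtain ⟨b, hb, hbx⟩ := Finset.exists_mem_ne (show 1 < B.card by omega) x
      set B' := insert (Q B) (B.erase b) with hB'
      have hB'c : B'.card = k := by
        rw [hB', Finset.card_insert_of_notMem (fun hh => hQB B hB (Finset.mem_of_mem_erase hh)),
          Finset.card_erase_of_mem hb, hB]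
        omega
      have hbB' : b ∉ B' := by
        rw [hB', Finset.mem_insert]
        rintro (h1 | h1)
        · exact hQB B hB (h1 ▸ hb)
        · exact Finset.ne_of_mem_erase h1 rfl
      obtain ⟨u, hu, v, hv, huv⟩ := Finset.one_lt_card.mp (show 1 < (B.erase b).card by
        rw [Finset.card_erase_of_mem hb]; omega)
      obtain ⟨t, ht⟩ := hex B hB u (Finset.mem_of_mem_erase hu) v (Finset.mem_of_mem_erase hv)
      have hpB := (hQ B hB u (Finset.mem_of_mem_erase hu) v (Finset.mem_of_mem_erase hv) huv t ht).1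
      have htB' : IsLift B' u v t := by
        refine ⟨ht.1, ht.2.1, fun e he h1 h2 => ?_⟩
        rcases Finset.mem_insert.mp he with rfl | he
        · exact hpB
        · exact ht.2.2 e (Finset.mem_of_mem_erase he) h1 h2
      have hbfix : t • b = b :=
        ht.2.2 b hb (Finset.ne_of_mem_erase hu).symm (Finset.ne_of_mem_erase hv).symm
      have hQ' : b = Q B' := (hQ B' hB'c u (Finset.mem_insert_of_mem hu) v (Finset.mem_insert_of_mem hv)
        huv t htB').2 b hbB' hbfix
      have hxB' : x ∈ B' := Finset.mem_insert_of_mem (Finset.mem_erase.mpr ⟨hbx.symm, hx⟩)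
      have hpB' : Q B ∈ B' := Finset.mem_insert_self _ _
      obtain ⟨s, hs⟩ := hex B' hB'c (Q B) hpB' x hxB'
      refine ⟨s, hs.1, hs.2.1, fun e he h1 h2 => ?_⟩
      by_cases heb : e = b
      · rw [heb, hQ']
        exact (hQ B' hB'c (Q B) hpB' x hxB' (fun hh => hQB B hB (hh ▸ hx)) s hs).1
      · refine hs.2.2 e (Finset.mem_insert_of_mem (Finset.mem_erase.mpr ⟨heb, ?_⟩)) h1 h2
        exact (Finset.mem_insert.mp he).resolve_left h1
    intro a ha b hb hab
    rcases Finset.mem_insert.mp ha with rfl | ha'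
    · exact hp b ((Finset.mem_insert.mp hb).resolve_left hab.symm)
    rcases Finset.mem_insert.mp hb with rfl | hb'
    · obtain ⟨t, h1, h2, h3⟩ := hp a ha'
      exact ⟨t, h2, h1, fun e he g1 g2 => h3 e he g2 g1⟩
    exact hmain a ha' b hb' hab
  have htop : M = ⊤ := by
    rw [eq_top_iff, ← Equiv.Perm.closure_isSwap, Subgroup.closure_le]
    rintro _ ⟨⟨a, ha⟩, ⟨b, hb⟩, hab, rfl⟩
    have hab' : a ≠ b := fun e => hab (Subtype.ext e)
    obtain ⟨t, h1, h2, h3⟩ := hlift a ha b hb hab'
    refine ⟨t, t.2, fun ⟨x, hx⟩ => ?_⟩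
    by_cases hxa : x = a
    · subst hxa; rw [Equiv.swap_apply_left]; exact h1
    by_cases hxb : x = b
    · subst hxb; rw [Equiv.swap_apply_right]; exact h2
    rw [Equiv.swap_apply_of_ne_of_ne (fun e => hxa (congrArg Subtype.val e))
      (fun e => hxb (congrArg Subtype.val e))]
    exact h3 x hx hxa hxb
  intro σ
  have : σ ∈ M := htop ▸ Subgroup.mem_top σ
  exact this

end CfsgLib.AltGroups.MT
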