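import Cfsg.Agent.Lib.AltGroups.FixFewClassification
import Cfsg.Agent.Lib.AltGroups.SharpInduces
import Cfsg.Agent.S0743
import Mathlib.GroupTheory.Nilpotent

/-!
In a `k`-transitive group, `4 ≤ k`, some `(k + 1)`-set is acted on at least as the alternating group.
-/

set_option autoImplicit false
set_option linter.style.haveILetI false
set_option linter.unusedSectionVars false

open MulAction

namespace CfsgLib.AltGroups.MT

universe u

/-- The small-fixity case. -/
theorem exists_alt_of_fixFew {α : Type u} [Fintype α] [DecidableEq α] (G : Subgroup (Equiv.Perm α)) {k : ℕ}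
    (hk : 4 ≤ k) (hkn : k < Fintype.card α) (h : IsMultiplyPretransitive G α k) (hfix : FixFew G α k) :
    ∃ D : Finset α, D.card = k + 1 ∧ ∀ σ : Equiv.Perm D, σ ∈ alternatingGroup D →
      ∃ g ∈ G, ∀ x : D, g (x : α) = σ x := by
  haveI := h
  obtain ⟨B, -, hB⟩ := Finset.exists_subset_card_eq (s := (Finset.univ : Finset α)) (n := k)
    (by rw [Finset.card_univ]; omega)
  have hord := card_eq_descFactorial_mul h B hB
  have hsharp : k + 7 = Fintype.card α → Nat.card G = (Fintype.card α).descFactorial k →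
      ∃ D : Finset α, D.card = k + 1 ∧ ∀ σ : Equiv.Perm D, σ ∈ alternatingGroup D →
        ∃ g ∈ G, ∀ x : D, g (x : α) = σ x := by
    intro hn hG
    have h1 : ∀ g : G, ∀ s : Finset α, k ≤ s.card → (∀ a ∈ s, g • a = a) → g = 1 := by
      intro g s hs hg
      obtain ⟨s', hs', hs'c⟩ := Finset.exists_subset_card_eq hs
      have h2 := card_eq_descFactorial_mul h s' hs'c
      rw [hG, eq_comm, mul_eq_left₀ ((Nat.descFactorial_pos.mpr (by omega)).ne'), Subgroup.card_eq_one,
        Subgroup.eq_bot_iff_forall] at h2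
      exact h2 g ((mem_fixingSubgroup_iff G).mpr fun a ha => hg a (hs' ha))
    obtain ⟨D, hD, hσ⟩ := exists_sym_of_sharp G (by omega) hn.symm h h1
    exact ⟨D, hD, fun σ _ => hσ σ⟩
  rcases transitive_fixFew k hk G α h hfix with hn | ⟨hk', hn, hG⟩ | ⟨hk', hn, hG⟩ | ⟨hk', hn, hG⟩
  · -- the alternating group is contained in `G`
    obtain ⟨D, -, hD⟩ := Finset.exists_subset_card_eq (s := (Finset.univ : Finset α)) (n := k + 1)
      (by rw [Finset.card_univ]; omega)
    refine ⟨D, hD, fun σ hσ => ⟨Equiv.Perm.ofSubtype σ, ?_, fun x => Equiv.Perm.ofSubtype_apply_coe σ x⟩⟩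
    suffices hA : alternatingGroup α ≤ G by
      apply hA
      rw [Equiv.Perm.mem_alternatingGroup] at hσ ⊢
      rw [Equiv.Perm.sign_ofSubtype, hσ]
    by_contra hA
    have hlow := CfsgLib.Derangements.card_le_index (by omega) G (fun e => hA (e ▸ le_top))
      (fun e => hA e.ge)
    have h1 := G.card_mul_index
    rw [hord, Nat.card_perm, Nat.card_eq_fintype_card (α := α), mul_assoc,
      ← Nat.factorial_mul_descFactorial (show k ≤ Fintype.card α by omega),
      mul_comm ((Fintype.card α - k).factorial)] at h1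
    have h2 := Nat.eq_of_mul_eq_mul_left (Nat.descFactorial_pos.mpr (by omega)) h1
    have h3 : G.index ≤ (Fintype.card α - k).factorial := by
      rw [← h2]; exact Nat.le_mul_of_pos_left _ Nat.card_pos
    rcases (show Fintype.card α - k = 1 ∨ Fintype.card α - k = 2 ∨ Fintype.card α - k = 3 by omega) with
      e | e | e <;> rw [e] at h3 <;> simp only [Nat.factorial] at h3 <;> omega
  · exact hsharp (by omega) (by rw [hG, hn, hk']; rfl)
  · exact hsharp (by omega) (by rw [hG, hn, hk']; rfl)
  · subst hk'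
    haveI : IsMultiplyPretransitive G α 5 :=
      pretransitive_of_card (fun x => stabilizer_embedding_eq_bot hfix (by norm_num) x) (by rw [hG, hn]; rfl)
    obtain ⟨D, -, hD⟩ := Finset.exists_subset_card_eq (s := (Finset.univ : Finset α)) (n := 5)
      (by rw [Finset.card_univ]; omega)
    refine ⟨D, hD, fun σ _ => ?_⟩
    obtain ⟨g, hg⟩ := exists_smul_eqOn (G := G) (α := α) (k := 5)
      (by rw [Nat.card_eq_fintype_card]; omega) D hD.le
      (fun x => if hx : x ∈ D then (σ ⟨x, hx⟩ : α) else x) (by
        intro x hx y hy hxy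
        simp only [Finset.mem_coe] at hx hy
        simp only [dif_pos hx, dif_pos hy] at hxy
        exact congrArg Subtype.val (σ.injective (Subtype.ext hxy)))
    exact ⟨g, g.2, fun x => (hg x x.2).trans (by simp)⟩

theorem exists_alt_aux (n : ℕ) : ∀ (α : Type u) [Fintype α] [DecidableEq α], Fintype.card α = n →
    ∀ (G : Subgroup (Equiv.Perm α)) (k : ℕ), 4 ≤ k → k < Fintype.card α →
      IsMultiplyPretransitive G α k →
        ∃ D : Finset α, D.card = k + 1 ∧ ∀ σ : Equiv.Perm D, σ ∈ alternatingGroup D →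
          ∃ g ∈ G, ∀ x : D, g (x : α) = σ x := by
  induction n using Nat.strong_induction_on with
  | _ n ih =>
    intro α _ _ hn G k hk hkn h
    classical
    haveI := h
    by_cases hfix : FixFew G α k
    · exact exists_alt_of_fixFew G hk hkn h hfix
    simp only [FixFew, not_forall] at hfix
    obtain ⟨g, s, hs, hgs, hg1⟩ := hfix
    haveI : Fintype G := Fintype.ofFinite G
    obtain ⟨r, hr, hrd⟩ := Nat.exists_prime_and_dvd (n := orderOf g) (by rwa [Ne, orderOf_eq_one_iff])
    haveI := Fact.mk hr
    obtain ⟨y, hy⟩ : ∃ y, y = g ^ (orderOf g / r) := ⟨_, rfl⟩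
    have hyo : orderOf y = r := hy ▸ orderOf_pow_orderOf_div (orderOf_pos g).ne' hrd
    -- the fixed points of a subgroup
    let Fix : Subgroup G → Finset α := fun Q => Finset.univ.filter fun a => ∀ q ∈ Q, q • a = a
    have hFix : ∀ Q a, a ∈ Fix Q ↔ ∀ q ∈ Q, q • a = a := fun Q a => by simp [Fix]
    haveI : Fintype (Subgroup G) := Fintype.ofFinite _
    let 𝒬 : Finset (Subgroup G) := Finset.univ.filter fun Q => IsPGroup r Q ∧ Q ≠ ⊥ ∧ k < (Fix Q).card
    have h𝒬 : Subgroup.zpowers y ∈ 𝒬 := by
      simp only [𝒬, Finset.mem_filter, Finset.mem_univ, true_and]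
      refine ⟨IsPGroup.of_card (n := 1) (by rw [Nat.card_zpowers, hyo, pow_one]), ?_, ?_⟩
      · rw [Ne, Subgroup.zpowers_eq_bot]
        intro e
        rw [e, orderOf_one] at hyo
        exact hr.one_lt.ne hyo
      · refine lt_of_lt_of_le hs (Finset.card_le_card fun a ha => (hFix _ a).mpr fun q hq => ?_)
        obtain ⟨i, rfl⟩ := Subgroup.mem_zpowers_iff.mp hq
        have : (y : G) ∈ stabilizer G a := hy ▸ Subgroup.pow_mem _ (show g ∈ stabilizer G a from hgs a ha) _
        exact Subgroup.zpow_mem _ this i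
    obtain ⟨Q, hQ𝒬, hQmax⟩ := 𝒬.exists_max_image (fun Q => Nat.card Q) ⟨_, h𝒬⟩
    simp only [𝒬, Finset.mem_filter, Finset.mem_univ, true_and] at hQ𝒬
    obtain ⟨hQp, hQ1, hQk⟩ := hQ𝒬
    set Φ := Fix Q with hΦ
    have hΦlt : Φ.card < Fintype.card α := by
      rw [← Finset.card_univ]
      refine Finset.card_lt_card (Finset.ssubset_univ_iff.mpr fun e => hQ1 ?_)
      rw [Subgroup.eq_bot_iff_forall]
      intro q hq
      exact Subtype.ext (Equiv.ext fun a => (hFix Q a).mp (by rw [← hΦ, e]; exact Finset.mem_univ a) q hq)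
    -- the normaliser acts on the fixed points
    set N := Subgroup.normalizer (Q : Set G) with hN
    have hNΦ : ∀ g : G, g ∈ N → ∀ a ∈ Φ, g • a ∈ Φ := by
      intro g hg a ha
      rw [hΦ, hFix] at ha ⊢
      intro q hq
      have h1 : g⁻¹ * q * g ∈ Q := by
        have h1' := (Subgroup.mem_normalizer_iff''.mp hg q).mp hq
        exact h1'
      have h2 : (g⁻¹ * q * g) • a = a := ha _ h1
      rw [mul_smul, mul_smul, inv_smul_eq_iff] at h2
      exact h2
    have hNΦ' : ∀ g : N, ∀ a, (g.1 : Equiv.Perm α) a ∈ Φ ↔ a ∈ Φ := by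
      intro g a
      refine ⟨fun ha => ?_, hNΦ g g.2 a⟩
      have := hNΦ _ (N.inv_mem g.2) _ ha
      change ((g : G)⁻¹ • ((g : G) • a)) ∈ Φ at this
      rwa [inv_smul_smul] at this
    let φ : N →* Equiv.Perm Φ :=
      { toFun := fun g => Equiv.Perm.subtypePerm (g.1 : Equiv.Perm α) (hNΦ' g)
        map_one' := Equiv.ext fun a => rfl
        map_mul' := fun g g' => Equiv.ext fun a => rfl }
    have hH : IsMultiplyPretransitive φ.range Φ k := by
      by_cases hSyl : ∀ B ⊆ Φ, B.card = k → ∃ P : Subgroup G, IsPGroup r P ∧ Q < P ∧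
          ∀ q ∈ P, ∀ a ∈ B, q • a = a
      · refine Cfsg.Agent.S0743.result φ.range hr (by omega) (by rw [Fintype.card_coe]; exact hQk) ?_
        intro B' hB'
        set B := B'.map (Function.Embedding.subtype _) with hBdef
        obtain ⟨P, hP, hQP, hPB⟩ := hSyl B (fun a ha => by
          obtain ⟨b, -, rfl⟩ := Finset.mem_map.mp ha
          exact b.2) (by rw [hBdef, Finset.card_map, hB'])
        haveI : Group.IsNilpotent P := hP.isNilpotent
        have hlt : Q.subgroupOf P < ⊤ := lt_top_iff_ne_top.mpr fun e => hQP.not_ge (Subgroup.subgroupOf_eq_top.mp e)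
        have hlt' := normalizerCondition_of_isNilpotent (Q.subgroupOf P) hlt
        set P' := (Subgroup.normalizer ((Q.subgroupOf P : Subgroup P) : Set P)).map P.subtype with hP'
        have hP'N : P' ≤ N := by
          rintro _ ⟨x, hx, rfl⟩
          rw [hN, Subgroup.mem_normalizer_iff]
          intro q
          refine ⟨fun hq => ?_, fun hq => ?_⟩
          · exact (Subgroup.mem_normalizer_iff.mp hx ⟨q, hQP.le hq⟩).mp hq
          · have hqP : q ∈ P := by
              have := P.mul_mem (P.mul_mem (P.inv_mem x.2) (hQP.le hq)) x.2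
              simpa [mul_assoc] using this
            exact (Subgroup.mem_normalizer_iff.mp hx ⟨q, hqP⟩).mpr hq
        have hP'P : P' ≤ P := Subgroup.map_subtype_le _
        have hQP' : Q < P' := by
          have := Subgroup.map_lt_map_iff_of_injective P.subtype_injective |>.mpr hlt'
          rwa [Subgroup.map_subgroupOf_eq_of_le hQP.le] at this
        have hP'r : IsPGroup r P' := hP.to_le hP'P
        have hfixP' : Fix P' = B := by
          refine (Finset.eq_of_subset_of_card_le (fun a ha => (hFix _ a).mpr fun q hq => hPB q (hP'P hq) a ha) ?_).symm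
          by_contra hc
          rw [not_le, hBdef, Finset.card_map, hB'] at hc
          have hle : Nat.card P' ≤ Nat.card Q := hQmax P' (by
            simp only [𝒬, Finset.mem_filter, Finset.mem_univ, true_and]
            exact ⟨hP'r, ne_bot_of_gt hQP', hc⟩)
          exact hQP'.ne (Subgroup.eq_of_le_of_card_ge hQP'.le hle)
        refine ⟨(P'.subgroupOf N).map φ.rangeRestrict,
          (hP'r.comap_of_injective N.subtype N.subtype_injective).map _, ?_⟩
        ext a
        simp only [mem_fixedPoints, Finset.mem_coe]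
        constructor
        · intro ha
          have hmem : (a : α) ∈ Fix P' := (hFix _ _).mpr fun q hq => by
            have := ha ⟨φ.rangeRestrict ⟨q, hP'N hq⟩, ⟨⟨q, hP'N hq⟩, hq, rfl⟩⟩
            exact congrArg Subtype.val this
          rw [hfixP', hBdef, Finset.mem_map] at hmem
          obtain ⟨b, hb, hba⟩ := hmem
          exact (Subtype.ext hba : b = a) ▸ hb
        · rintro ha ⟨_, ⟨q, hq, rfl⟩⟩
          refine Subtype.ext ?_
          have hmem : (a : α) ∈ Fix P' := by rw [hfixP', hBdef]; exact Finset.mem_map_of_mem _ ha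
          exact (hFix _ _).mp hmem q.1 hq
      · simp only [not_forall, not_exists] at hSyl
        obtain ⟨B₀, hB₀Φ, hB₀, hmax⟩ := hSyl
        have hQX : ∀ B : Finset α, B ⊆ Φ → Q ≤ fixingSubgroup G (B : Set α) := fun B hB q hq =>
          (mem_fixingSubgroup_iff G).mpr fun a ha => (hFix Q a).mp (hB ha) q hq
        let X₀ := fixingSubgroup G (B₀ : Set α)
        have hSyl₀ : IsPGroup r (Q.subgroupOf X₀) := hQp.comap_of_injective _ X₀.subtype_injective
        let S₀ : Sylow r X₀ := ⟨Q.subgroupOf X₀, hSyl₀, fun {R} hR hle => by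
          refine le_antisymm ?_ hle
          by_contra hne
          have hlt : Q.subgroupOf X₀ < R := lt_of_le_not_ge hle hne
          have := Subgroup.map_lt_map_iff_of_injective X₀.subtype_injective |>.mpr hlt
          rw [Subgroup.map_subgroupOf_eq_of_le (hQX B₀ hB₀Φ)] at this
          refine hmax (R.map X₀.subtype) ⟨hR.map _, this, ?_⟩
          rintro _ ⟨q, -, rfl⟩ a ha
          exact (mem_fixingSubgroup_iff G).mp q.2 a ha⟩
        have hQc : Nat.card Q = r ^ (Nat.card X₀).factorization r := by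
          rw [← S₀.card_eq_multiplicity]
          exact (Nat.card_congr (Subgroup.subgroupOfEquivOfLe (hQX B₀ hB₀Φ)).toEquiv).symm
        refine ⟨fun u v => ?_⟩
        let u' : Fin k ↪ α := u.trans (Function.Embedding.subtype _)
        let v' : Fin k ↪ α := v.trans (Function.Embedding.subtype _)
        obtain ⟨g, hg⟩ := h.exists_smul_eq u' v'
        have hgi : ∀ i, g • (u i : α) = v i := fun i => DFunLike.congr_fun hg i
        set B := Finset.univ.map v' with hB
        have hBΦ : B ⊆ Φ := by
          intro a ha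
          obtain ⟨i, -, rfl⟩ := Finset.mem_map.mp ha
          exact (v i).2
        let X := fixingSubgroup G (B : Set α)
        have hXc : Nat.card X = Nat.card X₀ := card_fixing_congr h B B₀ (by simp [hB]) hB₀
        let S : Sylow r X := Sylow.ofCard (Q.subgroupOf X) (by
          rw [Nat.card_congr (Subgroup.subgroupOfEquivOfLe (hQX B hBΦ)).toEquiv, hQc, hXc])
        set Q' := Q.map (MulAut.conj g).toMonoidHom with hQ'
        have hQ'X : Q' ≤ X := by
          rintro _ ⟨q, hq, rfl⟩
          refine (mem_fixingSubgroup_iff G).mpr fun a ha => ?_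
          obtain ⟨i, -, rfl⟩ := Finset.mem_map.mp (Finset.mem_coe.mp ha)
          show (g * q * g⁻¹) • (v i : α) = v i
          rw [← hgi i, mul_smul, mul_smul, inv_smul_smul, (hFix Q _).mp (u i).2 q hq]
        let S' : Sylow r X := Sylow.ofCard (Q'.subgroupOf X) (by
          rw [Nat.card_congr (Subgroup.subgroupOfEquivOfLe hQ'X).toEquiv, hQ',
            Subgroup.card_map_of_injective (MulAut.conj g).injective, hQc, hXc])
        obtain ⟨x, hx⟩ := MulAction.exists_smul_eq X S' S
        have hxg : (x : G) * g ∈ N := by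
          rw [hN, Subgroup.mem_normalizer_iff_map_conj_eq]
          refine Subgroup.eq_of_le_of_card_ge ?_ ?_
          · rintro _ ⟨q, hq, rfl⟩
            have h1 : (⟨g * q * g⁻¹, hQ'X ⟨q, hq, rfl⟩⟩ : X) ∈ (S' : Subgroup X) := ⟨q, hq, rfl⟩
            have h2 : MulAut.conj x (⟨g * q * g⁻¹, hQ'X ⟨q, hq, rfl⟩⟩ : X) ∈ (S : Subgroup X) := by
              rw [← hx, Sylow.coe_subgroup_smul]
              exact Subgroup.smul_mem_pointwise_smul _ _ _ h1
            have h3 : (x : G) * (g * q * g⁻¹) * (x : G)⁻¹ ∈ Q := h2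
            show (x : G) * g * q * ((x : G) * g)⁻¹ ∈ Q
            simpa [mul_assoc] using h3
          · exact le_of_eq (Subgroup.card_map_of_injective (MulEquiv.injective _)).symm
        refine ⟨⟨φ ⟨(x : G) * g, hxg⟩, ⟨_, rfl⟩⟩, ?_⟩
        refine Function.Embedding.ext fun i => Subtype.ext ?_
        show ((x : G) * g) • (u i : α) = v i
        rw [mul_smul, hgi]
        exact (mem_fixingSubgroup_iff G).mp x.2 _ (Finset.mem_map_of_mem v' (Finset.mem_univ i))
    obtain ⟨D', hD', hσ'⟩ := ih Φ.card (hn ▸ hΦlt) Φ (Fintype.card_coe Φ) φ.range k hk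
      (by rw [Fintype.card_coe]; exact hQk) hH
    refine ⟨D'.map (Function.Embedding.subtype _), by rw [Finset.card_map, hD'], fun σ hσ => ?_⟩
    let e : D' ≃ (D'.map (Function.Embedding.subtype _) : Finset α) :=
      Equiv.ofBijective (fun x => ⟨x.1.1, Finset.mem_map_of_mem _ x.2⟩)
        ⟨fun x y hxy => Subtype.ext (Subtype.ext (Subtype.mk.injEq .. ▸ hxy)),
          fun y => by
            obtain ⟨z, hz, hzy⟩ := Finset.mem_map.mp y.2
            exact ⟨⟨z, hz⟩, Subtype.ext hzy⟩⟩
    obtain ⟨p, ⟨q, rfl⟩, hp⟩ := hσ' (e.symm.permCongr σ) (by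
      rw [Equiv.Perm.mem_alternatingGroup] at hσ ⊢
      rw [Equiv.Perm.sign_permCongr, hσ])
    refine ⟨(q.1 : Equiv.Perm α), q.1.2, fun x => ?_⟩
    obtain ⟨z, rfl⟩ := e.surjective x
    have h1 := congrArg Subtype.val (hp z)
    rw [Equiv.permCongr_apply, Equiv.symm_symm] at h1
    refine h1.trans ?_
    exact congrArg Subtype.val (e.apply_symm_apply (σ (e z)))

/-- In a `k`-transitive permutation group, `4 ≤ k < n`, every even permutation of some `(k + 1)`-set
is induced. -/
theorem exists_alt {α : Type u} [Fintype α] [DecidableEq α] (G : Subgroup (Equiv.Perm α)) {k : ℕ}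
    (hk : 4 ≤ k) (hkn : k < Fintype.card α) (h : IsMultiplyPretransitive G α k) :
    ∃ D : Finset α, D.card = k + 1 ∧ ∀ σ : Equiv.Perm D, σ ∈ alternatingGroup D →
      ∃ g ∈ G, ∀ x : D, g (x : α) = σ x :=
  exists_alt_aux _ α rfl G k hk hkn h

end CfsgLib.AltGroups.MT
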