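import Cfsg.Agent.Lib.AltGroups.FourGroupOdd
import Cfsg.Agent.Lib.AltGroups.FourTransFive

/-!
A quadruply transitive group of degree at least eight has an element that fixes three points and
interchanges two others, unless its degree is odd.
-/

set_option autoImplicit false
set_option linter.style.haveILetI false
set_option linter.unusedSectionVars false

open MulAction

namespace CfsgLib.AltGroups.MT

variable {α : Type*} [Fintype α] [DecidableEq α]

/-- Orbit-stabiliser for a subgroup, with the orbit given as a finite set. -/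
theorem card_orb_mul {G : Type*} [Group G] [Finite G] [MulAction G α] (K : Subgroup G) (p : α) (O : Finset α)
    (hO : ∀ y, y ∈ O ↔ ∃ h ∈ K, h • p = y) :
    Nat.card K = O.card * Nat.card (K ⊓ stabilizer G p : Subgroup G) := by
  have h1 : orbit K p = (O : Set α) := by
    ext y
    rw [Finset.mem_coe, hO]
    exact ⟨fun ⟨h, hh⟩ => ⟨h, h.2, hh⟩, fun ⟨h, hK, hh⟩ => ⟨⟨h, hK⟩, hh⟩⟩
  have h2 := (stabilizer K p).index_mul_card
  rw [index_stabilizer, h1, Set.ncard_coe_finset] at h2
  rw [← h2]
  congr 1
  exact Nat.card_congr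
    { toFun := fun h => ⟨h.1.1, h.1.2, h.2⟩
      invFun := fun h => ⟨⟨h.1, h.2.1⟩, h.2.2⟩
      left_inv := fun _ => rfl
      right_inv := fun _ => rfl }

/-- The orbit of a point under the pointwise stabiliser of a finite set. -/
noncomputable def fixOrb (G : Subgroup (Equiv.Perm α)) (B : Finset α) (p : α) : Finset α := by
  classical exact Finset.univ.filter fun y => ∃ h ∈ fixingSubgroup G (B : Set α), h • p = y

theorem mem_fixOrb (G : Subgroup (Equiv.Perm α)) (B : Finset α) (p y : α) :
    y ∈ fixOrb G B p ↔ ∃ h ∈ fixingSubgroup G (B : Set α), h • p = y := by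
  simp [fixOrb]

/-- There is no quadruply transitive group of degree at least eight in which no element fixing three
points interchanges two others. -/
theorem false_of_no_transposition (G : Subgroup (Equiv.Perm α)) (h4 : IsMultiplyPretransitive G α 4)
    (hn : 8 ≤ Fintype.card α)
    (hno : ∀ g : G, ∀ s : Finset α, s.card = 3 → (∀ a ∈ s, g • a = a) →
      ∀ d e : α, d ∉ s → e ∉ s → d ≠ e → g • d = e → g • e = d → False) : False := by
  classical
  haveI := Fintype.ofFinite G
  -- involutions fix at most two points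
  have hinv : ∀ g : G, g * g = 1 → ∀ s : Finset α, 3 ≤ s.card → (∀ a ∈ s, g • a = a) → g = 1 := by
    intro g hg s hs hga
    by_contra hne
    obtain ⟨s', hs', hs'c⟩ := Finset.exists_subset_card_eq hs
    obtain ⟨d, hd⟩ : ∃ d : α, g • d ≠ d := by
      by_contra hcon
      push Not at hcon
      exact hne (FaithfulSMul.eq_of_smul_eq_smul (α := α) fun d => by rw [hcon, one_smul])
    refine hno g s' hs'c (fun a ha => hga a (hs' ha)) d (g • d) (fun h => hd (hga d (hs' h)))
      (fun h => hd ?_) (Ne.symm hd) rfl (by rw [smul_smul, hg, one_smul])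
    have := hga _ (hs' h)
    rw [smul_smul, hg, one_smul] at this
    exact this.symm
  have hodd : ∀ B : Finset α, 3 ≤ B.card → Odd (Nat.card (fixingSubgroup G (B : Set α))) := by
    intro B hB
    rw [← Nat.not_even_iff_odd]
    intro he
    obtain ⟨⟨z, hz⟩, hzo⟩ := exists_prime_orderOf_dvd_card' (G := fixingSubgroup G (B : Set α)) 2
      (even_iff_two_dvd.mp he)
    rw [Subgroup.orderOf_mk] at hzo
    have h1 : z = 1 := hinv z (by rw [← pow_two, ← hzo, pow_orderOf_eq_one]) B hB
      fun a ha => (mem_fixingSubgroup_iff G).mp hz a ha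
    rw [h1, orderOf_one] at hzo
    omega
  have hexact : ∀ g : G, g * g = 1 → g ≠ 1 → ∀ a b : α, a ≠ b → g • a = a → g • b = b →
      ∀ e, g • e = e → e = a ∨ e = b := by
    intro g hg hg1 a b hab ha hb e he
    by_contra hcon
    push Not at hcon
    refine hg1 (hinv g hg {a, b, e} ?_ ?_)
    · rw [Finset.card_eq_three.mpr ⟨a, b, e, hab, hcon.1.symm, hcon.2.symm, rfl⟩]
    · intro x hx
      simp only [Finset.mem_insert, Finset.mem_singleton] at hx
      rcases hx with rfl | rfl | rfl <;> assumption
  -- one half: the centraliser of an involution meets every pair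
  have hkey : ∀ (a b r s : α) (B : Finset α), B.card = 4 → (∀ e, e ∈ B ↔ e = a ∨ e = b ∨ e = r ∨ e = s) →
      a ≠ b → r ≠ s → a ∉ ({r, s} : Finset α) → b ∉ ({r, s} : Finset α) →
      ∀ u w : G, u * u = 1 → u • a = a → u • b = b → u • r = s → u • s = r → w * w = 1 → u * w = w * u →
      w • r = r → w • s = s → w • a = b → ∀ p q : α, p ∉ B → u • p = q → w • p = q →
      Fintype.card α - 4 ≤ 2 * (Finset.univ.filter fun y =>
        ∃ h ∈ fixingSubgroup G (B : Set α) ⊓ Subgroup.centralizer {u}, h • p = y).card := by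
    intro a b r s B hB hBe hab hrs har hbr u w huu hua hub hur hus hww huw hwr hws hwa p q hp hup hwp
    simp only [Finset.mem_insert, Finset.mem_singleton, not_or] at har hbr
    have hu1 : u ≠ 1 := fun e => hrs (by rw [← hur, e, one_smul])
    have hw1 : w ≠ 1 := fun e => hab (by rw [← hwa, e, one_smul])
    have hwb : w • b = a := by rw [← hwa, smul_smul, hww, one_smul]
    have hu2 : ∀ e : α, u • u • e = e := fun e => by rw [smul_smul, huu, one_smul]
    have huB : ∀ e, u • e ∈ B → e ∈ B := by
      intro e he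
      rw [hBe] at he ⊢
      rcases he with h | h | h | h
      · exact Or.inl (MulAction.injective u (h.trans hua.symm))
      · exact Or.inr (Or.inl (MulAction.injective u (h.trans hub.symm)))
      · exact Or.inr (Or.inr (Or.inr (MulAction.injective u (h.trans hus.symm))))
      · exact Or.inr (Or.inr (Or.inl (MulAction.injective u (h.trans hur.symm))))
    set X := fixingSubgroup G (B : Set α) with hX
    obtain ⟨j, hj1, hj2⟩ := exists_sqrt X (hodd B (by omega))
    set OD := Finset.univ.filter fun y => ∃ h ∈ X ⊓ Subgroup.centralizer {u}, h • p = y with hOD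
    have hcov : (Finset.univ \ B) ⊆ OD ∪ OD.image (fun y => u • y) := by
      intro p' hp'
      simp only [Finset.mem_sdiff, Finset.mem_univ, true_and] at hp'
      have hup' : u • p' ≠ p' := fun e => by
        rcases hexact u huu hu1 a b hab hua hub p' e with rfl | rfl <;> exact hp' ((hBe _).mpr (by simp))
      have hq' : u • p' ∉ B := fun e => hp' (huB _ e)
      have hne : ∀ x, x ∈ B → p' ≠ x ∧ u • p' ≠ x := fun x hx =>
        ⟨fun e => hp' (e ▸ hx), fun e => hq' (e ▸ hx)⟩
      obtain ⟨hpr, hqr⟩ := hne r ((hBe r).mpr (by simp))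
      obtain ⟨hps, hqs⟩ := hne s ((hBe s).mpr (by simp))
      obtain ⟨g, g1, g2, g3, g4⟩ := exists_move4 (a := r) (b := s) (c := p') (d := u • p') (a' := r) (b' := s)
        (c' := u • p') (d' := p') h4 hrs hpr.symm hqr.symm hps.symm hqs.symm hup'.symm
        hrs hqr.symm hpr.symm hqs.symm hps.symm hup'
      obtain ⟨w', hw'w, huw', hw'⟩ := exists_involution_lift {r, s, p', u • p'}
        (hodd _ (by simp [hrs, hpr.symm, hqr.symm, hps.symm, hqs.symm, hup'.symm])) g u (by
          intro e he
          simp only [Finset.mem_insert, Finset.mem_singleton] at he ⊢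
          rcases he with rfl | rfl | rfl | rfl <;> simp [g1, g2, g3, g4]) huu (by
          intro e he
          simp only [Finset.mem_insert, Finset.mem_singleton] at he ⊢
          rcases he with rfl | rfl | rfl | rfl <;> simp [g1, g2, g3, g4, hur, hus, hu2])
      have hw'r : w' • r = r := by rw [hw' r (by simp), g1]
      have hw's : w' • s = s := by rw [hw' s (by simp), g2]
      have hw'p : w' • p' = u • p' := by rw [hw' p' (by simp), g3]
      have hw'q : w' • u • p' = p' := by rw [hw' _ (by simp), g4]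
      have hw'1 : w' ≠ 1 := fun e => hup' (by rw [← hw'p, e, one_smul])
      have hw'a : w' • a = b := by
        have h1 : u • w' • a = w' • a := by rw [smul_smul, huw', mul_smul, hua]
        rcases hexact u huu hu1 a b hab hua hub _ h1 with h | h
        · rcases hexact w' hw'w hw'1 r s hrs hw'r hw's a h with h' | h'
          · exact absurd h' har.1
          · exact absurd h' har.2
        · exact h
      have hw'b : w' • b = a := by rw [← hw'a, smul_smul, hw'w, one_smul]
      set y := w * w' with hy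
      have hyX : y ∈ X := by
        refine (mem_fixingSubgroup_iff G).mpr fun e he => ?_
        rw [Finset.mem_coe, hBe] at he
        rcases he with rfl | rfl | rfl | rfl <;> simp [hy, mul_smul, hwr, hws, hwa, hwb, hw'r, hw's, hw'a, hw'b]
      have hwyw : w * y * w = y⁻¹ := by
        rw [hy, mul_inv_rev, inv_eq_of_mul_eq_one_right hww, inv_eq_of_mul_eq_one_right hw'w, ← mul_assoc, hww,
          one_mul]
      have huy : Commute u y := (show Commute u w from huw).mul_right huw'
      set h := y ^ j with hh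
      have huh : Commute u h := huy.pow_right j
      have hwh : w * h * w = h⁻¹ := by rw [hh, conj_pow_of_involution hww, hwyw, inv_pow]
      have hww' : w' = h⁻¹ * w * h := by
        have e2 : h⁻¹ * w = w * h := by rw [← hwh, mul_assoc (w * h), hww, mul_one]
        rw [e2, mul_assoc, hh, hj1 y hyX, hy, ← mul_assoc, hww, one_mul]
      have hfix : (w * u) • (h • p') = h • p' := by
        have h1 : (w' * u) • p' = p' := by rw [mul_smul, hw'q]
        rw [hww', mul_assoc, ← huh.eq, mul_smul, mul_smul, mul_smul, inv_smul_eq_iff] at h1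
        rw [mul_smul]
        exact h1
      have hwu : (w * u) * (w * u) = 1 := by
        calc w * u * (w * u) = w * (u * w) * u := by group
          _ = (w * w) * (u * u) := by rw [huw]; group
          _ = 1 := by rw [hww, huu, mul_one]
      have hwu1 : w * u ≠ 1 := fun e => hab (by
        have := congrArg (fun v : G => v • a) e
        simp only [mul_smul, hua, hwa, one_smul] at this
        exact this.symm)
      have hpq : p ≠ q := fun e => by
        rcases hexact u huu hu1 a b hab hua hub p (hup.trans e.symm) with rfl | rfl <;>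
          exact hp ((hBe _).mpr (by simp))
      have huq : u • q = p := by rw [← hup, hu2]
      have hwq : w • q = p := by rw [← hwp, smul_smul, hww, one_smul]
      have hmem : h⁻¹ • p ∈ OD := by
        simp only [hOD, Finset.mem_filter, Finset.mem_univ, true_and]
        exact ⟨h⁻¹, Subgroup.mem_inf.mpr ⟨X.inv_mem (X.pow_mem hyX j),
          Subgroup.inv_mem _ (Subgroup.mem_centralizer_singleton_iff.mpr huh.eq.symm)⟩, rfl⟩
      rcases hexact (w * u) hwu hwu1 p q hpq (by rw [mul_smul, hup, hwq]) (by rw [mul_smul, huq, hwp]) _ hfix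
        with h' | h'
      · exact Finset.mem_union_left _ (by rwa [← h', inv_smul_smul] at hmem)
      · refine Finset.mem_union_right _ (Finset.mem_image.mpr ⟨_, hmem, ?_⟩)
        show u • h⁻¹ • p = p'
        have e1 : h⁻¹ • p = u • p' := by
          rw [← huq, ← h', show h⁻¹ • u • h • p' = (h⁻¹ * u * h) • p' by simp [mul_smul], ← huh.inv_right.eq,
            mul_assoc, inv_mul_cancel, mul_one]
        rw [e1, hu2]
    have h1 := Finset.card_le_card hcov
    rw [Finset.card_sdiff_of_subset (Finset.subset_univ _), Finset.card_univ, hB] at h1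
    have h2 := Finset.card_union_le OD (OD.image fun y => u • y)
    have h3 := Finset.card_image_le (s := OD) (f := fun y => u • y)
    omega
  -- the orbits of a four-point stabiliser
  have hstruct : ∀ (B : Finset α), B.card = 4 → ∀ p ∉ B,
      2 * (fixOrb G B p).card + 4 = Fintype.card α ∧
      ∀ y z, y ∉ B → z ∉ B → y ∉ fixOrb G B p → z ∉ fixOrb G B p →
        ∃ h ∈ fixingSubgroup G (B : Set α), h • p = p ∧ h • y = z := by
    intro B hB p hp
    obtain ⟨a, b, r, s, hab, har, has, hbr, hbs, hrs, rfl⟩ := Finset.card_eq_four.mp hB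
    set B : Finset α := {a, b, r, s} with hBdef
    have hBe : ∀ e, e ∈ B ↔ e = a ∨ e = b ∨ e = r ∨ e = s := fun e => by simp [hBdef]
    obtain ⟨g, g1, g2, g3, g4⟩ := exists_move4 (a := a) (b := b) (c := r) (d := s) (a' := a) (b' := b)
      (c' := s) (d' := r) h4 hab har has hbr hbs hrs hab has har hbs hbr hrs.symm
    obtain ⟨u, huu, -, hu⟩ := exists_involution_lift B (hodd B (by omega)) g 1 (by
      intro e he
      rw [hBe] at he ⊢
      rcases he with rfl | rfl | rfl | rfl <;> simp [g1, g2, g3, g4]) (one_mul 1)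
      (fun e he => ⟨by rw [one_smul]; exact he, by rw [one_smul, one_smul]⟩)
    have hua : u • a = a := by rw [hu a ((hBe _).mpr (by simp)), g1]
    have hub : u • b = b := by rw [hu b ((hBe _).mpr (by simp)), g2]
    have hur : u • r = s := by rw [hu r ((hBe _).mpr (by simp)), g3]
    have hus : u • s = r := by rw [hu s ((hBe _).mpr (by simp)), g4]
    have hu1 : u ≠ 1 := fun e => hrs (by rw [← hur, e, one_smul])
    have hu2 : ∀ e : α, u • u • e = e := fun e => by rw [smul_smul, huu, one_smul]
    obtain ⟨q, hup⟩ : ∃ q, u • p = q := ⟨_, rfl⟩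
    have huq : u • q = p := by rw [← hup, hu2]
    have hpq : p ≠ q := fun e => by
      rcases hexact u huu hu1 a b hab hua hub p (hup.trans e.symm) with rfl | rfl <;>
        exact hp ((hBe _).mpr (by simp))
    have huB : ∀ e, u • e ∈ B ↔ e ∈ B := by
      intro e
      rw [hBe, hBe]
      constructor
      · rintro (h | h | h | h)
        · exact Or.inl (MulAction.injective u (h.trans hua.symm))
        · exact Or.inr (Or.inl (MulAction.injective u (h.trans hub.symm)))
        · exact Or.inr (Or.inr (Or.inr (MulAction.injective u (h.trans hus.symm))))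
        · exact Or.inr (Or.inr (Or.inl (MulAction.injective u (h.trans hur.symm))))
      · rintro (rfl | rfl | rfl | rfl) <;> simp [hua, hub, hur, hus]
    have hq : q ∉ B := fun e => hp ((huB p).mp (hup ▸ e))
    have hne : ∀ x, x ∈ B → p ≠ x ∧ q ≠ x := fun x hx => ⟨fun e => hp (e ▸ hx), fun e => hq (e ▸ hx)⟩
    obtain ⟨hpr, hqr⟩ := hne r ((hBe r).mpr (by simp))
    obtain ⟨hps, hqs⟩ := hne s ((hBe s).mpr (by simp))
    obtain ⟨g', k1, k2, k3, k4⟩ := exists_move4 (a := r) (b := s) (c := p) (d := q) (a' := r) (b' := s)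
      (c' := q) (d' := p) h4 hrs hpr.symm hqr.symm hps.symm hqs.symm hpq
      hrs hqr.symm hpr.symm hqs.symm hps.symm hpq.symm
    obtain ⟨w, hww, huw, hw⟩ := exists_involution_lift {r, s, p, q}
      (hodd _ (by simp [hrs, hpr.symm, hqr.symm, hps.symm, hqs.symm, hpq])) g' u (by
        intro e he
        simp only [Finset.mem_insert, Finset.mem_singleton] at he ⊢
        rcases he with rfl | rfl | rfl | rfl <;> simp [k1, k2, k3, k4]) huu (by
        intro e he
        simp only [Finset.mem_insert, Finset.mem_singleton] at he ⊢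
        rcases he with rfl | rfl | rfl | rfl <;> simp [k1, k2, k3, k4, hur, hus, hup, huq])
    have hwr : w • r = r := by rw [hw r (by simp), k1]
    have hws : w • s = s := by rw [hw s (by simp), k2]
    have hwp : w • p = q := by rw [hw p (by simp), k3]
    have hwq : w • q = p := by rw [hw q (by simp), k4]
    have hw1 : w ≠ 1 := fun e => hpq (by rw [← hwp, e, one_smul])
    have hwa : w • a = b := by
      have h1 : u • w • a = w • a := by rw [smul_smul, huw, mul_smul, hua]
      rcases hexact u huu hu1 a b hab hua hub _ h1 with h | h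
      · rcases hexact w hww hw1 r s hrs hwr hws a h with h' | h'
        · exact absurd h' har
        · exact absurd h' has
      · exact h
    have hwb : w • b = a := by rw [← hwa, smul_smul, hww, one_smul]
    set X := fixingSubgroup G (B : Set α) with hX
    have hXo : Odd (Nat.card X) := hodd B (by omega)
    -- the two halves
    set ODu := Finset.univ.filter fun y => ∃ h ∈ X ⊓ Subgroup.centralizer {u}, h • p = y with hODu
    set ODw := Finset.univ.filter fun y => ∃ h ∈ X ⊓ Subgroup.centralizer {w}, h • p = y with hODw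
    have h1u : Fintype.card α - 4 ≤ 2 * ODu.card := hkey a b r s B hB hBe hab hrs (by simp [har, has])
      (by simp [hbr, hbs]) u w huu hua hub hur hus hww huw hwr hws hwa p q hp hup hwp
    have h1w : Fintype.card α - 4 ≤ 2 * ODw.card := hkey r s a b B hB (fun e => by rw [hBe]; tauto) hrs hab
      (by simp [har.symm, hbr.symm]) (by simp [has.symm, hbs.symm]) w u hww hwr hws hwa hwb huu huw.symm
      hua hub hur p q hp hwp hup
    set O := fixOrb G B p with hO
    have hOB : ∀ y ∈ O, y ∉ B := by
      intro y hy hyB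
      obtain ⟨h, hh, rfl⟩ := (mem_fixOrb G B p y).mp hy
      have := (mem_fixingSubgroup_iff G).mp (X.inv_mem hh) _ hyB
      rw [inv_smul_smul] at this
      exact hp (this ▸ hyB)
    have hXfix : ∀ h ∈ X, ∀ e ∈ B, h • e = e := fun h hh e he => (mem_fixingSubgroup_iff G).mp hh e he
    have hnu : ∀ x ∈ X, u * x * u ∈ X := fun x hx => (mem_fixingSubgroup_iff G).mpr fun e he => by
      rw [mul_smul, mul_smul, hXfix x hx _ ((huB e).mpr he), hu2]
    have hwB : ∀ e ∈ B, w • e ∈ B := fun e he => by
      rw [hBe] at he ⊢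
      rcases he with rfl | rfl | rfl | rfl <;> simp [hwa, hwb, hwr, hws]
    have hnw : ∀ x ∈ X, w * x * w ∈ X := fun x hx => (mem_fixingSubgroup_iff G).mpr fun e he => by
      rw [mul_smul, mul_smul, hXfix x hx _ (hwB e he), smul_smul, hww, one_smul]
    have hdisj : Disjoint O (O.image fun y => u • y) := by
      rw [Finset.disjoint_left]
      intro y hy hy'
      obtain ⟨y', hy'', rfl⟩ := Finset.mem_image.mp hy'
      obtain ⟨h1, hh1, hh1'⟩ := (mem_fixOrb G B p _).mp hy
      obtain ⟨h2, hh2, rfl⟩ := (mem_fixOrb G B p _).mp hy''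
      have hy'B : h2 • p ∉ B := hOB _ hy''
      refine hno ((h1 * h2⁻¹)⁻¹ * u) {a, b, h2 • p} ?_ ?_ r s ?_ ?_ hrs ?_ ?_
      · exact Finset.card_eq_three.mpr ⟨a, b, h2 • p, hab, fun e => hy'B ((hBe _).mpr (Or.inl e.symm)),
          fun e => hy'B ((hBe _).mpr (Or.inr (Or.inl e.symm))), rfl⟩
      · intro e he
        simp only [Finset.mem_insert, Finset.mem_singleton] at he
        rcases he with rfl | rfl | rfl
        · rw [mul_smul, hua, hXfix _ (X.inv_mem (X.mul_mem hh1 (X.inv_mem hh2))) _ ((hBe _).mpr (by simp))]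
        · rw [mul_smul, hub, hXfix _ (X.inv_mem (X.mul_mem hh1 (X.inv_mem hh2))) _ ((hBe _).mpr (by simp))]
        · rw [mul_smul, mul_inv_rev, inv_inv, mul_smul, inv_smul_eq_iff.mpr hh1'.symm]
      · simp only [Finset.mem_insert, Finset.mem_singleton, not_or]
        exact ⟨har.symm, hbr.symm, fun e => hy'B (e ▸ (hBe r).mpr (by simp))⟩
      · simp only [Finset.mem_insert, Finset.mem_singleton, not_or]
        exact ⟨has.symm, hbs.symm, fun e => hy'B (e ▸ (hBe s).mpr (by simp))⟩
      · rw [mul_smul, hur, hXfix _ (X.inv_mem (X.mul_mem hh1 (X.inv_mem hh2))) _ ((hBe _).mpr (by simp))]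
      · rw [mul_smul, hus, hXfix _ (X.inv_mem (X.mul_mem hh1 (X.inv_mem hh2))) _ ((hBe _).mpr (by simp))]
    have hsubR : O ∪ O.image (fun y => u • y) ⊆ Finset.univ \ B := by
      intro y hy
      simp only [Finset.mem_sdiff, Finset.mem_univ, true_and]
      rcases Finset.mem_union.mp hy with hy | hy
      · exact hOB y hy
      · obtain ⟨y', hy', rfl⟩ := Finset.mem_image.mp hy
        exact fun e => hOB y' hy' ((huB y').mp e)
    have hsum := Finset.card_le_card hsubR
    rw [Finset.card_union_of_disjoint hdisj, Finset.card_image_of_injective _ (MulAction.injective u),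
      Finset.card_sdiff_of_subset (Finset.subset_univ _), Finset.card_univ, hB] at hsum
    have hsubu : ODu ⊆ O := fun y hy => by
      obtain ⟨h, hh, hy'⟩ := (Finset.mem_filter.mp hy).2
      exact (mem_fixOrb G B p y).mpr ⟨h, (Subgroup.mem_inf.mp hh).1, hy'⟩
    have hsubw : ODw ⊆ O := fun y hy => by
      obtain ⟨h, hh, hy'⟩ := (Finset.mem_filter.mp hy).2
      exact (mem_fixOrb G B p y).mpr ⟨h, (Subgroup.mem_inf.mp hh).1, hy'⟩
    have hlu := Finset.card_le_card hsubu
    have hlw := Finset.card_le_card hsubw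
    have hpar : Fintype.card α % 2 = 0 := by
      rw [card_modEq_fixed (fun e : α => u • e) hu2]
      have : (Finset.univ.filter fun e : α => u • e = e) = {a, b} := by
        ext e
        simp only [Finset.mem_filter, Finset.mem_univ, true_and, Finset.mem_insert, Finset.mem_singleton]
        exact ⟨hexact u huu hu1 a b hab hua hub e, by rintro (rfl | rfl) <;> assumption⟩
      rw [this, Finset.card_pair hab]
    set m := O.card with hm
    have hmn : 2 * m + 4 = Fintype.card α := by omega
    refine ⟨hmn, fun y z hyB hzB hyO hzO => ?_⟩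
    -- the stabiliser of `p` is transitive on the other half
    obtain ⟨z₀, hz₀⟩ : ∃ z, z = u * w := ⟨_, rfl⟩
    have hzp : z₀ • p = p := by rw [hz₀, mul_smul, hwp, huq]
    have hzq : z₀ • q = q := by rw [hz₀, mul_smul, hwq, hup]
    have hzz : z₀ * z₀ = 1 := by
      calc z₀ * z₀ = u * (w * u) * w := by rw [hz₀]; group
        _ = u * (u * w) * w := by rw [huw]
        _ = (u * u) * (w * w) := by group
        _ = 1 := by rw [hww, huu, mul_one]
    have hz1 : z₀ ≠ 1 := fun e => hrs (by
      have := congrArg (fun v : G => v • r) e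
      simp only [hz₀, mul_smul, hwr, hur, one_smul] at this
      exact this.symm)
    set L : Subgroup G := X ⊓ stabilizer G p ⊓ stabilizer G q with hL
    have hXodd' : ∀ x ∈ X, x • p = q → x • q = p → False := by
      intro x hx h1 h2
      obtain ⟨i, hi1, hi2⟩ := exists_sqrt X hXo
      have hxx : x * x ∈ stabilizer G p := by rw [mem_stabilizer_iff, mul_smul, h1, h2]
      have h3 : x ∈ stabilizer G p := hi2 x hx ▸ Subgroup.pow_mem _ hxx i
      exact hpq (h3.symm.trans h1)
    have hzL : ∀ x ∈ X, z₀ * x = x * z₀ → x ∈ L := by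
      intro x hx hc
      have e : ∀ t, z₀ • t = t → x • t = p ∨ x • t = q := fun t ht =>
        hexact z₀ hzz hz1 p q hpq hzp hzq _ (by rw [smul_smul, hc, mul_smul, ht])
      rcases e p hzp with h1 | h1
      · rcases e q hzq with h2 | h2
        · exact absurd (MulAction.injective x (h1.trans h2.symm)) hpq
        · exact ⟨⟨hx, h1⟩, h2⟩
      · rcases e q hzq with h2 | h2
        · exact (hXodd' x hx h1 h2).elim
        · exact absurd (MulAction.injective x (h1.trans h2.symm)) hpq
    have hLo : Odd (Nat.card L) :=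
      Odd.of_dvd_nat hXo (Subgroup.card_dvd_of_le (inf_le_left.trans inf_le_left))
    have hLn : ∀ v : G, v * v = 1 → (∀ x ∈ X, v * x * v ∈ X) → v • p = q → v • q = p →
        ∀ x ∈ L, v * x * v ∈ L := by
      intro v hv hvX h1 h2 x hx
      obtain ⟨⟨hxX, hxp⟩, hxq⟩ := hx
      refine ⟨⟨hvX x hxX, ?_⟩, ?_⟩
      · show (v * x * v) • p = p
        rw [mul_smul, mul_smul, h1, mem_stabilizer_iff.mp hxq, h2]
      · show (v * x * v) • q = q
        rw [mul_smul, mul_smul, h2, mem_stabilizer_iff.mp hxp, h1]
    have fX := card_four_group X hXo huu hww huw hnu hnw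
    have fL := card_four_group L hLo huu hww huw (hLn u huu hnu hup huq) (hLn w hww hnw hwp hwq)
    have hLX : L ≤ X := inf_le_left.trans inf_le_left
    have hEeq : X ⊓ Subgroup.centralizer {w} ⊓ Subgroup.centralizer {u} =
        L ⊓ Subgroup.centralizer {w} ⊓ Subgroup.centralizer {u} := by
      refine le_antisymm ?_ (by gcongr)
      rintro x ⟨⟨hx, hxw⟩, hxu⟩
      have e1 := Subgroup.mem_centralizer_singleton_iff.mp hxw
      have e2 := Subgroup.mem_centralizer_singleton_iff.mp hxu
      refine ⟨⟨hzL x hx ?_, hxw⟩, hxu⟩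
      rw [hz₀, mul_assoc, ← e1, ← mul_assoc, ← e2, mul_assoc]
    have hBeq : ({x | x ∈ invertedBy X u ∧ w * x * w = x⁻¹} : Set G) =
        {x | x ∈ invertedBy L u ∧ w * x * w = x⁻¹} := by
      ext x
      refine ⟨fun ⟨⟨hx, hxu⟩, hxw⟩ => ⟨⟨hzL x hx ?_, hxu⟩, hxw⟩, fun ⟨⟨hx, hxu⟩, hxw⟩ => ⟨⟨hLX hx, hxu⟩, hxw⟩⟩
      have h2 : u * (w * x * w) * u = x := by rw [hxw, conj_inv_of_involution huu, hxu, inv_inv]
      calc z₀ * x = u * (w * x * w) * u * (u * w) := by
            rw [hz₀]
            calc u * w * x = u * w * x * (w * w) := by rw [hww, mul_one]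
              _ = u * (w * x * w) * (u * u) * w := by rw [huu]; group
              _ = _ := by group
        _ = _ := by rw [h2, hz₀]
    have hsu : (X ⊓ Subgroup.centralizer {u}) ⊓ stabilizer G p = L ⊓ Subgroup.centralizer {u} := by
      refine le_antisymm ?_ (fun x hx => ⟨⟨hLX hx.1, hx.2⟩, hx.1.1.2⟩)
      rintro x ⟨⟨hx, hxu⟩, hxp⟩
      refine ⟨⟨⟨hx, hxp⟩, ?_⟩, hxu⟩
      show x • q = q
      rw [← hup, smul_smul, Subgroup.mem_centralizer_singleton_iff.mp hxu, mul_smul,
        mem_stabilizer_iff.mp hxp]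
    have hsw : (X ⊓ Subgroup.centralizer {w}) ⊓ stabilizer G p = L ⊓ Subgroup.centralizer {w} := by
      refine le_antisymm ?_ (fun x hx => ⟨⟨hLX hx.1, hx.2⟩, hx.1.1.2⟩)
      rintro x ⟨⟨hx, hxu⟩, hxp⟩
      refine ⟨⟨⟨hx, hxp⟩, ?_⟩, hxu⟩
      show x • q = q
      rw [← hwp, smul_smul, Subgroup.mem_centralizer_singleton_iff.mp hxu, mul_smul,
        mem_stabilizer_iff.mp hxp]
    have cu := card_orb_mul (X ⊓ Subgroup.centralizer {u}) p ODu (fun y => by simp [hODu])
    have cw := card_orb_mul (X ⊓ Subgroup.centralizer {w}) p ODw (fun y => by simp [hODw])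
    rw [hsu, show ODu.card = m by omega] at cu
    rw [hsw, show ODw.card = m by omega] at cw
    rw [hEeq, hBeq, cu, cw] at fX
    set E := Nat.card (L ⊓ Subgroup.centralizer {w} ⊓ Subgroup.centralizer {u} : Subgroup G) with hE
    have hXcard : Nat.card X = m * (m * Nat.card L) := by
      refine Nat.eq_of_mul_eq_mul_right (show 0 < E from Nat.card_pos) ?_
      rw [fX, show m * (m * Nat.card L) * E = m * m * (Nat.card L * E) by ring, fL]
      ring
    have cX := card_orb_mul X p O (fun y => mem_fixOrb G B p y)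
    set Oq := Finset.univ.filter fun t => ∃ h ∈ X ⊓ stabilizer G p, h • q = t with hOq
    have cq := card_orb_mul (X ⊓ stabilizer G p) q Oq (fun t => by simp [hOq])
    rw [← hm, hXcard, cq] at cX
    have hOqc : Oq.card = m := by
      have h1 := Nat.eq_of_mul_eq_mul_left (show 0 < m by omega) cX
      exact (Nat.eq_of_mul_eq_mul_right Nat.card_pos h1).symm
    have hqO : q ∉ O := fun e => Finset.disjoint_left.mp hdisj e
      (Finset.mem_image.mpr ⟨p, (mem_fixOrb G B p p).mpr ⟨1, X.one_mem, one_smul _ _⟩, hup⟩)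
    have hOqsub : Oq ⊆ Finset.univ \ (B ∪ O) := by
      intro t ht
      simp only [hOq, Finset.mem_filter, Finset.mem_univ, true_and] at ht
      obtain ⟨h, ⟨hh, -⟩, rfl⟩ := ht
      simp only [Finset.mem_sdiff, Finset.mem_univ, true_and, Finset.mem_union, not_or]
      refine ⟨fun e => hq ?_, fun e => hqO ?_⟩
      · have := hXfix _ (X.inv_mem hh) _ e
        rw [inv_smul_smul] at this
        exact this ▸ e
      · obtain ⟨h', hh', hh''⟩ := (mem_fixOrb G B p _).mp e
        exact (mem_fixOrb G B p q).mpr ⟨h⁻¹ * h', X.mul_mem (X.inv_mem hh) hh', by rw [mul_smul, hh'', inv_smul_smul]⟩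
    have hOqeq : Oq = Finset.univ \ (B ∪ O) := by
      refine Finset.eq_of_subset_of_card_le hOqsub ?_
      rw [Finset.card_sdiff_of_subset (Finset.subset_univ _), Finset.card_univ, hOqc,
        Finset.card_union_of_disjoint (Finset.disjoint_right.mpr hOB), hB]
      omega
    have hy : y ∈ Oq := by rw [hOqeq]; simp [hyB, hyO]
    have hz : z ∈ Oq := by rw [hOqeq]; simp [hzB, hzO]
    simp only [hOq, Finset.mem_filter, Finset.mem_univ, true_and] at hy hz
    obtain ⟨h₁, hh₁, rfl⟩ := hy
    obtain ⟨h₂, hh₂, rfl⟩ := hz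
    have hmem := Subgroup.mul_mem _ hh₂ (Subgroup.inv_mem _ hh₁)
    exact ⟨h₂ * h₁⁻¹, hmem.1, hmem.2, by rw [mul_smul, inv_smul_smul]⟩
  -- three points in one orbit give a transposition
  obtain ⟨S, -, hS⟩ := Finset.exists_subset_card_eq (s := (Finset.univ : Finset α)) (n := 5)
    (by rw [Finset.card_univ]; omega)
  obtain ⟨T, hTS, hT⟩ := Finset.exists_subset_card_eq (s := S) (n := 3) (by omega)
  obtain ⟨d, hdS, hdT⟩ : ∃ d ∈ S, d ∉ T := Finset.exists_mem_notMem_of_card_lt_card (by omega)
  obtain ⟨e, he⟩ : ∃ e, e ∉ insert d T := by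
    obtain ⟨e, -, he⟩ := Finset.exists_mem_notMem_of_card_lt_card (s := insert d T) (t := (Finset.univ : Finset α))
      (by rw [Finset.card_univ, Finset.card_insert_of_notMem hdT]; omega)
    exact ⟨e, he⟩
  have hB4 : ∀ x ∉ T, (insert x T).card = 4 := fun x hx => by rw [Finset.card_insert_of_notMem hx, hT]
  set O1 := fixOrb G (insert d T) e with hO1
  obtain ⟨hm, -⟩ := hstruct _ (hB4 d hdT) e he
  rw [← hO1] at hm
  have heO : e ∈ O1 := (mem_fixOrb G _ e e).mpr ⟨1, Subgroup.one_mem _, one_smul _ _⟩
  obtain ⟨f, hfO, hfe⟩ := Finset.exists_mem_ne (show 1 < O1.card by omega) e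
  have hmemB : ∀ (B : Finset α) (x y : α), x ∉ B → y ∈ fixOrb G B x → y ∉ B := by
    intro B x y hx hy hyB
    obtain ⟨h, hh, rfl⟩ := (mem_fixOrb G B x y).mp hy
    have := (mem_fixingSubgroup_iff G).mp (Subgroup.inv_mem _ hh) _ hyB
    rw [inv_smul_smul] at this
    exact hx (this ▸ hyB)
  -- the key exchange
  have hex : ∀ x y : α, x ∈ O1 → y ∈ O1 → y ≠ x →
      ∃ h ∈ fixingSubgroup G ((insert x T : Finset α) : Set α), h • d = y := by
    intro x y hx hy hyx
    have hxB := hmemB _ e x he hx
    have hyB := hmemB _ e y he hy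
    simp only [Finset.mem_insert, not_or] at hxB hyB
    obtain ⟨hx', hxT⟩ := hxB
    obtain ⟨hy', hyT⟩ := hyB
    have hOx : fixOrb G (insert d T) x = O1 := by
      obtain ⟨h, hh, rfl⟩ := (mem_fixOrb G _ e x).mp hx
      ext t
      rw [hO1, mem_fixOrb, mem_fixOrb]
      constructor
      · rintro ⟨g, hg, rfl⟩; exact ⟨g * h, Subgroup.mul_mem _ hg hh, mul_smul _ _ _⟩
      · rintro ⟨g, hg, rfl⟩
        exact ⟨g * h⁻¹, Subgroup.mul_mem _ hg (Subgroup.inv_mem _ hh), by rw [mul_smul, inv_smul_smul]⟩
    obtain ⟨hmx, htx⟩ := hstruct _ (hB4 d hdT) x (by simp [hx', hxT])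
    have hdx : d ∉ insert x T := by simp [hdT, Ne.symm hx']
    set O' := fixOrb G (insert x T) d with hO'
    obtain ⟨hm', -⟩ := hstruct _ (hB4 x hxT) d hdx
    rw [← hO'] at hm'
    by_contra hcon
    have hyO' : y ∉ O' := fun h => hcon ((mem_fixOrb G _ d y).mp h)
    obtain ⟨O2, hO2⟩ : ∃ O2 : Finset α, O2 = Finset.univ \ (insert d T ∪ O1) := ⟨_, rfl⟩
    have hO2c : O2.card = O1.card := by
      rw [hO2, Finset.card_sdiff_of_subset (Finset.subset_univ _), Finset.card_univ,
        Finset.card_union_of_disjoint (show Disjoint (insert d T) O1 from Finset.disjoint_right.mpr fun t ht => hmemB _ e t he ht), hB4 d hdT]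
      omega
    have hO2mem : ∀ t, t ∈ O2 ↔ t ∉ insert d T ∧ t ∉ O1 := fun t => by simp [hO2, and_assoc]
    have hdO' : d ∈ O' := (mem_fixOrb G _ d d).mpr ⟨1, Subgroup.one_mem _, one_smul _ _⟩
    have hO'c : O'.card = O1.card := by rw [hOx] at hmx; omega
    by_cases hcase : ∃ t ∈ O2, t ∈ O'
    · obtain ⟨t, ht, htO'⟩ := hcase
      have hsub : insert d O2 ⊆ O' := by
        intro t' ht'
        rcases Finset.mem_insert.mp ht' with rfl | ht'
        · exact hdO'
        · obtain ⟨hh1, hh2⟩ := (hO2mem t).mp ht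
          obtain ⟨hh3, hh4⟩ := (hO2mem t').mp ht'
          obtain ⟨g, hg, hgx, hgt⟩ := htx t t' hh1 hh3 (hOx ▸ hh2) (hOx ▸ hh4)
          obtain ⟨h, hh, rfl⟩ := (mem_fixOrb G _ d t).mp htO'
          refine (mem_fixOrb G _ d t').mpr ⟨g * h, Subgroup.mul_mem _ ?_ hh, by rw [mul_smul, hgt]⟩
          refine (mem_fixingSubgroup_iff G).mpr fun c hc => ?_
          rcases Finset.mem_insert.mp (Finset.mem_coe.mp hc) with rfl | hc
          · exact hgx
          · exact (mem_fixingSubgroup_iff G).mp hg c (Finset.mem_coe.mpr (Finset.mem_insert_of_mem hc))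
      have hcle := Finset.card_le_card hsub
      rw [Finset.card_insert_of_notMem (fun h => ((hO2mem d).mp h).1 (Finset.mem_insert_self d T))] at hcle
      omega
    · push Not at hcase
      have hsub : insert y O2 ⊆ Finset.univ \ (insert x T ∪ O') := by
        intro t ht
        simp only [Finset.mem_sdiff, Finset.mem_univ, true_and, Finset.mem_union, Finset.mem_insert, not_or]
        rcases Finset.mem_insert.mp ht with rfl | ht
        · exact ⟨⟨hyx, hyT⟩, hyO'⟩
        · obtain ⟨hh1, hh2⟩ := (hO2mem t).mp ht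
          exact ⟨⟨fun h => hh2 (h ▸ hx), fun h => hh1 (Finset.mem_insert_of_mem h)⟩, hcase t ht⟩
      have hcle := Finset.card_le_card hsub
      rw [Finset.card_insert_of_notMem (fun h => ((hO2mem y).mp h).2 hy),
        Finset.card_sdiff_of_subset (Finset.subset_univ _), Finset.card_univ,
        Finset.card_union_of_disjoint (show Disjoint (insert x T) O' from Finset.disjoint_right.mpr fun t ht => hmemB _ d t hdx ht), hB4 x hxT] at hcle
      omega
  have hfB := hmemB _ e f he hfO
  simp only [Finset.mem_insert, not_or] at he hfB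
  obtain ⟨h, hh, hhd⟩ := hex e f heO hfO hfe
  obtain ⟨g, hg, hgd⟩ := hex f e hfO heO hfe.symm
  obtain ⟨k, hk, hke⟩ := (mem_fixOrb G _ e f).mp hfO
  have hfix : ∀ {x : α} {v : G}, v ∈ fixingSubgroup G ((insert x T : Finset α) : Set α) →
      v • x = x ∧ ∀ t ∈ T, v • t = t := fun {x v} hv =>
    ⟨(mem_fixingSubgroup_iff G).mp hv x (Finset.mem_coe.mpr (Finset.mem_insert_self x T)),
      fun t ht => (mem_fixingSubgroup_iff G).mp hv t (Finset.mem_coe.mpr (Finset.mem_insert_of_mem ht))⟩
  obtain ⟨hhe, hhT⟩ := hfix hh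
  obtain ⟨hgf, hgT⟩ := hfix hg
  obtain ⟨hkd, hkT⟩ := hfix hk
  refine hno (h⁻¹ * (g * k)) T hT (fun t ht => ?_) d e hdT he.2 (Ne.symm he.1) ?_ ?_
  · rw [mul_smul, mul_smul, hkT t ht, hgT t ht, inv_smul_eq_iff, hhT t ht]
  · rw [mul_smul, mul_smul, hkd, hgd, inv_smul_eq_iff, hhe]
  · rw [mul_smul, mul_smul, hke, hgf, inv_smul_eq_iff, hhd]

end CfsgLib.AltGroups.MT
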