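import Cfsg.Agent.Lib.AltGroups.CentraliserAlgebra
import Cfsg.Agent.Lib.CharTheory.PermChar
import Cfsg.Agent.Lib.CharTheory.Inflation
import Cfsg.Prelude.Def_Perm
import Mathlib.LinearAlgebra.Matrix.ToLin
import Mathlib.Tactic

/-!
# Invariant kernels and the centraliser algebra of a permutation representation

An invariant kernel `K : Ω → Ω → ℂ` gives the endomorphism `op K` commuting with the permutation
representation; `tau K g = ∑ x, K x (g • x)` is the trace of `op K ∘ ρ(g)`.
-/

set_option autoImplicit false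
set_option linter.unusedSectionVars false
set_option linter.style.haveILetI false

open scoped ComplexConjugate
open Module Cfsg MulAction

namespace CfsgLib.AltGroups

open CfsgLib.CharTheory

variable {G Ω : Type*} [Group G] [MulAction G Ω]

/-- A kernel invariant under the diagonal action. -/
def InvKernel (G : Type*) {Ω : Type*} [Group G] [MulAction G Ω] (K : Ω → Ω → ℂ) : Prop :=
  ∀ (g : G) (x y : Ω), K (g • x) (g • y) = K x y

variable [Fintype Ω]

/-- The endomorphism of a kernel. -/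
noncomputable def op (K : Ω → Ω → ℂ) : (Ω → ℂ) →ₗ[ℂ] (Ω → ℂ) where
  toFun f x := ∑ y, K x y * f y
  map_add' f f' := by funext x; simp [mul_add, Finset.sum_add_distrib]
  map_smul' c f := by funext x; simp [Finset.mul_sum, mul_left_comm]

@[simp] theorem op_apply (K : Ω → Ω → ℂ) (f : Ω → ℂ) (x : Ω) : op K f x = ∑ y, K x y * f y := rfl

/-- The trace of `op K` times a group element. -/
def tau (G : Type*) [Group G] [MulAction G Ω] (K : Ω → Ω → ℂ) (g : G) : ℂ := ∑ x, K x (g • x)

theorem op_comm {K : Ω → Ω → ℂ} (hK : InvKernel G K) (g : G) :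
    op K ∘ₗ permRep ℂ G Ω g = permRep ℂ G Ω g ∘ₗ op K := by
  refine LinearMap.ext fun f => funext fun x => ?_
  show ∑ y, K x y * f (g⁻¹ • y) = ∑ y, K (g⁻¹ • x) y * f y
  refine Fintype.sum_equiv (MulAction.toPerm g⁻¹) _ _ fun y => ?_
  simp [hK g⁻¹ x y]

theorem trace_op_comp (K : Ω → Ω → ℂ) (g : G) :
    LinearMap.trace ℂ (Ω → ℂ) (op K ∘ₗ permRep ℂ G Ω g) = tau G K g := by
  classical
  rw [LinearMap.trace_eq_matrix_trace ℂ (Pi.basisFun ℂ Ω), Matrix.trace]
  refine Finset.sum_congr rfl fun x _ => ?_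
  rw [Matrix.diag_apply, LinearMap.toMatrix_apply, Pi.basisFun_repr, Pi.basisFun_apply]
  show ∑ y, K x y * (Pi.single x (1 : ℂ) : Ω → ℂ) (g⁻¹ • y) = K x (g • x)
  rw [Finset.sum_eq_single (g • x)]
  · simp
  · intro y _ hy
    rw [Pi.single_eq_of_ne (fun h => hy (eq_inv_smul_iff.mp h.symm).symm), mul_zero]
  · simp

open scoped Classical in
theorem op_one : op (fun x y : Ω => if x = y then (1 : ℂ) else 0) = LinearMap.id := by
  refine LinearMap.ext fun f => funext fun x => ?_
  simp

open scoped Classical in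
theorem tau_one (g : G) :
    tau G (fun x y : Ω => if x = y then (1 : ℂ) else 0) g = (Nat.card (fixedBy Ω g) : ℂ) := by
  rw [tau, Finset.sum_boole, Nat.card_eq_fintype_card,
    Fintype.card_of_subtype (Finset.univ.filter fun x : Ω => x = g • x)
      (fun x => by simp [MulAction.mem_fixedBy, eq_comm])]

theorem character_permRep :
    (permRep ℂ G Ω).character = fun g => (Nat.card (fixedBy Ω g) : ℂ) := by
  classical
  funext g
  rw [← tau_one g, ← trace_op_comp, op_one, LinearMap.id_comp]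
  rfl

theorem isIntegral_op {K : Ω → Ω → ℂ} (hK : ∀ x y, ∃ k : ℤ, K x y = k) : IsIntegral ℤ (op K) := by
  classical
  choose k hk using hK
  let φ : Matrix Ω Ω ℤ →ₐ[ℤ] Module.End ℂ (Ω → ℂ) :=
    ((Matrix.toLinAlgEquiv' (R := ℂ) (n := Ω)).toAlgHom.restrictScalars ℤ).comp
      (Algebra.ofId ℤ ℂ).mapMatrix
  have h : op K = φ (Matrix.of k) := by
    refine LinearMap.ext fun f => funext fun x => ?_
    simp [φ, Matrix.toLinAlgEquiv'_apply, Matrix.mulVec, dotProduct, hk, Algebra.ofId_apply]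
  rw [h]
  exact (Algebra.IsIntegral.isIntegral (R := ℤ) (Matrix.of k)).map φ

variable [Fintype G]

theorem classInner_tau_one [IsPretransitive G Ω] {K : Ω → Ω → ℂ} (hK : InvKernel G K) (a : Ω) :
    classInner (tau G K) (fun _ => 1) = ∑ y, K a y := by
  classical
  haveI : Nonempty Ω := ⟨a⟩
  have hrow : ∀ x, ∑ y, K x y = ∑ y, K a y := by
    intro x
    obtain ⟨h, rfl⟩ := exists_smul_eq G a x
    exact (Fintype.sum_equiv (MulAction.toPerm h) _ _ fun y => (hK h a y).symm).symm
  have hsum : ∀ x, (Fintype.card Ω : ℂ) * ∑ g : G, K x (g • x) = (Fintype.card G : ℂ) * ∑ y, K a y := by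
    intro x
    have hind : ∀ y, ∑ g : G, K x (g • y) = ∑ g : G, K x (g • x) := by
      intro y
      obtain ⟨h, rfl⟩ := exists_smul_eq G x y
      exact Fintype.sum_equiv (Equiv.mulRight h) _ _ fun g => by simp [mul_smul]
    have h1 : ∑ y, ∑ g : G, K x (g • y) = (Fintype.card Ω : ℂ) * ∑ g : G, K x (g • x) := by
      simp [hind, Finset.card_univ]
    rw [← h1, Finset.sum_comm]
    have h2 : ∀ g : G, ∑ y, K x (g • y) = ∑ y, K a y := fun g => by
      rw [← hrow x]
      exact Fintype.sum_equiv (MulAction.toPerm g) _ _ fun y => rfl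
    simp [h2, Finset.card_univ]
  have hn : (Fintype.card Ω : ℂ) ≠ 0 := by exact_mod_cast Fintype.card_ne_zero
  have hG : (Fintype.card G : ℂ) ≠ 0 := by exact_mod_cast Fintype.card_ne_zero
  have h3 : ∑ g : G, tau G K g = (Fintype.card G : ℂ) * ∑ y, K a y := by
    apply mul_left_cancel₀ hn
    simp only [tau]
    rw [Finset.sum_comm, Finset.mul_sum]
    simp [hsum, Finset.card_univ]
  simp only [classInner, map_one, mul_one, h3, Nat.card_eq_fintype_card]
  rw [← mul_assoc, inv_mul_cancel₀ hG, one_mul]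

theorem isIntegral_classInner_tau {K : Ω → Ω → ℂ} (hK : InvKernel G K)
    (hint : ∀ x y, ∃ k : ℤ, K x y = k) {χ : G → ℂ} (hχ : IsIrrCharacter G χ) :
    IsIntegral ℤ (classInner (tau G K) χ) := by
  have := isIntegral_classInner_trace (ρ := permRep ℂ G Ω) (op_comm hK) (isIntegral_op hint) hχ
  simpa only [trace_op_comp] using this

theorem classInner_tau_eq_zero {K : Ω → Ω → ℂ} (hK : InvKernel G K) {χ : G → ℂ}
    (hχ : IsIrrCharacter G χ)
    (h0 : classInner (fun g : G => (Nat.card (fixedBy Ω g) : ℂ)) χ = 0) :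
    classInner (tau G K) χ = 0 := by
  have := classInner_trace_eq_zero (ρ := permRep ℂ G Ω) (op_comm hK) hχ
    (by rwa [character_permRep])
  simpa only [trace_op_comp] using this

theorem sum_diag_eq [Fintype (IrrCharacter G)] {K : Ω → Ω → ℂ} (hK : InvKernel G K) :
    ∑ x, K x x = ∑ χ : IrrCharacter G, classInner (tau G K) (χ : G → ℂ) * (χ : G → ℂ) 1 := by
  have h := trace_eq_sum (ρ := permRep ℂ G Ω) (op_comm hK)
  simp only [trace_op_comp] at h
  rw [← h]
  have := trace_op_comp (G := G) K 1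
  rw [map_one, Module.End.one_eq_id, LinearMap.comp_id] at this
  simp [this, tau]

/-- The product of kernels. -/
def kmul (K L : Ω → Ω → ℂ) (x z : Ω) : ℂ := ∑ y, K x y * L y z

theorem InvKernel.kmul {K L : Ω → Ω → ℂ} (hK : InvKernel G K) (hL : InvKernel G L) :
    InvKernel G (AltGroups.kmul K L) := by
  intro g x z
  exact (Fintype.sum_equiv (MulAction.toPerm g) _ _ fun y => by simp [hK g x y, hL g y z]).symm

theorem op_kmul (K L : Ω → Ω → ℂ) : op (kmul K L) = op K ∘ₗ op L := by
  refine LinearMap.ext fun f => funext fun x => ?_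
  simp only [op_apply, kmul, LinearMap.comp_apply, Finset.sum_mul, Finset.mul_sum]
  rw [Finset.sum_comm]
  simp [mul_assoc]

/-- On a constituent of multiplicity one, `K ↦ ⟨tau K, χ⟩` is multiplicative. -/
theorem classInner_tau_kmul {K L : Ω → Ω → ℂ} (hK : InvKernel G K) (hL : InvKernel G L)
    {χ : G → ℂ} (hχ : IsIrrCharacter G χ)
    (h1 : classInner (fun g : G => (Nat.card (fixedBy Ω g) : ℂ)) χ = 1) :
    classInner (tau G (kmul K L)) χ = classInner (tau G K) χ * classInner (tau G L) χ := by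
  obtain ⟨n, σ, hσ, rfl⟩ := hχ
  rw [← character_permRep] at h1
  obtain ⟨X, hX, hX0⟩ := exists_hom_ne_zero (ρ := permRep ℂ G Ω) h1
  have e1 := comp_eq_smul (op_comm hK) σ h1 hX
  have e2 := comp_eq_smul (op_comm hL) σ h1 hX
  have e3 := comp_eq_smul (op_comm (hK.kmul hL)) σ h1 hX
  rw [op_kmul, LinearMap.comp_assoc, e2, LinearMap.comp_smul, e1, smul_smul, ← op_kmul] at e3
  simp only [trace_op_comp] at e3
  have := smul_left_injective ℂ hX0 e3
  rw [← this]
  ring

/-- A kernel with vanishing inner products on a multiplicity-free action is zero. -/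
theorem op_eq_zero_of_multiplicityFree {K : Ω → Ω → ℂ} (hK : InvKernel G K)
    (hm : ∀ χ : G → ℂ, IsIrrCharacter G χ →
      classInner (fun g : G => (Nat.card (fixedBy Ω g) : ℂ)) χ = 0 ∨
        classInner (fun g : G => (Nat.card (fixedBy Ω g) : ℂ)) χ = 1)
    (hz : ∀ χ : G → ℂ, IsIrrCharacter G χ →
      classInner (fun g : G => (Nat.card (fixedBy Ω g) : ℂ)) χ = 1 → classInner (tau G K) χ = 0) :
    op K = 0 := by
  refine eq_of_eq_on_constituents (ρ := permRep ℂ G Ω) fun n σ hσ X hX => ?_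
  haveI := hσ
  rcases hm σ.character (isIrrCharacter_character σ) with h | h
  · rw [← character_permRep] at h
    simp [hom_eq_zero h hX]
  · have h0 := hz _ (isIrrCharacter_character σ) h
    rw [← character_permRep] at h
    rw [comp_eq_smul (op_comm hK) σ h hX]
    simp only [trace_op_comp]
    rw [h0]
    simp

theorem eq_op_of_comm {T : (Ω → ℂ) →ₗ[ℂ] (Ω → ℂ)}
    (hT : ∀ g : G, T ∘ₗ permRep ℂ G Ω g = permRep ℂ G Ω g ∘ₗ T) :
    ∃ K : Ω → Ω → ℂ, InvKernel G K ∧ T = op K := by
  classical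
  refine ⟨fun x y => T (Pi.single y 1) x, fun g x y => ?_, ?_⟩
  · have h := congrFun (LinearMap.congr_fun (hT g) (Pi.single y 1)) (g • x)
    have e : permRep ℂ G Ω g (Pi.single y (1 : ℂ)) = Pi.single (g • y) 1 := by
      funext z
      show (Pi.single y (1 : ℂ) : Ω → ℂ) (g⁻¹ • z) = _
      simp [Pi.single_apply, inv_smul_eq_iff]
    rw [LinearMap.comp_apply, e, LinearMap.comp_apply] at h
    show T (Pi.single (g • y) 1) (g • x) = T (Pi.single y 1) x
    rw [h]
    show T (Pi.single y 1) (g⁻¹ • g • x) = _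
    rw [inv_smul_smul]
  · refine LinearMap.ext fun f => funext fun x => ?_
    conv_lhs => rw [pi_eq_sum_univ' f]
    simp [map_sum, Finset.sum_apply, mul_comm]

open scoped Classical in
/-- The kernel of the orbital through `(a, b)`. -/
noncomputable def orbital (G : Type*) {Ω : Type*} [Group G] [MulAction G Ω] (a b : Ω) (x y : Ω) : ℂ :=
  if ∃ g : G, g • a = x ∧ g • b = y then 1 else 0

omit [Fintype Ω] [Fintype G] in
theorem invKernel_orbital (a b : Ω) : InvKernel G (orbital G a b) := by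
  intro h x y
  unfold orbital
  classical
  refine if_congr ⟨fun ⟨g, h1, h2⟩ => ⟨h⁻¹ * g, by rw [mul_smul, h1, inv_smul_smul],
    by rw [mul_smul, h2, inv_smul_smul]⟩, fun ⟨g, h1, h2⟩ => ⟨h * g, by rw [mul_smul, h1],
    by rw [mul_smul, h2]⟩⟩ rfl rfl

omit [Fintype Ω] [Fintype G] in
theorem orbital_eq_intCast (a b : Ω) : ∀ x y, ∃ k : ℤ, orbital G a b x y = k := by
  intro x y
  unfold orbital
  split_ifs
  · exact ⟨1, by simp⟩
  · exact ⟨0, by simp⟩

omit [Fintype Ω] [Fintype G] in
theorem orbital_self_zero {a b : Ω} (hab : b ≠ a) (x : Ω) : orbital G a b x x = 0 :=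
  if_neg fun ⟨g, h1, h2⟩ => hab (MulAction.injective g (h2.trans h1.symm))

theorem sum_orbital (a b : Ω) :
    ∑ y, orbital G a b a y = (Nat.card (orbit (stabilizer G a) b) : ℂ) := by
  classical
  unfold orbital
  refine (Finset.sum_congr rfl (g := fun y => if y ∈ orbit (stabilizer G a) b then (1 : ℂ) else 0)
    fun y _ => ?_).trans ?_
  · have h : (∃ g : G, g • a = a ∧ g • b = y) ↔ y ∈ orbit (stabilizer G a) b :=
      ⟨fun ⟨g, h1, h2⟩ => ⟨⟨g, h1⟩, h2⟩, fun ⟨g, h2⟩ => ⟨g.1, g.2, h2⟩⟩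
    by_cases hy : y ∈ orbit (stabilizer G a) b
    · rw [if_pos hy, if_pos (h.mpr hy)]
    · rw [if_neg hy, if_neg (mt h.mp hy)]
  rw [Finset.sum_boole, Nat.card_eq_fintype_card]
  exact congrArg Nat.cast (Fintype.card_of_subtype _ fun y => by simp).symm

/-- Orbits on pairs and suborbits correspond. -/
theorem card_orbits_prod [IsPretransitive G Ω] (a : Ω) :
    Nat.card (orbitRel.Quotient G (Ω × Ω)) = Nat.card (orbitRel.Quotient (stabilizer G a) Ω) := by
  refine (Nat.card_eq_of_bijective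
    (Quotient.lift (fun b => (Quotient.mk'' (a, b) : orbitRel.Quotient G (Ω × Ω))) ?_) ⟨?_, ?_⟩).symm
  · intro b c hbc
    obtain ⟨g, hg⟩ := hbc
    exact Quotient.eq''.2 ⟨g.1, Prod.ext g.2 hg⟩
  · intro q q'
    refine Quotient.inductionOn₂ q q' fun b c h => ?_
    obtain ⟨g, hg⟩ := Quotient.eq''.1 h
    exact Quotient.sound ⟨⟨g, congrArg Prod.fst hg⟩, congrArg Prod.snd hg⟩
  · intro q
    induction q using Quotient.inductionOn' with
    | _ p =>
      obtain ⟨g, hg⟩ := exists_smul_eq G p.1 a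
      refine ⟨Quotient.mk'' (g • p.2), Quotient.eq''.2 ⟨g, ?_⟩⟩
      exact Prod.ext hg rfl

end CfsgLib.AltGroups
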