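import Cfsg.Agent.Lib.AltGroups.Orbitals
import Cfsg.Agent.Lib.CharTheory.Degree
import Mathlib.GroupTheory.GroupAction.Quotient
import Mathlib.Tactic

/-!
# Rank, multiplicities and suborbit sizes of a transitive action
-/

set_option autoImplicit false
set_option linter.unusedSectionVars false
set_option linter.style.haveILetI false

open scoped ComplexConjugate
open Module Cfsg MulAction

namespace CfsgLib.AltGroups

open CfsgLib.CharTheory

variable {G Ω : Type*} [Group G] [Fintype G] [Fintype Ω] [MulAction G Ω] [IsPretransitive G Ω]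

/-- Multiplicities in a transitive permutation character. -/
theorem exists_mult [Fintype (IrrCharacter G)] (a : Ω) :
    ∃ m : IrrCharacter G → ℕ,
      (∀ χ : IrrCharacter G,
        classInner (fun g : G => (Nat.card (fixedBy Ω g) : ℂ)) (χ : G → ℂ) = m χ) ∧
      m (trivIrr G) = 1 ∧
      (Nat.card Ω : ℂ) = ∑ χ : IrrCharacter G, (m χ : ℂ) * (χ : G → ℂ) 1 ∧
      Nat.card (orbitRel.Quotient (stabilizer G a) Ω) = ∑ χ, m χ * m χ := by
  classical
  obtain ⟨m, hm⟩ := IsCharacter.exists_sum (isCharacter_card_fixedBy (G := G) Ω)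
  have hin : ∀ χ : IrrCharacter G,
      classInner (fun g : G => (Nat.card (fixedBy Ω g) : ℂ)) (χ : G → ℂ) = m χ := fun χ => by
    rw [hm]; exact classInner_sum_irr _ χ
  refine ⟨m, hin, ?_, ?_, ?_⟩
  · have h := hin (trivIrr G)
    have h1 : classInner (fun g : G => (Nat.card (fixedBy Ω g) : ℂ)) (trivIrr G : G → ℂ)
        = (Nat.card (orbitRel.Quotient G Ω) : ℂ) := classInner_card_fixedBy_one Ω
    rw [h1, Nat.cast_inj] at h
    rw [← h, Nat.card_eq_one_iff_exists]
    refine ⟨Quotient.mk'' a, fun q => ?_⟩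
    induction q using Quotient.inductionOn' with
    | _ y => exact Quotient.eq''.2 (exists_smul_eq G a y)
  · have h := congrFun hm 1
    simp only [Finset.sum_apply, Pi.smul_apply, smul_eq_mul] at h
    rw [← h]
    congr 1
    rw [show fixedBy Ω (1 : G) = Set.univ from Set.ext fun x => by simp, Nat.card_univ]
  · have h1 := classInner_card_fixedBy_self (G := G) Ω
    rw [card_orbits_prod a, hm] at h1
    have h2 := classInner_generalized_sum (G := G) (fun χ => (m χ : ℤ)) (fun χ => (m χ : ℤ))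
    simp only [Int.cast_natCast] at h2
    rw [h2] at h1
    exact_mod_cast h1.symm

/-- If `f` divides the degrees of all non-principal constituents, it divides all subdegrees. -/
theorem dvd_suborbit (f : ℕ)
    (hf : ∀ χ : G → ℂ, IsIrrCharacter G χ → χ ≠ (fun _ => 1) →
      classInner (fun g : G => (Nat.card (fixedBy Ω g) : ℂ)) χ ≠ 0 → ∃ m : ℕ, χ 1 = (f : ℂ) * m)
    {a b : Ω} (hab : b ≠ a) : f ∣ Nat.card (orbit (stabilizer G a) b) := by
  classical
  haveI := Fintype.ofFinite (IrrCharacter G)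
  set K := orbital G a b
  have hK : InvKernel G K := invKernel_orbital a b
  have hterm : ∀ χ : IrrCharacter G, χ ≠ trivIrr G → ∃ z : ℂ, IsIntegral ℤ z ∧
      classInner (tau G K) (χ : G → ℂ) * (χ : G → ℂ) 1 = (f : ℂ) * z := by
    intro χ hχ
    by_cases h0 : classInner (fun g : G => (Nat.card (fixedBy Ω g) : ℂ)) (χ : G → ℂ) = 0
    · exact ⟨0, isIntegral_zero, by rw [classInner_tau_eq_zero hK χ.2 h0]; ring⟩
    · obtain ⟨k, hk⟩ := hf χ χ.2 (fun e => hχ (Subtype.ext e)) h0
      refine ⟨classInner (tau G K) (χ : G → ℂ) * k,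
        (isIntegral_classInner_tau hK (orbital_eq_intCast a b) χ.2).mul
          (isIntegral_algebraMap (R := ℤ) (A := ℂ) (x := (k : ℤ)) |> fun h => by simpa using h), ?_⟩
      rw [hk]; ring
  choose! z hz hz' using hterm
  have hsum := sum_diag_eq (G := G) hK
  rw [Finset.sum_eq_zero (fun x _ => orbital_self_zero hab x),
    ← Finset.add_sum_erase _ _ (Finset.mem_univ (trivIrr G))] at hsum
  have h1 : classInner (tau G K) (trivIrr G : G → ℂ) = (Nat.card (orbit (stabilizer G a) b) : ℂ) :=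
    (classInner_tau_one hK a).trans (sum_orbital a b)
  rw [h1, trivIrr_apply, mul_one, Finset.sum_congr rfl
    (fun χ hχ => hz' χ (Finset.ne_of_mem_erase hχ)), ← Finset.mul_sum] at hsum
  have hi : IsIntegral ℤ (-(∑ χ ∈ Finset.univ.erase (trivIrr G), z χ)) :=
    (IsIntegral.sum _ fun χ hχ => hz χ (Finset.ne_of_mem_erase hχ)).neg
  rcases Nat.eq_zero_or_pos f with hf0 | hf0
  · have : (Nat.card (orbit (stabilizer G a) b) : ℂ) = 0 := by
      rw [hf0, Nat.cast_zero, zero_mul, add_zero] at hsum; exact hsum.symm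
    rw [hf0, Nat.cast_eq_zero.mp this]
  · refine dvd_of_isIntegral_natCast_div hf0.ne' ?_
    convert hi using 1
    have hfC : (f : ℂ) ≠ 0 := by exact_mod_cast hf0.ne'
    field_simp
    linear_combination -hsum

/-- The subdegrees add up to the degree. -/
theorem card_eq_sum_suborbits (a : Ω) [Fintype (orbitRel.Quotient (stabilizer G a) Ω)] :
    Nat.card Ω = ∑ q : orbitRel.Quotient (stabilizer G a) Ω,
      Nat.card (orbit (stabilizer G a) q.out) := by
  rw [Nat.card_congr (selfEquivSigmaOrbits (stabilizer G a) Ω), Nat.card_sigma]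

omit [Fintype G] [IsPretransitive G Ω] in
theorem card_orbit_self (a : Ω) : Nat.card (orbit (stabilizer G a) a) = 1 := by
  rw [Nat.card_eq_one_iff_exists]
  exact ⟨⟨a, mem_orbit_self a⟩, fun ⟨y, g, hg⟩ => Subtype.ext (hg.symm.trans g.2)⟩

theorem out_ne {a : Ω} {q : orbitRel.Quotient (stabilizer G a) Ω}
    (hq : q ≠ Quotient.mk'' a) : q.out ≠ a := fun h =>
  hq ((Quotient.out_eq' q).symm.trans (congrArg Quotient.mk'' h))

/-- If every non-principal constituent has degree `f`, the constituents have multiplicity one and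
all non-trivial subdegrees equal `f`. -/
theorem multiplicityFree_of_degree_eq (f : ℕ)
    (hf : ∀ χ : G → ℂ, IsIrrCharacter G χ → χ ≠ (fun _ => 1) →
      classInner (fun g : G => (Nat.card (fixedBy Ω g) : ℂ)) χ ≠ 0 → χ 1 = f) (a : Ω) :
    (∀ χ : G → ℂ, IsIrrCharacter G χ →
      classInner (fun g : G => (Nat.card (fixedBy Ω g) : ℂ)) χ = 0 ∨
        classInner (fun g : G => (Nat.card (fixedBy Ω g) : ℂ)) χ = 1) ∧
      ∀ b : Ω, b ≠ a → Nat.card (orbit (stabilizer G a) b) = f := by
  classical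
  haveI := Fintype.ofFinite (IrrCharacter G)
  haveI := Fintype.ofFinite (orbitRel.Quotient (stabilizer G a) Ω)
  obtain ⟨m, hm, hm1, hn, hr⟩ := exists_mult (G := G) a
  set q₀ : orbitRel.Quotient (stabilizer G a) Ω := Quotient.mk'' a
  have hdeg : ∀ χ : IrrCharacter G, χ ≠ trivIrr G → m χ ≠ 0 → (χ : G → ℂ) 1 = f := fun χ hχ h0 =>
    hf χ χ.2 (fun e => hχ (Subtype.ext e)) (by rw [hm χ]; exact_mod_cast h0)
  have hn' : Nat.card Ω = 1 + f * ∑ χ ∈ Finset.univ.erase (trivIrr G), m χ := by
    have : (Nat.card Ω : ℂ) = 1 + f * ∑ χ ∈ Finset.univ.erase (trivIrr G), (m χ : ℂ) := by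
      rw [hn, ← Finset.add_sum_erase _ _ (Finset.mem_univ (trivIrr G)), hm1, trivIrr_apply,
        Finset.mul_sum]
      congr 1
      · simp
      · refine Finset.sum_congr rfl fun χ hχ => ?_
        by_cases h0 : m χ = 0
        · simp [h0]
        · rw [hdeg χ (Finset.ne_of_mem_erase hχ) h0, mul_comm]
    exact_mod_cast this
  have hout : q₀.out ∈ orbit (stabilizer G a) a := Quotient.exact' (Quotient.out_eq' q₀)
  have hk0 : Nat.card (orbit (stabilizer G a) q₀.out) = 1 := by
    rw [orbit_eq_iff.mpr hout]; exact card_orbit_self a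
  have hsum : f * ∑ χ ∈ Finset.univ.erase (trivIrr G), m χ
      = ∑ q ∈ Finset.univ.erase q₀, Nat.card (orbit (stabilizer G a) q.out) := by
    have := card_eq_sum_suborbits (G := G) a
    rw [hn', ← Finset.add_sum_erase _ _ (Finset.mem_univ q₀), hk0] at this
    omega
  have hr' : (Finset.univ.erase q₀).card = ∑ χ ∈ Finset.univ.erase (trivIrr G), m χ * m χ := by
    rw [Finset.card_erase_of_mem (Finset.mem_univ _), Finset.card_univ, ← Nat.card_eq_fintype_card,
      hr, ← Finset.add_sum_erase _ _ (Finset.mem_univ (trivIrr G)), hm1]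
    omega
  have hge : ∀ q ∈ Finset.univ.erase q₀, f ≤ Nat.card (orbit (stabilizer G a) q.out) := fun q hq =>
    Nat.le_of_dvd (Nat.card_pos_iff.mpr ⟨(nonempty_orbit q.out).to_subtype, inferInstance⟩) (dvd_suborbit f
      (fun χ h1 h2 h3 => ⟨1, by rw [hf χ h1 h2 h3]; simp⟩) (out_ne (Finset.ne_of_mem_erase hq)))
  have hsq : ∀ χ ∈ Finset.univ.erase (trivIrr G), m χ ≤ m χ * m χ := fun χ _ => Nat.le_mul_self _
  have hzero : f = 0 → ∀ χ : IrrCharacter G, χ ≠ trivIrr G → m χ = 0 := by
    intro hf0 χ hχ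
    by_contra h0
    exact apply_one_ne_zero_of_isIrr χ.2 (by rw [hdeg χ hχ h0, hf0, Nat.cast_zero])
  have hmle : ∀ χ : IrrCharacter G, χ ≠ trivIrr G → m χ ≤ 1 := by
    intro χ hχ
    rcases Nat.eq_zero_or_pos f with hf0 | hf0
    · simp [hzero hf0 χ hχ]
    have h1 : f * ∑ χ ∈ Finset.univ.erase (trivIrr G), m χ * m χ
        ≤ f * ∑ χ ∈ Finset.univ.erase (trivIrr G), m χ := by
      rw [hsum, ← hr', mul_comm, ← smul_eq_mul, ← Finset.sum_const]
      exact Finset.sum_le_sum hge
    have h2 := le_antisymm (Finset.sum_le_sum hsq) (Nat.le_of_mul_le_mul_left h1 hf0)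
    have h3 := (Finset.sum_eq_sum_iff_of_le hsq).mp h2 χ
      (Finset.mem_erase.mpr ⟨hχ, Finset.mem_univ χ⟩)
    by_contra hlt
    have : m χ * 2 ≤ m χ * m χ := Nat.mul_le_mul_left _ (by omega)
    omega
  refine ⟨fun χ hχ => ?_, fun b hb => ?_⟩
  · rw [hm ⟨χ, hχ⟩, Nat.cast_eq_zero, Nat.cast_eq_one]
    by_cases he : (⟨χ, hχ⟩ : IrrCharacter G) = trivIrr G
    · right; rw [he, hm1]
    · have := hmle _ he; omega
  · have hmm : ∀ χ ∈ Finset.univ.erase (trivIrr G), m χ * m χ = m χ := fun χ hχ => by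
      have := hmle χ (Finset.ne_of_mem_erase hχ)
      interval_cases (m χ) <;> rfl
    rw [Finset.sum_congr rfl hmm] at hr'
    rw [← hr', mul_comm, ← smul_eq_mul, ← Finset.sum_const] at hsum
    have h4 := (Finset.sum_eq_sum_iff_of_le hge).mp hsum (Quotient.mk'' b)
      (Finset.mem_erase.mpr ⟨fun e => hb ?_, Finset.mem_univ _⟩)
    · have hbb : (Quotient.mk'' b : orbitRel.Quotient (stabilizer G a) Ω).out
          ∈ orbit (stabilizer G a) b :=
        Quotient.exact' (Quotient.out_eq' (Quotient.mk'' b : orbitRel.Quotient (stabilizer G a) Ω))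
      rw [orbit_eq_iff.mpr hbb] at h4
      exact h4.symm
    · obtain ⟨g, hg⟩ := Quotient.exact' e
      exact hg.symm.trans g.2

end CfsgLib.AltGroups
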