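import Cfsg.Agent.Lib.AltGroups.IrreducibleField
import Cfsg.Agent.Lib.BGRep.Main
import Cfsg.Agent.Lib.Cores.Fitting
import Cfsg.Agent.Lib.Zsigmondy.Basic
import Cfsg.Agent.S0736
import Cfsg.Prelude.Def_Perm

/-!
Two-homogeneous groups that are not doubly transitive: they have odd order, and, when solvable,
consist of semiaffine maps of a finite field (Kantor).
-/

set_option autoImplicit false
set_option linter.style.haveILetI false
set_option linter.unusedSectionVars false

open MulAction
open scoped Pointwise

namespace CfsgLib.AltGroups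

universe u

variable {α : Type u} [Fintype α] [DecidableEq α]

/-- The elementary properties of a two-homogeneous group that is not doubly transitive. -/
theorem two_homogeneous_basic (G : Subgroup (Equiv.Perm α)) (hne : G ≠ ⊥)
    (h2 : IsPretransitive G (Set.powersetCard α 2)) (hn2 : ¬ IsMultiplyPretransitive G α 2) :
    Odd (Nat.card G) ∧ IsPretransitive G α ∧ IsPreprimitive G α ∧ Fintype.card α % 4 = 3 ∧
      (Fintype.card α).choose 2 ∣ Nat.card G := by
  classical
  obtain ⟨g₀, hg₀, hg₀1⟩ : ∃ g ∈ G, g ≠ (1 : Equiv.Perm α) := by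
    by_contra hcon
    push Not at hcon
    exact hne ((Subgroup.eq_bot_iff_forall G).mpr hcon)
  obtain ⟨x, hx⟩ : ∃ x, g₀ x ≠ x := by
    by_contra hcon
    push Not at hcon
    exact hg₀1 (Equiv.ext hcon)
  have hn3 : 3 ≤ Fintype.card α := by
    by_contra hlt
    apply hn2
    have htwo : ∀ a b c : α, a ≠ c → b ≠ c → a = b := by
      intro a b c hac hbc
      by_contra hab
      have := Finset.card_le_univ ({a, b, c} : Finset α)
      rw [Finset.card_eq_three.mpr ⟨a, b, c, hab, hac, hbc, rfl⟩] at this
      omega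
    have hmove : ∀ y, g₀ y ≠ y := by
      intro y hy
      by_cases h : y = x
      · exact hx (h ▸ hy)
      · have := htwo y (g₀ x) x h hx
        exact h (g₀.injective (hy.trans this))
    refine ⟨fun u v => ?_⟩
    have hu : ∀ i j : Fin 2, i ≠ j → u i ≠ u j := fun i j h e => h (u.injective e)
    have hv : ∀ i j : Fin 2, i ≠ j → v i ≠ v j := fun i j h e => h (v.injective e)
    by_cases h : u 0 = v 0
    · refine ⟨1, Function.Embedding.ext fun i => ?_⟩
      show u i = v i
      fin_cases i
      · exact h
      · exact htwo (u 1) (v 1) (u 0) (hu 1 0 (by decide)) (h ▸ hv 1 0 (by decide))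
    · refine ⟨⟨g₀, hg₀⟩, Function.Embedding.ext fun i => ?_⟩
      show g₀ (u i) = v i
      fin_cases i
      · exact htwo _ _ (u 0) (hmove _) (Ne.symm h)
      · refine htwo _ _ (u 1) (hmove _) fun e => h ?_
        exact htwo (u 0) (v 0) (u 1) (hu 0 1 (by decide)) (fun e' => hv 0 1 (by decide) (e'.trans e.symm))
  have htr1 : IsPretransitive G (Set.powersetCard α 1) :=
    Cfsg.Agent.S0736.result G le_rfl h2 (fun q _ hq => by
      have := Nat.le_of_dvd (by norm_num) hq
      omega)
  haveI hT : IsPretransitive G α := by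
    refine ⟨fun a b => ?_⟩
    obtain ⟨g, hg⟩ := htr1.exists_smul_eq
      (⟨{a}, Set.powersetCard.mem_iff.mpr (Finset.card_singleton a)⟩ : Set.powersetCard α 1)
      ⟨{b}, Set.powersetCard.mem_iff.mpr (Finset.card_singleton b)⟩
    refine ⟨g, ?_⟩
    have hg' : g • ({a} : Finset α) = {b} := congrArg Subtype.val hg
    rwa [Finset.smul_finset_singleton, Finset.singleton_inj] at hg'
  have hpair : ∀ a b c d : α, a ≠ b → c ≠ d →
      ∃ g : G, (g • a = c ∧ g • b = d) ∨ (g • a = d ∧ g • b = c) := by
    intro a b c d hab hcd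
    obtain ⟨g, hg⟩ := h2.exists_smul_eq
      (⟨{a, b}, Set.powersetCard.mem_iff.mpr (Finset.card_pair hab)⟩ : Set.powersetCard α 2)
      ⟨{c, d}, Set.powersetCard.mem_iff.mpr (Finset.card_pair hcd)⟩
    have hg' : g • ({a, b} : Finset α) = {c, d} := congrArg Subtype.val hg
    refine ⟨g, ?_⟩
    have h1 : g • a ∈ ({c, d} : Finset α) := hg' ▸ Finset.smul_mem_smul_finset (by simp)
    have h1' : g • b ∈ ({c, d} : Finset α) := hg' ▸ Finset.smul_mem_smul_finset (by simp)
    simp only [Finset.mem_insert, Finset.mem_singleton] at h1 h1'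
    rcases h1 with h1 | h1 <;> rcases h1' with h1' | h1'
    · exact absurd (MulAction.injective g (h1.trans h1'.symm)) hab
    · exact Or.inl ⟨h1, h1'⟩
    · exact Or.inr ⟨h1, h1'⟩
    · exact absurd (MulAction.injective g (h1.trans h1'.symm)) hab
  have hodd : Odd (Nat.card G) := by
    rw [← Nat.not_even_iff_odd]
    intro he
    haveI : Fact (Nat.Prime 2) := ⟨Nat.prime_two⟩
    obtain ⟨z, hz⟩ := exists_prime_orderOf_dvd_card' (G := G) 2 (even_iff_two_dvd.mp he)
    obtain ⟨a, ha⟩ : ∃ a : α, z • a ≠ a := by
      by_contra hcon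
      push Not at hcon
      have : z = 1 := FaithfulSMul.eq_of_smul_eq_smul (α := α) fun a => by rw [hcon, one_smul]
      rw [this, orderOf_one] at hz
      omega
    have hzz : z • z • a = a := by rw [smul_smul, ← pow_two, ← hz, pow_orderOf_eq_one, one_smul]
    refine hn2 ⟨fun u v => ?_⟩
    have key : ∀ u : Fin 2 ↪ α, ∃ g : G, g • u 0 = a ∧ g • u 1 = z • a := by
      intro u
      obtain ⟨g, hg | hg⟩ := hpair (u 0) (u 1) a (z • a)
        (fun e => absurd (u.injective e) (by decide)) ha.symm
      · exact ⟨g, hg⟩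
      · exact ⟨z * g, by rw [mul_smul, hg.1, hzz], by rw [mul_smul, hg.2]⟩
    obtain ⟨g, hg, hg'⟩ := key u
    obtain ⟨k, hk, hk'⟩ := key v
    refine ⟨k⁻¹ * g, Function.Embedding.ext fun i => ?_⟩
    show (k⁻¹ * g) • u i = v i
    rw [mul_smul, inv_smul_eq_iff]
    fin_cases i
    · exact hg.trans hk.symm
    · exact hg'.trans hk'.symm
  have hchoose : (Fintype.card α).choose 2 ∣ Nat.card G := by
    obtain ⟨S, -, hS⟩ := Finset.exists_subset_card_eq (s := (Finset.univ : Finset α)) (n := 2)
      (by rw [Finset.card_univ]; omega)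
    have h1 := (stabilizer G (⟨S, Set.powersetCard.mem_iff.mpr hS⟩ : Set.powersetCard α 2)).index_mul_card
    rw [index_stabilizer_of_transitive, Set.powersetCard.card, Nat.card_eq_fintype_card] at h1
    exact Dvd.intro _ h1
  refine ⟨hodd, hT, ?_, ?_, hchoose⟩
  · refine IsPreprimitive.of_isTrivialBlock_base x fun {B} hxB hB => ?_
    by_contra hcon
    simp only [IsTrivialBlock, not_or] at hcon
    obtain ⟨⟨b, hbB, hbx⟩, hBu⟩ : (∃ b ∈ B, b ≠ x) ∧ B ≠ Set.univ := by
      refine ⟨?_, hcon.2⟩
      by_contra hh
      push Not at hh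
      exact hcon.1 fun p hp q hq => (hh p hp).trans (hh q hq).symm
    obtain ⟨c, hc⟩ := (Set.ne_univ_iff_exists_notMem _).mp hBu
    obtain ⟨g, hg⟩ := hpair x c x b (fun e => hc (e ▸ hxB)) hbx.symm
    have hgx : g • x ∈ B := by rcases hg with hg | hg <;> rw [hg.1] <;> assumption
    have hgc : g • c ∈ B := by rcases hg with hg | hg <;> rw [hg.2] <;> assumption
    have hgB : g • B = B := by
      by_contra hne
      exact Set.disjoint_left.mp (hB.smul_eq_or_disjoint g |>.resolve_left hne)
        (Set.smul_mem_smul_set hxB) hgx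
    rw [← hgB, Set.smul_mem_smul_set_iff] at hgc
    exact hc hgc
  · have h1 : Fintype.card α ∣ Nat.card G := by
      obtain ⟨a⟩ : Nonempty α := ⟨x⟩
      have h1 := (stabilizer G a).index_mul_card
      rw [index_stabilizer_of_transitive, Nat.card_eq_fintype_card] at h1
      exact Dvd.intro _ h1
    have ho := Nat.odd_iff.mp (Odd.of_dvd_nat hodd h1)
    have ho' := Odd.of_dvd_nat hodd hchoose
    rw [Nat.choose_two_right, Nat.mul_div_assoc _ (by omega), Nat.odd_mul] at ho'
    have := Nat.odd_iff.mp ho'.2
    omega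

/-- Kantor's theorem, given that the group is solvable. -/
theorem two_homogeneous_semiaffine (G : Subgroup (Equiv.Perm α)) (hne : G ≠ ⊥)
    (h2 : IsPretransitive G (Set.powersetCard α 2)) (hn2 : ¬ IsMultiplyPretransitive G α 2)
    (hsol : Group.IsSolvable G) :
    Odd (Nat.card G) ∧ ∃ (p f : ℕ) (_ : Fact p.Prime), p ≠ 2 ∧ Fintype.card α = p ^ f ∧ p ^ f % 4 = 3 ∧
      ∃ e : α ≃ GaloisField p f,
        (∀ g : G, e.symm.trans (((g : Equiv.Perm α)).trans e) ∈ Cfsg.semiaffineGroup (GaloisField p f)) ∧
        ∀ b : GaloisField p f, ∃ g : G, ∀ x : α, e ((g : Equiv.Perm α) x) = e x + b := by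
  classical
  obtain ⟨hodd, hT, hprim, h4, hchoose⟩ := two_homogeneous_basic G hne h2 hn2
  haveI := hsol
  refine ⟨hodd, ?_⟩
  obtain ⟨a₀⟩ : Nonempty α := Fintype.card_pos_iff.mp (by omega)
  -- a normal elementary abelian subgroup
  obtain ⟨A, hAn, hAne, hAc⟩ : ∃ A : Subgroup G, A.Normal ∧ A ≠ ⊥ ∧ ∀ a ∈ A, ∀ b ∈ A, a * b = b * a := by
    obtain ⟨m, hm⟩ := hsol.solvable
    have hex : ∃ i, derivedSeries G i = ⊥ := ⟨m, hm⟩
    have h0 : Nat.find hex ≠ 0 := by
      intro e
      have := Nat.find_spec hex
      rw [e, derivedSeries_zero] at this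
      refine hne ((Subgroup.eq_bot_iff_forall G).mpr fun g hg => ?_)
      have h1 : (⟨g, hg⟩ : G) ∈ (⊥ : Subgroup G) := this ▸ Subgroup.mem_top _
      exact congrArg Subtype.val (Subgroup.mem_bot.mp h1)
    obtain ⟨i, hi⟩ := Nat.exists_eq_succ_of_ne_zero h0
    refine ⟨derivedSeries G i, derivedSeries_normal G i, Nat.find_min hex (by omega), fun a ha b hb => ?_⟩
    have h1 := Nat.find_spec hex
    rw [hi, derivedSeries_succ] at h1
    exact commutatorElement_eq_one_iff_mul_comm.mp
      (Subgroup.mem_bot.mp (h1 ▸ Subgroup.commutator_mem_commutator ha hb))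
  obtain ⟨p, hp, hpA⟩ := Nat.exists_prime_and_dvd (n := Nat.card A) fun e => hAne (Subgroup.card_eq_one.mp e)
  haveI hpF : Fact p.Prime := ⟨hp⟩
  let N : Subgroup G :=
    { carrier := {a | a ∈ A ∧ a ^ p = 1}
      mul_mem' := fun {a b} ha hb => ⟨A.mul_mem ha.1 hb.1, by
        rw [(show Commute a b from hAc a ha.1 b hb.1).mul_pow, ha.2, hb.2, one_mul]⟩
      one_mem' := ⟨A.one_mem, one_pow p⟩
      inv_mem' := fun {a} ha => ⟨A.inv_mem ha.1, by rw [inv_pow, ha.2, inv_one]⟩ }
  have hNcomm : ∀ a b : N, a * b = b * a := fun a b => Subtype.ext (hAc a a.2.1 b b.2.1)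
  haveI hNn : N.Normal := ⟨fun a ha g => ⟨hAn.conj_mem a ha.1 g, by rw [conj_pow, ha.2, mul_one, mul_inv_cancel]⟩⟩
  have hN1 : ∃ n : G, n ∈ N ∧ n ≠ 1 := by
    obtain ⟨⟨a, haA⟩, ha⟩ := exists_prime_orderOf_dvd_card' (G := A) p hpA
    rw [Subgroup.orderOf_mk] at ha
    exact ⟨a, ⟨haA, by rw [← ha, pow_orderOf_eq_one]⟩, fun e => hp.ne_one (by rw [← ha, e, orderOf_one])⟩
  haveI := hprim
  haveI hNT : IsPretransitive N α := by
    refine IsQuasiPreprimitive.isPretransitive_of_normal fun e => ?_
    obtain ⟨n, hn, hn1⟩ := hN1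
    refine hn1 (FaithfulSMul.eq_of_smul_eq_smul (α := α) fun y => ?_)
    have hy : y ∈ fixedPoints N α := by rw [e]; trivial
    rw [one_smul]
    exact hy ⟨n, hn⟩
  have hfree : ∀ n : N, (n : G) • a₀ = a₀ → n = 1 := by
    intro n hn
    refine Subtype.ext (FaithfulSMul.eq_of_smul_eq_smul (α := α) fun y => ?_)
    obtain ⟨k, rfl⟩ := exists_smul_eq N a₀ y
    rw [Subgroup.coe_one, one_smul]
    show (n : G) • (k : G) • a₀ = (k : G) • a₀
    rw [smul_smul, ← Subgroup.coe_mul, hNcomm, Subgroup.coe_mul, mul_smul, hn]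
  have hinj : ∀ n m : N, (n : G) • a₀ = (m : G) • a₀ → n = m := fun n m h => by
    refine (inv_mul_eq_one.mp (hfree (m⁻¹ * n) ?_)).symm
    rw [Subgroup.coe_mul, Subgroup.coe_inv, mul_smul, h, inv_smul_smul]
  have hsurj : ∀ y : α, ∃ n : N, (n : G) • a₀ = y := fun y => exists_smul_eq N a₀ y
  have hNcard : Nat.card N = Fintype.card α := by
    rw [Nat.card_eq_of_bijective (fun n : N => (n : G) • a₀) ⟨fun a b h => hinj a b h, hsurj⟩,
      Nat.card_eq_fintype_card]
  obtain ⟨f, hf⟩ := IsPGroup.iff_card.mp (show IsPGroup p N from fun n => ⟨1, Subtype.ext (by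
    rw [pow_one]; exact n.2.2)⟩)
  rw [hNcard] at hf
  have hf0 : f ≠ 0 := by rintro rfl; simp [hf] at h4
  have hp2 : p ≠ 2 := by
    rintro rfl
    obtain ⟨j, rfl⟩ := Nat.exists_eq_succ_of_ne_zero hf0
    rw [hf, pow_succ] at h4
    omega
  have hfodd : f % 2 = 1 := by
    by_contra hev
    obtain ⟨j, rfl⟩ : ∃ j, f = 2 * j := ⟨f / 2, by omega⟩
    have h1 : p ^ 2 % 4 = 1 := by
      have := hp.eq_two_or_odd.resolve_left hp2
      rw [Nat.pow_mod]
      rcases (show p % 4 = 1 ∨ p % 4 = 3 by omega) with e | e <;> rw [e]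
    rw [hf, pow_mul, Nat.pow_mod, h1, one_pow] at h4
    omega
  refine ⟨p, f, hpF, hp2, hf, hf ▸ h4, ?_⟩
  -- the point stabiliser acts linearly
  set H := stabilizer G a₀ with hH
  letI : CommGroup N := { (inferInstance : Group N) with mul_comm := hNcomm }
  let θ : H →* MulAut N := (MulAut.conjNormal : G →* MulAut N).comp H.subtype
  have hθ : Function.Injective θ := by
    refine (injective_iff_map_eq_one θ).mpr fun h hh => Subtype.ext ?_
    refine FaithfulSMul.eq_of_smul_eq_smul (α := α) fun y => ?_
    obtain ⟨n, rfl⟩ := hsurj y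
    have h1 : (h : G) * n * (h : G)⁻¹ = n := by
      have := congrArg Subtype.val (DFunLike.congr_fun hh n)
      simpa [θ] using this
    rw [Subgroup.coe_one, one_smul]
    conv_rhs => rw [← h1]
    rw [mul_smul, mul_smul, inv_smul_eq_iff.mpr (show a₀ = (h : G) • a₀ from h.2.symm)]
  haveI : Nontrivial N := Finite.one_lt_card_iff_nontrivial.mp (by rw [hNcard]; omega)
  have hAc' : Nat.card (Additive N) = p ^ f := by rw [Nat.card_congr Additive.toMul, hNcard, hf]
  let cj : H →* AddMonoid.End (Additive N) :=
    { toFun := fun h => MonoidHom.toAdditive (θ h).toMonoidHom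
      map_one' := AddMonoidHom.ext fun v => by
        show Additive.ofMul (θ 1 (Additive.toMul v)) = v
        rw [map_one]
        rfl
      map_mul' := fun g h => AddMonoidHom.ext fun v => by
        show Additive.ofMul (θ (g * h) (Additive.toMul v)) = Additive.ofMul (θ g (θ h (Additive.toMul v)))
        rw [map_mul]
        rfl }
  have hcj : Function.Injective cj := fun g h e => hθ (MulEquiv.ext fun n =>
    Additive.ofMul.injective (DFunLike.congr_fun e (Additive.ofMul n)))
  have hHodd : Odd (Nat.card H) := Odd.of_dvd_nat hodd (Subgroup.card_subgroup_dvd_card H)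
  have hhalf : (p ^ f - 1) / 2 ∣ Nat.card H := by
    have h1 := H.index_mul_card
    rw [hH, index_stabilizer_of_transitive, Nat.card_eq_fintype_card, ← hH] at h1
    rw [← h1, Nat.choose_two_right, hf, Nat.mul_div_assoc _ (by rw [hf] at h4; omega)] at hchoose
    exact Nat.dvd_of_mul_dvd_mul_left (pow_pos hp.pos f) hchoose
  -- an irreducible element commuting with its conjugates
  obtain ⟨x, hxi, hxc⟩ : ∃ x : H, (∀ h : H, IrredEnd (cj (h * x * h⁻¹))) ∧
      ∀ h : H, Commute x (h * x * h⁻¹) := by
    rcases eq_or_ne f 1 with hf1 | hf1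
    · refine ⟨1, fun h => ?_, fun h => by simp⟩
      intro W _
      haveI : Fact (Nat.card (Additive N)).Prime := ⟨by rw [hAc', hf1, pow_one]; exact hp⟩
      exact W.eq_bot_or_eq_top_of_prime_card
    obtain ⟨r, hr⟩ := CfsgLib.Zsigmondy.exists_isPpd hp.one_lt (show 1 < f by omega)
      (fun h => hp2 h.1) (fun h => by omega)
    have hrp : r.Prime := hr.1
    haveI : Fact r.Prime := ⟨hrp⟩
    have hrf := hr.lt hp.one_lt (Nat.pos_of_ne_zero hf0)
    have hrd := fun k => hr.dvd_pow_sub_one_iff' hp.one_lt (Nat.pos_of_ne_zero hf0) k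
    have hrcp : Nat.Coprime r p := (Nat.coprime_primes hrp hp).mpr fun e =>
      hr.coprime_base hp.one_lt (Nat.pos_of_ne_zero hf0) (e ▸ dvd_refl r)
    -- elements of order `r` are irreducible
    have hirr : ∀ y : H, orderOf y = r → IrredEnd (cj y) ∧ ∀ v, cj y v = v → v = 0 := by
      intro y hy
      have hcount : ∀ W : AddSubgroup (Additive N), (∀ w ∈ W, cj y w ∈ W) →
          Nat.card W ≡ Nat.card {w : W // cj y w = w} [MOD r] := by
        intro W hW
        letI : Fintype W := Fintype.ofFinite _
        let φ : Function.End W := fun w => ⟨cj y w, hW w w.2⟩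
        have hpow : ∀ m : ℕ, ∀ w : W, ((φ ^ m) w : Additive N) = cj (y ^ m) w := by
          intro m
          induction m with
          | zero => intro w; rw [pow_zero, pow_zero, map_one]; rfl
          | succ m ih =>
            intro w
            rw [pow_succ', pow_succ', map_mul]
            show cj y ((φ ^ m) w) = _
            rw [ih]
            rfl
        have hφ : φ ^ r ^ 1 = 1 := funext fun w => Subtype.ext (by
          rw [hpow, pow_one, ← hy, pow_orderOf_eq_one, map_one]; rfl)
        have h1 := Equiv.Perm.card_fixedPoints_modEq (α := W) (f := φ) (p := r) (n := 1) hφ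
        rw [Nat.card_eq_fintype_card]
        refine h1.trans (congrArg (· % r) ?_)
        rw [Fintype.card_eq_nat_card]
        exact Nat.card_congr (Equiv.subtypeEquivRight fun w =>
          ⟨fun h => congrArg Subtype.val h, fun h => Subtype.ext h⟩)
      let C : AddSubgroup (Additive N) :=
        { carrier := {v | cj y v = v}
          add_mem' := fun {a b} (ha : cj y a = a) (hb : cj y b = b) => show cj y (a + b) = a + b by
            rw [map_add, ha, hb]
          zero_mem' := map_zero _
          neg_mem' := fun {a} (ha : cj y a = a) => show cj y (-a) = -a by rw [map_neg, ha] }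
      have hfix : ∀ v, cj y v = v → v = 0 := by
        obtain ⟨j, hjf, hj⟩ := (Nat.dvd_prime_pow hp).mp (hAc' ▸ AddSubgroup.card_addSubgroup_dvd_card C)
        have h1 := hcount ⊤ fun w _ => trivial
        rw [Nat.card_congr AddSubgroup.topEquiv.toEquiv, hAc',
          Nat.card_congr (show {w : (⊤ : AddSubgroup (Additive N)) // cj y w = w} ≃ C from
            { toFun := fun w => ⟨w.1.1, w.2⟩, invFun := fun w => ⟨⟨w.1, trivial⟩, w.2⟩,
              left_inv := fun _ => rfl, right_inv := fun _ => rfl }), hj] at h1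
        have h3 : r ∣ p ^ j * (p ^ (f - j) - 1) := by
          rw [Nat.mul_sub, ← pow_add, Nat.add_sub_cancel' hjf, mul_one]
          exact (Nat.modEq_iff_dvd' (Nat.pow_le_pow_right hp.pos hjf)).mp h1.symm
        have h5 := (hrd _).mp ((Nat.Coprime.pow_right j hrcp).dvd_of_dvd_mul_left h3)
        rcases Nat.eq_zero_or_pos (f - j) with e | e
        · exfalso
          have hjf' : j = f := by omega
          have htop : C = ⊤ := AddSubgroup.eq_top_of_card_eq C (by rw [hj, hAc', hjf'])
          have hy1 : y = 1 := hcj (AddMonoidHom.ext fun v => by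
            have hv : v ∈ C := htop ▸ AddSubgroup.mem_top v
            rw [map_one]
            exact hv)
          rw [hy1, orderOf_one] at hy
          exact hrp.one_lt.ne hy
        · have hj0 : j = 0 := by have := Nat.le_of_dvd e h5; omega
          intro v hv
          rw [hj0, pow_zero, AddSubgroup.card_eq_one] at hj
          exact AddSubgroup.mem_bot.mp (hj ▸ (show v ∈ C from hv))
      refine ⟨fun W hW => ?_, hfix⟩
      obtain ⟨i, hif, hi⟩ := (Nat.dvd_prime_pow hp).mp (hAc' ▸ AddSubgroup.card_addSubgroup_dvd_card W)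
      have h1 := hcount W hW
      rw [hi, show Nat.card {w : W // cj y w = w} = 1 by
        rw [Nat.card_eq_one_iff_unique]
        exact ⟨⟨fun a b => Subtype.ext (Subtype.ext ((hfix _ a.2).trans (hfix _ b.2).symm))⟩,
          ⟨⟨0, map_zero _⟩⟩⟩] at h1
      have h5 := (hrd i).mp ((Nat.modEq_iff_dvd' (Nat.one_le_pow _ _ hp.pos)).mp h1.symm)
      rcases Nat.eq_zero_or_pos i with e | e
      · left
        rw [e, pow_zero, AddSubgroup.card_eq_one] at hi
        exact hi
      · right
        have := Nat.le_of_dvd e h5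
        exact AddSubgroup.eq_top_of_card_eq W (by rw [hi, hAc', show i = f by omega])
    have hrH : r ∣ Nat.card H := by
      refine dvd_trans ?_ hhalf
      have h1 : r ∣ 2 * ((p ^ f - 1) / 2) := by
        rw [hf] at h4
        rw [Nat.mul_div_cancel' (by omega)]
        exact hr.2.1
      exact (((Nat.coprime_primes hrp Nat.prime_two).mpr (by omega)).dvd_of_dvd_mul_left h1)
    obtain ⟨x, hx⟩ := exists_prime_orderOf_dvd_card' (G := H) r hrH
    have hxirr := (hirr x hx).1
    have hcentr : ∀ (y : H), orderOf y = r → ∀ g g' : H, Commute y g → Commute y g' → Commute g g' := by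
      intro y hy g g' hg hg'
      refine hcj ?_
      rw [map_mul, map_mul]
      exact (hirr y hy).1.comm (by rw [← map_mul, ← map_mul, hg.eq]) (by rw [← map_mul, ← map_mul, hg'.eq])
    haveI : Group.IsSolvable H := inferInstance
    set F := Cfsg.fittingSubgroup H with hF
    haveI hFnil : Group.IsNilpotent F := CfsgLib.Cores.isNilpotent_fittingSubgroup
    haveI hFnorm : F.Normal := by rw [hF, CfsgLib.Cores.fittingSubgroup_eq_iSup_pCore]; infer_instance
    set X := Subgroup.zpowers x with hX
    have hXc : Nat.card X = r := by rw [hX, Nat.card_zpowers, hx]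
    -- `x` centralises every normal subgroup of prime-power order
    have hTc : ∀ (T : Subgroup H) (t : ℕ) [Fact t.Prime], IsPGroup t T → T.Normal →
        ∀ g ∈ T, Commute x g := by
      intro T t _ hTp hTn g hg
      haveI := hTn
      rcases eq_or_ne t r with rfl | htr
      · have hpg : IsPGroup t (T ⊔ X : Subgroup H) := hTp.to_sup_of_normal_left (IsPGroup.of_card (n := 1)
          (by rw [hXc, pow_one]))
        obtain ⟨R, hR⟩ := hpg.exists_le_sylow
        haveI : Nontrivial (R : Subgroup H) :=
          ⟨⟨⟨x, hR (Subgroup.mem_sup_right (Subgroup.mem_zpowers x))⟩, 1, fun e => by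
            rw [show x = 1 from congrArg Subtype.val e, orderOf_one] at hx
            exact hrp.one_lt.ne hx⟩⟩
        haveI := R.2.center_nontrivial
        obtain ⟨m, hm, hcz⟩ := (R.2.to_subgroup _).nontrivial_iff_card.mp
          (inferInstance : Nontrivial (Subgroup.center (R : Subgroup H)))
        obtain ⟨z, hz⟩ := exists_prime_orderOf_dvd_card' (G := Subgroup.center (R : Subgroup H)) t
          (hcz ▸ dvd_pow_self t hm.ne')
        have hzc : ∀ w ∈ (R : Subgroup H), Commute ((z : (R : Subgroup H)) : H) w := fun w hw =>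
          (congrArg Subtype.val (Subgroup.mem_center_iff.mp z.2 ⟨w, hw⟩)).symm
        exact hcentr _ (by rw [Subgroup.orderOf_coe, Subgroup.orderOf_coe, hz]) x g
          (hzc x (hR (Subgroup.mem_sup_right (Subgroup.mem_zpowers x))))
          (hzc g (hR (Subgroup.mem_sup_left hg)))
      · have hXT : X ≤ Subgroup.normalizer (T : Set H) := by
          rw [Subgroup.normalizer_eq_top]; exact le_top
        obtain ⟨m, hm⟩ := IsPGroup.iff_card.mp hTp
        have hcop : (Nat.card X).Coprime (Nat.card T) := by
          rw [hXc, hm]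
          exact Nat.Coprime.pow_right m ((Nat.coprime_primes hrp Fact.out).mpr (Ne.symm htr))
        have hXsol : Group.IsSolvable X := CfsgLib.CoprimeAction.isSolvable_zpowers x
        set L := ⁅T, X⁆ with hL
        have hLT : L ≤ T := CfsgLib.CoprimeAction.commutator_le_left hXT
        set Γ := L ⊔ X with hΓ
        have hLn : (L.subgroupOf Γ).Normal := by
          rw [Subgroup.normal_subgroupOf_iff_le_normalizer le_sup_left]
          exact sup_le Subgroup.le_normalizer
            (le_trans le_sup_right (CfsgLib.CoprimeAction.sup_le_normalizer_commutator X T))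
        have hxΓ : x ∈ Γ := Subgroup.mem_sup_right (Subgroup.mem_zpowers x)
        have hirrΓ : ∀ W : Subgroup N, (∀ g : Γ, ∀ v ∈ W, θ g.1 v ∈ W) → W = ⊥ ∨ W = ⊤ := by
          intro W hW
          rcases hxirr (Subgroup.toAddSubgroup W) (fun w hw => hW ⟨x, hxΓ⟩ (Additive.toMul w) hw) with h | h
          · exact Or.inl (Subgroup.toAddSubgroup.injective (h.trans (by ext; simp)))
          · exact Or.inr (Subgroup.toAddSubgroup.injective (h.trans (by ext; simp)))
        have hfixN : ∀ v : N, θ x v = v → v = 1 := fun v hv =>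
          Additive.ofMul.injective ((hirr x hx).2 (Additive.ofMul v) (congrArg Additive.ofMul hv))
        have hyp : CfsgLib.BGRep.ActionHyp (θ.comp Γ.subtype) (L.subgroupOf Γ) (X.subgroupOf Γ) ⟨x, hxΓ⟩ p :=
          { prime := hp
            odd := Odd.of_dvd_nat hHodd (Subgroup.card_subgroup_dvd_card Γ)
            solvable := inferInstance
            normal := hLn
            xprime := by rw [Subgroup.orderOf_mk, hx]; exact hrp
            coprime := by
              rw [Subgroup.orderOf_mk, hx, Nat.card_congr (Subgroup.subgroupOfEquivOfLe le_sup_left).toEquiv,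
                ← hXc]
              exact hcop.coprime_dvd_right (Subgroup.card_dvd_of_le hLT)
            comm := by
              apply Subgroup.map_injective Γ.subtype_injective
              rw [Subgroup.map_commutator, Subgroup.map_subgroupOf_eq_of_le le_sup_left,
                Subgroup.map_subgroupOf_eq_of_le le_sup_right]
              exact CfsgLib.CoprimeAction.commutator_commutator_eq hXT hcop (Or.inl hXsol)
            zgroup := by
              haveI : IsCyclic ↥(L.subgroupOf Γ ⊓ Subgroup.centralizer ({⟨x, hxΓ⟩} : Set Γ)) :=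
                hxirr.isCyclic ((cj.comp Γ.subtype).comp (Subgroup.subtype _))
                  (fun a b e => Subtype.ext (Subtype.ext (hcj e))) (fun g => by
                    have h1 := congrArg Subtype.val (Subgroup.mem_centralizer_singleton_iff.mp g.2.2)
                    show cj x * cj (g.1.1) = cj g.1.1 * cj x
                    rw [← map_mul, ← map_mul]
                    exact congrArg cj h1.symm)
              infer_instance
            expp := fun v => Subtype.ext v.2.2
            ne := by
              rw [Subgroup.orderOf_mk, hx]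
              exact fun e => hr.coprime_base hp.one_lt (Nat.pos_of_ne_zero hf0) (e ▸ dvd_refl r)
            nontriv := inferInstance
            irr := hirrΓ
            fix := by
              refine le_trans (le_of_eq ?_) hp.one_lt.le
              rw [Nat.card_eq_one_iff_unique]
              exact ⟨⟨fun a b => Subtype.ext ((hfixN a.1 a.2).trans (hfixN b.1 b.2).symm)⟩, ⟨⟨1, map_one _⟩⟩⟩ }
        have hfree' := (CfsgLib.BGRep.coprime_action hyp).free (fun v hv => hfixN v hv)
        have hLc : ∀ l ∈ L, Commute l x := fun l hl =>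
          hθ (by
            rw [map_mul, map_mul]
            exact hfree' ⟨l, Subgroup.mem_sup_left hl⟩ hl)
        have hLbot : L = ⊥ := by
          have hLL : ⁅L, X⁆ = L := CfsgLib.CoprimeAction.commutator_commutator_eq hXT hcop (Or.inl hXsol)
          rw [← hLL, eq_bot_iff]
          refine Subgroup.commutator_le.mpr fun l hl a ha => ?_
          obtain ⟨i, rfl⟩ := Subgroup.mem_zpowers_iff.mp ha
          rw [Subgroup.mem_bot, commutatorElement_eq_one_iff_mul_comm]
          exact (hLc l hl).zpow_right i
        have := Subgroup.commutator_mem_commutator hg (Subgroup.mem_zpowers x)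
        rw [← hL, hLbot, Subgroup.mem_bot, commutatorElement_eq_one_iff_mul_comm] at this
        exact this.symm
    -- so it centralises, hence lies in, the Fitting subgroup
    have hxF : x ∈ F := by
      refine CfsgLib.Cores.centralizer_fittingSubgroup_le (Subgroup.mem_centralizer_iff.mpr fun g hg => ?_)
      set D := (Subgroup.centralizer ({x} : Set H)).subgroupOf F with hD
      have htop : D = ⊤ := by
        by_contra hne'
        obtain ⟨t, ht, htd⟩ := Nat.exists_prime_and_dvd (n := D.index) fun e => hne' (Subgroup.index_eq_one.mp e)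
        haveI := Fact.mk ht
        obtain ⟨P⟩ : Nonempty (Sylow t F) := inferInstance
        haveI hPn : (P : Subgroup F).Normal :=
          P.normal_of_normalizerCondition (Group.normalizerCondition_of_isNilpotent)
        haveI : (P : Subgroup F).Characteristic := P.characteristic_of_normal hPn
        have hle : (P : Subgroup F) ≤ D := fun w hw => by
          rw [hD, Subgroup.mem_subgroupOf, Subgroup.mem_centralizer_singleton_iff]
          exact (hTc ((P : Subgroup F).map F.subtype) t (P.2.map F.subtype) inferInstance (w : H)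
            ⟨w, hw, rfl⟩).eq.symm
        exact P.not_dvd_index (htd.trans (Subgroup.index_dvd_of_le hle))
      have hgD : (⟨g, hg⟩ : F) ∈ D := htop ▸ Subgroup.mem_top _
      exact Subgroup.mem_centralizer_singleton_iff.mp hgD
    refine ⟨x, fun h => (hirr _ ((orderOf_injective (MulAut.conj h).toMonoidHom (MulAut.conj h).injective x).trans hx)).1,
      fun h => ?_⟩
    have hmem : h * x * h⁻¹ ∈ F := hFnorm.conj_mem x hxF h
    -- elements of the Fitting subgroup commute with `x`
    set D := (Subgroup.centralizer ({x} : Set H)).subgroupOf F with hD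
    have htop : D = ⊤ := by
      by_contra hne'
      obtain ⟨t, ht, htd⟩ := Nat.exists_prime_and_dvd (n := D.index) fun e => hne' (Subgroup.index_eq_one.mp e)
      haveI := Fact.mk ht
      obtain ⟨P⟩ : Nonempty (Sylow t F) := inferInstance
      haveI hPn : (P : Subgroup F).Normal :=
        P.normal_of_normalizerCondition (Group.normalizerCondition_of_isNilpotent)
      haveI : (P : Subgroup F).Characteristic := P.characteristic_of_normal hPn
      have hle : (P : Subgroup F) ≤ D := fun w hw => by
        rw [hD, Subgroup.mem_subgroupOf, Subgroup.mem_centralizer_singleton_iff]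
        exact (hTc ((P : Subgroup F).map F.subtype) t (P.2.map F.subtype) inferInstance (w : H)
          ⟨w, hw, rfl⟩).eq.symm
      exact P.not_dvd_index (htd.trans (Subgroup.index_dvd_of_le hle))
    have hgD : (⟨_, hmem⟩ : F) ∈ D := htop ▸ Subgroup.mem_top _
    exact (Subgroup.mem_centralizer_singleton_iff.mp hgD).symm
  -- the field
  letI : Fintype (GaloisField p f) := Fintype.ofFinite _
  have hFc : Fintype.card (GaloisField p f) = Nat.card (Additive N) := by
    rw [← Nat.card_eq_fintype_card, GaloisField.card p f hf0, hAc']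
  have hx1 : IrredEnd (cj x) := by simpa using hxi 1
  obtain ⟨e, he⟩ := hx1.exists_semilinear hFc
  let pt : GaloisField p f → α := fun t => ((Additive.toMul (e t) : N) : G) • a₀
  have hptbij : Function.Bijective pt := by
    refine ⟨fun a b h => e.injective (Additive.toMul.injective (hinj _ _ h)), fun y => ?_⟩
    obtain ⟨n, hn⟩ := hsurj y
    exact ⟨e.symm (Additive.ofMul n), by simp only [pt, AddEquiv.apply_symm_apply, toMul_ofMul, hn]⟩
  have hptadd : ∀ s t, ((Additive.toMul (e s) : N) : G) • pt t = pt (s + t) := fun s t => by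
    simp only [pt, map_add, toMul_add, Subgroup.coe_mul, mul_smul]
  refine ⟨(Equiv.ofBijective pt hptbij).symm, fun g => ?_, fun b => ⟨((Additive.toMul (e b) : N) : G), fun y => ?_⟩⟩
  · obtain ⟨n, hn⟩ := hsurj (g • a₀)
    have hh : ((n : G)⁻¹ * g) • a₀ = a₀ := by rw [mul_smul, ← hn, inv_smul_smul]
    set h : H := ⟨(n : G)⁻¹ * g, hh⟩ with hhdef
    have hbij : Function.Bijective (cj h) := by
      refine ⟨fun a b hab => ?_, fun b => ⟨cj h⁻¹ b, ?_⟩⟩
      · have := congrArg (fun v => cj h⁻¹ v) hab
        change cj h⁻¹ (cj h a) = cj h⁻¹ (cj h b) at this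
        rwa [← Function.comp_apply (f := cj h⁻¹), ← Function.comp_apply (f := cj h⁻¹),
          ← AddMonoid.End.coe_mul, ← map_mul, inv_mul_cancel, map_one] at this
      · show (cj h * cj h⁻¹) b = b
        rw [← map_mul, mul_inv_cancel, map_one]
        rfl
    obtain ⟨c, σ, hc, hcσ⟩ := he (cj h) hbij (cj (h * x * h⁻¹)) (hxi h)
      (by rw [← map_mul, ← map_mul, (hxc h).eq]) (by rw [← map_mul, ← map_mul, inv_mul_cancel_right])
    refine ⟨Units.mk0 c hc, e.symm (Additive.ofMul n), σ, fun t => ?_⟩
    show (Equiv.ofBijective pt hptbij).symm (g • pt t) = _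
    rw [Equiv.symm_apply_eq, Equiv.ofBijective_apply, Units.val_mk0, add_comm, ← hptadd,
      AddEquiv.apply_symm_apply, toMul_ofMul]
    have key : (h : G) • pt t = pt (c * σ t) := by
      simp only [pt, ← hcσ]
      show (h : G) • ((Additive.toMul (e t) : N) : G) • a₀
        = ((h : G) * ((Additive.toMul (e t) : N) : G) * (h : G)⁻¹) • a₀
      conv_rhs => rw [mul_smul, mul_smul, inv_smul_eq_iff.mpr (show a₀ = (h : G) • a₀ from hh.symm)]
    rw [← key, hhdef, mul_smul, smul_inv_smul]
  · obtain ⟨t, rfl⟩ := hptbij.2 y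
    have h1 : (Equiv.ofBijective pt hptbij).symm (pt t) = t := (Equiv.ofBijective pt hptbij).symm_apply_apply t
    rw [h1, Equiv.symm_apply_eq, Equiv.ofBijective_apply, add_comm, ← hptadd]
    rfl

end CfsgLib.AltGroups
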