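import Cfsg.Agent.Lib.AltGroups.ZassenhausTransfer
import Cfsg.Agent.Lib.AltGroups.ZassenhausGram
import Cfsg.Agent.Lib.AltGroups.MoebiusRecognition
import Cfsg.Agent.Lib.TwoGroups.RankOne
import Mathlib.LinearAlgebra.Determinant
import Mathlib.FieldTheory.Finite.Basic
import Mathlib.Tactic

/-!
Sharply triply transitive groups of degree `p ^ f + 1`, `p` and `f` odd, are `PGL₂`.
-/

set_option autoImplicit false
set_option linter.style.haveILetI false

open MulAction

namespace CfsgLib.AltGroups

universe u v w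

/-- In odd dimension two automorphisms do not anticommute. -/
theorem not_anticommute {V : Type*} [AddCommGroup V] [Finite V] {p f : ℕ} [hp : Fact p.Prime]
    (hp2 : p ≠ 2) (hfo : Odd f) (hexp : ∀ v : V, p • v = 0) (hV : Nat.card V = p ^ f)
    (U W : V →+ V) (hU : Function.Injective U) (hW : Function.Injective W) :
    ¬ ∀ v, U (W v) = -W (U v) := by
  intro h
  haveI inst : Module (ZMod p) V := AddCommGroup.zmodModule hexp
  haveI : Module.Finite (ZMod p) V := Module.Finite.of_finite
  let U' : Module.End (ZMod p) V := U.toZModLinearMap p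
  let W' : Module.End (ZMod p) V := W.toZModLinearMap p
  have h' : U' * W' = (-1 : ZMod p) • (W' * U') := by
    refine LinearMap.ext fun v => ?_
    show U (W v) = (-1 : ZMod p) • W (U v)
    rw [h, neg_smul, one_smul]
  have hdim : Module.finrank (ZMod p) V = f := by
    have := Module.natCard_eq_pow_finrank (K := ZMod p) (V := V)
    rw [hV, Nat.card_zmod] at this
    exact (Nat.pow_right_injective hp.out.two_le this).symm
  have hdet := congrArg LinearMap.det h'
  rw [map_mul, LinearMap.det_smul, map_mul, hdim, hfo.neg_one_pow] at hdet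
  have hne : ∀ T : Module.End (ZMod p) V, Function.Injective T → LinearMap.det T ≠ 0 := fun T hT h0 => by
    have := LinearMap.bot_lt_ker_of_det_eq_zero h0
    rw [LinearMap.ker_eq_bot.mpr hT] at this
    exact lt_irrefl _ this
  have h2 : (2 : ZMod p) * (LinearMap.det U' * LinearMap.det W') = 0 := by linear_combination hdet
  rcases mul_eq_zero.mp h2 with h2 | h2
  · have h3 : ((2 : ℕ) : ZMod p) = 0 := by exact_mod_cast h2
    rw [ZMod.natCast_eq_zero_iff] at h3
    exact hp2 ((Nat.prime_dvd_prime_iff_eq hp.out Nat.prime_two).mp h3)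
  · exact mul_ne_zero (hne U' hU) (hne W' hW) h2

/-- A multiplicative involutive map on a finite field of odd order inverting the squares and
satisfying the cocycle identity is the inversion. -/
theorem eq_inv_of_cocycle_squares {K : Type*} [Field K] [Fintype K] (hodd : ringChar K ≠ 2) (f : K → K) (a : K)
    (hmul : ∀ y z, y ≠ 0 → z ≠ 0 → f (y * z) = f y * f z)
    (hff : ∀ y, y ≠ 0 → f (f y) = y) (h0 : ∀ y, y ≠ 0 → f y ≠ 0)
    (hsq : ∀ y, y ≠ 0 → IsSquare y → f y = y⁻¹)
    (hid : ∀ y, y ≠ 0 → y + 1 ≠ 0 → f (1 + f y) = 1 + a * f (y + 1)) :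
    ∀ y, y ≠ 0 → f y = y⁻¹ := by
  classical
  have hone : f 1 = 1 := by rw [hsq 1 one_ne_zero (IsSquare.one), inv_one]
  have h2 : (2 : K) ≠ 0 := Ring.two_ne_zero hodd
  have hm : (-1 : K) ≠ 0 := neg_ne_zero.mpr one_ne_zero
  have hfm1 : f (-1) = -1 := by
    have := hmul (-1) (-1) hm hm
    rw [neg_mul_neg, one_mul, hone] at this
    rcases mul_self_eq_one_iff.mp this.symm with h | h
    · exfalso
      have h1 := (hff _ hm).symm.trans ((congrArg f h).trans hone)
      exact Ring.neg_one_ne_one_of_char_ne_two hodd h1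
    · exact h
  by_cases hsmall : ∀ y : K, y ≠ 0 → y + 1 ≠ 0 → y = 1
  · intro y hy
    by_cases hy1 : y + 1 = 0
    · rw [eq_neg_of_add_eq_zero_left hy1, hfm1, inv_neg, inv_one]
    · rw [hsmall y hy hy1, hone, inv_one]
  push Not at hsmall
  obtain ⟨y₁, hy₁, hy₁', hy₁1⟩ := hsmall
  have hne1 : ∀ y, y ≠ 0 → y + 1 ≠ 0 → f y + 1 ≠ 0 := fun y hy hy1 h => hy1 (by
    have := (hff y hy).symm.trans ((congrArg f (eq_neg_of_add_eq_zero_left h)).trans hfm1)
    rw [this]; exact neg_add_cancel 1)
  have hkey : ∀ y, y ≠ 0 → y + 1 ≠ 0 → f (1 + y) * (1 - a * a) = 1 + a := by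
    intro y hy hy1
    have h1 := hid (f y) (h0 y hy) (hne1 y hy hy1)
    rw [hff y hy, add_comm (f y) 1, hid y hy hy1, add_comm y 1] at h1
    linear_combination h1
  have h11 : (1 : K) + 1 ≠ 0 := by rw [show (1 : K) + 1 = 2 by norm_num]; exact h2
  have haa : 1 - a * a = 0 := by
    by_contra hne
    have h1 := hkey 1 one_ne_zero h11
    have h3 := hkey y₁ hy₁ hy₁'
    have h4 : f (1 + 1) = f (1 + y₁) := mul_right_cancel₀ hne (h1.trans h3.symm)
    apply hy₁1
    have hy₁'' : (1 : K) + y₁ ≠ 0 := by rw [add_comm]; exact hy₁'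
    have h5 := congrArg f h4
    rw [hff _ h11, hff _ hy₁''] at h5
    exact (add_left_cancel h5).symm
  have ha : a = -1 := by
    have h1 := hkey 1 one_ne_zero h11
    rw [haa, mul_zero] at h1
    linear_combination -h1
  subst ha
  -- a square followed by a non-square
  obtain ⟨ν, hν⟩ := FiniteField.exists_nonsquare hodd
  obtain ⟨y, hy0, hys, hy1, hyns⟩ : ∃ y : K, y ≠ 0 ∧ IsSquare y ∧ y + 1 ≠ 0 ∧ ¬ IsSquare (y + 1) := by
    by_contra hcon
    push Not at hcon
    -- then the squares form an additive subgroup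
    have hclosed : ∀ u w : K, IsSquare u → IsSquare w → IsSquare (u + w) := by
      intro u w hu hw
      by_cases hu0 : u = 0
      · rwa [hu0, zero_add]
      by_cases hw0 : w = 0
      · rwa [hw0, add_zero]
      have h1 : u + w = w * (u * w⁻¹ + 1) := by field_simp
      rw [h1]
      by_cases h2' : u * w⁻¹ + 1 = 0
      · rw [h2', mul_zero]; exact IsSquare.zero
      · exact hw.mul (hcon _ (mul_ne_zero hu0 (inv_ne_zero hw0)) (hu.mul hw.inv) h2')
    -- every element is a sum of two squares
    obtain ⟨b, c, hbc⟩ := FiniteField.exists_root_sum_quadratic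
      (f := Polynomial.X ^ 2) (g := Polynomial.X ^ 2 - Polynomial.C ν) (Polynomial.degree_X_pow 2)
      (Polynomial.degree_X_pow_sub_C two_pos ν) (by
        rw [← Nat.card_eq_fintype_card]
        have := FiniteField.odd_card_of_char_ne_two hodd
        rw [Nat.card_eq_fintype_card]; exact this)
    simp only [Polynomial.eval_pow, Polynomial.eval_X, Polynomial.eval_sub, Polynomial.eval_C] at hbc
    refine hν ?_
    rw [show ν = b ^ 2 + c ^ 2 by linear_combination -hbc]
    exact hclosed _ _ (IsSquare.sq b) (IsSquare.sq c)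
  have hy1' : (1 : K) + y ≠ 0 := by rw [add_comm]; exact hy1
  have hid' := hid y hy0 hy1
  rw [hsq y hy0 hys, show (1 : K) + y⁻¹ = y⁻¹ * (y + 1) by field_simp,
    hmul _ _ (inv_ne_zero hy0) hy1, hsq _ (inv_ne_zero hy0) hys.inv, inv_inv] at hid'
  have hyinv : f (y + 1) = (y + 1)⁻¹ := eq_inv_of_mul_eq_one_left (by linear_combination hid')
  intro z hz
  by_cases hzs : IsSquare z
  · exact hsq z hz hzs
  · have hprod : IsSquare (z * (y + 1)⁻¹) := by
      rw [← quadraticChar_one_iff_isSquare (mul_ne_zero hz (inv_ne_zero hy1)), map_mul,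
        (quadraticChar_neg_one_iff_not_isSquare).mpr hzs,
        (quadraticChar_neg_one_iff_not_isSquare).mpr (fun h => hyns (by simpa using h.inv))]
      norm_num
    have := hmul _ _ (mul_ne_zero hz (inv_ne_zero hy1)) hy1
    rw [inv_mul_cancel_right₀ hy1, hsq _ (mul_ne_zero hz (inv_ne_zero hy1)) hprod, hyinv] at this
    rw [this, mul_inv_rev, inv_inv]
    field_simp

namespace ZCoord

variable {G : Type u} {Ω : Type v} {A : Type w} [Group G] [MulAction G Ω] [AddCommGroup A]
  (C : ZCoord G Ω A)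

/-- In odd dimension a semiregular two-point stabiliser is a Z-group. -/
theorem isZGroup_H_of_odd_dim [Finite G] [Finite A] [Nontrivial A] {p f : ℕ} [hp : Fact p.Prime]
    (hp2 : p ≠ 2) (hfo : Odd f) (hA : Nat.card A = p ^ f) (hexp : ∀ a : A, p • a = 0)
    (h3 : ∀ g : G, ∀ a b c : Ω, a ≠ b → b ≠ c → a ≠ c → g • a = a → g • b = b → g • c = c → g = 1)
    (hdvd : Nat.card C.H ∣ Nat.card A - 1) : IsZGroup C.H := by
  classical
  refine ⟨fun r hr P => ?_⟩
  haveI := Fact.mk hr
  rcases subsingleton_or_nontrivial (P : Subgroup C.H) with hs | hs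
  · infer_instance
  have hPd : r ∣ Nat.card (P : Subgroup C.H) := by
    obtain ⟨m, hm, hcard⟩ := P.2.nontrivial_iff_card.mp hs
    rw [hcard]; exact dvd_pow_self r hm.ne'
  have hrd : r ∣ Nat.card C.H := hPd.trans (Subgroup.card_subgroup_dvd_card _)
  have hrn : ¬ r ∣ Nat.card A := fun h => by
    have h2 := Nat.dvd_sub h (hrd.trans hdvd)
    rw [Nat.sub_sub_self (Nat.card_pos : 1 ≤ Nat.card A)] at h2
    exact hr.ne_one (Nat.dvd_one.mp h2)
  refine ((CfsgLib.TwoGroups.isCyclic_or_quaternion P.2 ?_).resolve_right ?_)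
  · have hc := P.2.center_nontrivial
    obtain ⟨m, hm, hcz⟩ :=
      (P.2.to_subgroup (Subgroup.center (P : Subgroup C.H))).nontrivial_iff_card.mp hc
    obtain ⟨z, hz⟩ := exists_prime_orderOf_dvd_card' r
      (show r ∣ Nat.card (Subgroup.center (P : Subgroup C.H)) from hcz ▸ dvd_pow_self r hm.ne')
    have hzP : orderOf ((z : (P : Subgroup C.H)) : C.H) = r := by
      rw [Subgroup.orderOf_coe, Subgroup.orderOf_coe, hz]
    have key : ∀ b : (P : Subgroup C.H), orderOf b = r →
        Subgroup.zpowers b = Subgroup.zpowers (z : (P : Subgroup C.H)) := by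
      intro b hb
      refine Subgroup.eq_of_le_of_card_ge (Subgroup.zpowers_le.mpr ?_) ?_
      · obtain ⟨i, hi⟩ := C.mem_zpowers_of_commute h3 hrn hzP (by rw [Subgroup.orderOf_coe, hb])
          (congrArg Subtype.val (Subgroup.mem_center_iff.mp z.2 b)).symm
        exact ⟨i, Subtype.ext (by simpa using hi)⟩
      · rw [Nat.card_zpowers, Nat.card_zpowers, hb, Subgroup.orderOf_coe, hz]
    intro a b ha hb
    rw [key a ha, ← key b hb]
    exact Subgroup.mem_zpowers b
  · rintro ⟨rfl, m, hm, ⟨e⟩⟩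
    obtain ⟨l, rfl⟩ : ∃ l, m = l + 1 := ⟨m - 1, by omega⟩
    set n := 2 ^ (l + 1) with hn
    let ι : QuaternionGroup n →* C.H := (P : Subgroup C.H).subtype.comp e.symm.toMonoidHom
    have hι : Function.Injective ι := (P : Subgroup C.H).subtype_injective.comp e.symm.injective
    let i₀ : ZMod (2 * n) := ((2 ^ l : ℕ) : ZMod (2 * n))
    have h2i : i₀ + i₀ = (n : ZMod (2 * n)) := by
      simp only [i₀, hn]; push_cast; ring
    have hnn : (n : ZMod (2 * n)) + n = 0 := by rw [← Nat.cast_add, ← two_mul, ZMod.natCast_self]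
    have hn0 : (n : ZMod (2 * n)) ≠ 0 := by
      rw [ne_eq, ZMod.natCast_eq_zero_iff]
      intro h
      have h' := Nat.le_of_dvd (Nat.two_pow_pos _) h
      have := Nat.two_pow_pos (l + 1)
      omega
    let u := ι (QuaternionGroup.a i₀)
    let w := ι (QuaternionGroup.xa 0)
    let z := ι (QuaternionGroup.a (n : ZMod (2 * n)))
    have hz1 : z ≠ 1 := fun h => by
      have := hι (h.trans ι.map_one.symm)
      rw [QuaternionGroup.one_def, QuaternionGroup.a.injEq] at this
      exact hn0 this
    have hzz : z * z = 1 := by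
      show ι _ * ι _ = 1
      rw [← map_mul, QuaternionGroup.a_mul_a, hnn, ← QuaternionGroup.one_def, map_one]
    have huw : u * w = z * (w * u) := by
      show ι _ * ι _ = ι _ * (ι _ * ι _)
      rw [← map_mul, ← map_mul, ← map_mul, QuaternionGroup.a_mul_xa, QuaternionGroup.xa_mul_a,
        QuaternionGroup.a_mul_xa]
      congr 2
      linear_combination -h2i
    have hzneg : ∀ a, C.act z a = -a := by
      intro a
      apply eq_neg_of_add_eq_zero_left
      by_contra hne
      refine hz1 (C.semiregular h3 hne ?_)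
      rw [C.act_add, ← C.act_mul, hzz, C.act_one, add_comm]
    refine not_anticommute hp2 hfo hexp hA (C.actEnd u) (C.actEnd w)
      (fun a b h => by
        have := congrArg (C.act u⁻¹) (show C.act u a = C.act u b from h)
        rwa [C.act_inv_act, C.act_inv_act] at this)
      (fun a b h => by
        have := congrArg (C.act w⁻¹) (show C.act w a = C.act w b from h)
        rwa [C.act_inv_act, C.act_inv_act] at this) fun a => ?_
    show C.act u (C.act w a) = -C.act w (C.act u a)
    rw [← C.act_mul, huw, C.act_mul, C.act_mul, hzneg]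

end ZCoord

open ZCoord in
/-- A sharply triply transitive group with coordinates of odd dimension is `PGL₂`. -/
theorem pgl_of_odd_dim {G : Type u} {Ω : Type v} {A : Type w} [Group G] [Finite G] [MulAction G Ω]
    [FaithfulSMul G Ω] [AddCommGroup A] {p f : ℕ} (hp : p.Prime) (hp2 : p ≠ 2) (hfo : Odd f)
    (C : ZCoord G Ω A) (hA : Nat.card A = p ^ f) (hexp : ∀ a : A, p • a = 0)
    (hH : Nat.card C.H = p ^ f - 1)
    (h3 : ∀ g : G, ∀ a b c : Ω, a ≠ b → b ≠ c → a ≠ c → g • a = a → g • b = b → g • c = c → g = 1)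
    (ht : IsMultiplyPretransitive G Ω 3) (hG : Nat.card G = p ^ f * ((p ^ f) ^ 2 - 1)) :
    ∃ (K : Type) (_ : Field K) (_ : Fintype K), Fintype.card K = p ^ f ∧
      Nonempty (G ≃* Matrix.ProjGenLinGroup (Fin 2) K) := by
  classical
  haveI : Fact p.Prime := ⟨hp⟩
  have hf0 : f ≠ 0 := hfo.pos.ne'
  have hq1 : 1 < p ^ f := Nat.one_lt_pow hf0 hp.one_lt
  haveI : Finite A := Nat.finite_of_card_ne_zero (by rw [hA]; omega)
  haveI : Nontrivial A := Finite.one_lt_card_iff_nontrivial.mp (by rw [hA]; omega)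
  haveI := Fintype.ofFinite C.H
  obtain ⟨e, he⟩ := exists_ne (0 : A)
  have hne : ∀ {a : A}, a ≠ 0 → C.pt a ≠ C.o := fun {a} ha h => ha (C.pt_eq_o.mp h)
  -- an involution interchanging the two base points and fixing the unit point
  let t₁ : Fin 3 ↪ Ω := ⟨![C.inf, C.o, C.pt e], by
    intro i j hij
    fin_cases i <;> fin_cases j <;>
      simp_all [C.o_ne, C.o_ne.symm, C.pt_ne_inf e, (C.pt_ne_inf e).symm, hne he, (hne he).symm]⟩
  let t₂ : Fin 3 ↪ Ω := ⟨![C.o, C.inf, C.pt e], by
    intro i j hij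
    fin_cases i <;> fin_cases j <;>
      simp_all [C.o_ne, C.o_ne.symm, C.pt_ne_inf e, (C.pt_ne_inf e).symm, hne he, (hne he).symm]⟩
  haveI := ht
  obtain ⟨s, hs⟩ := exists_smul_eq G t₁ t₂
  have hs0 : s • C.inf = C.o := DFunLike.congr_fun hs 0
  have hs1 : s • C.o = C.inf := DFunLike.congr_fun hs 1
  have hs2 : s • C.pt e = C.pt e := DFunLike.congr_fun hs 2
  have hs_ne : s ≠ 1 := fun h => C.o_ne (by rw [← hs0, h, one_smul])
  have hss : s * s = 1 := h3 _ C.inf C.o (C.pt e) C.o_ne.symm (hne he).symm (C.pt_ne_inf e).symm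
    (by rw [mul_smul, hs0, hs1]) (by rw [mul_smul, hs1, hs0]) (by rw [mul_smul, hs2, hs2])
  obtain ⟨W, rfl⟩ := C.exists_swapData hss hs1
  have hSe : W.S e = e := C.pt_injective (by rw [W.S_pt e he, hs2])
  let σ : C.H →* C.H :=
    { toFun := fun h => ⟨W.s * (h : G) * W.s, W.conj_mem h.2⟩
      map_one' := Subtype.ext (by simp [W.sq])
      map_mul' := fun h k => Subtype.ext (by
        show W.s * ((h : G) * k) * W.s = W.s * h * W.s * (W.s * k * W.s)
        calc W.s * ((h : G) * k) * W.s = W.s * h * 1 * k * W.s := by group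
          _ = _ := by rw [← W.sq]; group) }
  have hσσ : ∀ h, σ (σ h) = h := fun h => Subtype.ext (by
    show W.s * (W.s * (h : G) * W.s) * W.s = h
    calc W.s * (W.s * (h : G) * W.s) * W.s = (W.s * W.s) * h * (W.s * W.s) := by group
      _ = _ := by rw [W.sq]; group)
  have hσS : ∀ h : C.H, W.S (C.act h e) = C.act (σ h) e := fun h => by
    rw [W.S_act h he, hSe]; rfl
  -- at most two elements are fixed by `σ`
  let Fx : Finset C.H := Finset.univ.filter fun h => σ h = h
  have hFx : Fx.card ≤ 2 := by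
    by_contra hcon
    push Not at hcon
    obtain ⟨a, ha, b, hb, c, hc, hab, hac, hbc⟩ := Finset.two_lt_card.mp hcon
    have hfix : ∀ h ∈ Fx, W.s • C.pt (C.act h e) = C.pt (C.act h e) := fun h hh => by
      rw [← W.S_pt _ (C.act_ne_zero he), hσS, (Finset.mem_filter.mp hh).2]
    have hinj : ∀ h k, C.pt (C.act h e) = C.pt (C.act k e) → h = k := fun h k e' =>
      C.act_inj h3 he (C.pt_injective e')
    exact hs_ne (h3 _ _ _ _ (fun e' => hab (hinj _ _ e')) (fun e' => hbc (hinj _ _ e'))
      (fun e' => hac (hinj _ _ e')) (hfix a ha) (hfix b hb) (hfix c hc))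
  -- the commutator subgroup and its centraliser
  haveI := C.isZGroup_H_of_odd_dim hp2 hfo hA hexp h3 (by rw [hH, hA])
  obtain ⟨⟨c, hcC⟩, hc⟩ := (IsZGroup.isCyclic_commutator (G := C.H)).exists_generator
  have hcz : ∀ x ∈ commutator C.H, ∃ i : ℤ, c ^ i = x := fun x hx => by
    obtain ⟨i, hi⟩ := hc ⟨x, hx⟩
    exact ⟨i, congrArg Subtype.val hi⟩
  set M : Subgroup C.H := Subgroup.centralizer ((commutator C.H : Subgroup C.H) : Set C.H) with hM
  have hσC : ∀ x ∈ commutator C.H, σ x ∈ commutator C.H := fun x hx => by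
    rw [← Abelianization.ker_of, MonoidHom.mem_ker] at hx ⊢
    rw [← Abelianization.map_of σ x, hx, map_one]
  have hmem : ∀ h : C.H, h⁻¹ * σ h ∈ M := by
    intro h
    rw [hM, Subgroup.mem_centralizer_iff]
    intro x hx
    obtain ⟨i, hi⟩ := hcz _ ((inferInstance : (commutator C.H).Normal).conj_mem c hcC h)
    obtain ⟨n, hn⟩ := hcz _ hx
    obtain ⟨j, hj⟩ := hcz _ (hσC c hcC)
    have h1 : σ h * σ c * (σ h)⁻¹ = σ c ^ i := by
      rw [← map_inv, ← map_mul, ← map_mul, ← hi, map_zpow]
    obtain ⟨m, hm⟩ := hcz _ (hσC _ hx)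
    have hx' : x = σ c ^ m := by rw [← map_zpow, hm, hσσ]
    have h2 : σ h * x * (σ h)⁻¹ = x ^ i := by
      rw [hx', ← conj_zpow, h1, ← zpow_mul, ← zpow_mul, mul_comm]
    have h3' : h * x * h⁻¹ = x ^ i := by
      rw [← hn, ← conj_zpow, ← hi, ← zpow_mul, ← zpow_mul, mul_comm]
    have h4 : h⁻¹ * σ h * x * (h⁻¹ * σ h)⁻¹ = x := by
      rw [show h⁻¹ * σ h * x * (h⁻¹ * σ h)⁻¹ = h⁻¹ * (σ h * x * (σ h)⁻¹) * h by group, h2, ← h3']
      group
    exact (mul_inv_eq_iff_eq_mul.mp h4).symm
  have hMcard : Nat.card C.H ≤ 2 * Nat.card M := by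
    have h1 := Finset.card_le_mul_card_image_of_maps_to (f := fun h : C.H => (⟨h⁻¹ * σ h, hmem h⟩ : M))
      (s := Finset.univ) (t := Finset.univ) (fun _ _ => Finset.mem_univ _) 2 fun b _ => by
        rcases (Finset.univ.filter fun h : C.H => (⟨h⁻¹ * σ h, hmem h⟩ : M) = b).eq_empty_or_nonempty with h | ⟨k, hk⟩
        · rw [h]; simp
        · refine le_trans (Finset.card_le_card_of_injOn (fun h => h * k⁻¹) ?_ ?_) hFx
          · intro h hh
            simp only [Finset.coe_filter, Finset.mem_univ, true_and, Set.mem_setOf_eq] at hh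
            simp only [Finset.mem_filter, Finset.mem_univ, true_and] at hk
            simp only [Fx, Finset.coe_filter, Finset.mem_univ, true_and, Set.mem_setOf_eq]
            have e' : h⁻¹ * σ h = k⁻¹ * σ k := congrArg Subtype.val (hh.trans hk.symm)
            rw [map_mul, map_inv, eq_mul_inv_iff_mul_eq, ← mul_left_cancel_iff (a := h⁻¹)]
            rw [← mul_assoc, ← mul_assoc, e']
            group
          · exact (mul_left_injective k⁻¹).injOn
    rw [Finset.card_univ, Finset.card_univ, ← Nat.card_eq_fintype_card, ← Nat.card_eq_fintype_card] at h1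
    exact h1
  haveI hMn : M.Normal := by
    refine ⟨fun x hx h => ?_⟩
    rw [hM, Subgroup.mem_centralizer_iff] at hx ⊢
    intro y hy
    have := hx _ ((inferInstance : (commutator C.H).Normal).conj_mem' y hy h)
    calc y * (h * x * h⁻¹) = h * ((h⁻¹ * y * h) * x) * h⁻¹ := by group
      _ = h * (x * (h⁻¹ * y * h)) * h⁻¹ := by rw [this]
      _ = _ := by group
  haveI : Group.IsNilpotent M := by
    refine Subgroup.isNilpotent_of_ker_le_center ((Abelianization.of (G := C.H)).comp M.subtype) fun x hx => ?_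
    rw [Subgroup.mem_center_iff]
    intro y
    have hxC : (x : C.H) ∈ commutator C.H := by rw [← Abelianization.ker_of]; exact hx
    exact Subtype.ext (Subgroup.mem_centralizer_iff.mp y.2 _ hxC).symm
  have hMcyc : IsCyclic M := inferInstance
  have hMcomm : ∀ x ∈ M, ∀ y ∈ M, x * y = y * x := fun x hx y hy => by
    letI := hMcyc.commGroup
    exact congrArg Subtype.val (mul_comm (⟨x, hx⟩ : M) ⟨y, hy⟩)
  -- the field generated by `M`
  let R := Subring.closure (Set.range fun x : M => C.actEnd x)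
  have hgen : ∀ x : M, C.actEnd x ∈ R := fun x => Subring.subset_closure ⟨x, rfl⟩
  letI : CommRing R := Subring.closureCommRingOfComm (by
    rintro _ ⟨x, rfl⟩ _ ⟨y, rfl⟩
    rw [← map_mul, ← map_mul, hMcomm _ x.2 _ y.2])
  let ev : R →+ A :=
    { toFun := fun r => (r.1 : AddMonoid.End A) e, map_zero' := rfl, map_add' := fun r s => rfl }
  have happly : ∀ (r : R) (x : M) a, (r.1 : AddMonoid.End A) (C.act x a) = C.act x ((r.1 : AddMonoid.End A) a) :=
    fun r x a => DFunLike.congr_fun (congrArg Subtype.val (mul_comm r ⟨_, hgen x⟩)) a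
  have hirr : ∀ B : AddSubgroup A, (∀ x : M, ∀ a ∈ B, C.act x a ∈ B) → B = ⊥ ∨ B = ⊤ := by
    intro B hB
    by_contra hc
    simp only [not_or] at hc
    obtain ⟨b, hb, hb0⟩ : ∃ b ∈ B, b ≠ (0 : A) := by
      by_contra h
      push Not at h
      exact hc.1 ((AddSubgroup.eq_bot_iff_forall B).mpr h)
    obtain ⟨a, ha⟩ : ∃ a, a ∉ B := by
      by_contra h
      push Not at h
      exact hc.2 ((AddSubgroup.eq_top_iff' B).mpr h)
    have ha0 : a ≠ 0 := fun e => ha (e ▸ B.zero_mem)
    have h1 : Nat.card M + 1 ≤ Nat.card B := by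
      rw [← Finite.card_option]
      refine Nat.card_le_card_of_injective
        (fun x : Option M => x.elim (0 : B) (fun h => ⟨C.act h b, hB h b hb⟩)) ?_
      rintro (_ | h) (_ | k) e
      · rfl
      · exact absurd (congrArg Subtype.val e).symm (C.act_ne_zero hb0)
      · exact absurd (congrArg Subtype.val e) (C.act_ne_zero hb0)
      · exact congrArg some (Subtype.ext (C.act_inj h3 hb0 (congrArg Subtype.val e)))
    have h2 : Nat.card M + Nat.card B ≤ Nat.card A := by
      rw [← Nat.card_sum]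
      refine Nat.card_le_card_of_injective (Sum.elim (fun h : M => C.act h a) Subtype.val) ?_
      refine Function.Injective.sumElim (fun h k e => Subtype.ext (C.act_inj h3 ha0 e)) Subtype.val_injective ?_
      intro h x e
      apply ha
      have := hB h⁻¹ _ x.2
      rwa [← e, Subgroup.coe_inv, C.act_inv_act] at this
    obtain ⟨k, hk⟩ := B.card_addSubgroup_dvd_card
    rcases k with _ | _ | k
    · have := Nat.card_pos (α := A); omega
    · have := Nat.card_pos (α := M); omega
    · have : 2 * Nat.card B ≤ Nat.card A := by rw [hk, mul_comm 2]; exact Nat.mul_le_mul_left _ (by omega)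
      omega
  have hker : ∀ r : R, r ≠ 0 → ∀ a, (r.1 : AddMonoid.End A) a = 0 → a = 0 := by
    intro r hr a ha
    rcases hirr (AddMonoidHom.ker (r.1 : A →+ A)) (fun h x hx => by
      show (r.1 : AddMonoid.End A) (C.act h x) = 0
      rw [happly, show (r.1 : AddMonoid.End A) x = 0 from hx, C.act_zero]) with hb | ht'
    · exact (AddSubgroup.eq_bot_iff_forall _).mp hb a ha
    · exfalso
      exact hr (Subtype.ext (AddMonoidHom.ext fun x => (ht' ▸ AddSubgroup.mem_top x :
        x ∈ AddMonoidHom.ker (r.1 : A →+ A))))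
  have hevinj : Function.Injective ev := by
    rw [injective_iff_map_eq_zero]
    intro r hr
    by_contra h
    exact he (hker r h e hr)
  haveI : Finite R := Finite.of_injective ev hevinj
  haveI := Fintype.ofFinite R
  haveI : Nontrivial R := ⟨0, 1, fun h => he (DFunLike.congr_fun (congrArg Subtype.val h) e).symm⟩
  haveI : NoZeroDivisors R := ⟨fun {r r'} h => by
    by_contra hc
    simp only [not_or] at hc
    exact he (hker r' hc.2 e (hker r hc.1 _ (DFunLike.congr_fun (congrArg Subtype.val h) e)))⟩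
  haveI : IsDomain R := NoZeroDivisors.to_isDomain R
  letI : Field R := Fintype.fieldOfDomain R
  have hevsurj : Function.Surjective ev := by
    rcases hirr ev.range (fun h a ha => by
      obtain ⟨r, rfl⟩ := ha
      exact ⟨⟨_, hgen h⟩ * r, rfl⟩) with hb | ht'
    · exact absurd ((AddSubgroup.eq_bot_iff_forall _).mp hb e ⟨1, rfl⟩) he
    · exact AddMonoidHom.range_eq_top.mp ht'
  have hRcard : Nat.card R = p ^ f := by rw [Nat.card_eq_of_bijective ev ⟨hevinj, hevsurj⟩, hA]
  haveI : CharP R p := by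
    obtain ⟨r, hr⟩ := CharP.exists R
    obtain ⟨n, hrp, hcard⟩ := FiniteField.card R r
    rw [← Nat.card_eq_fintype_card, hRcard] at hcard
    have : r = p := by
      have h1 : r ∣ p ^ f := hcard ▸ dvd_pow_self r n.ne_zero
      exact (Nat.prime_dvd_prime_iff_eq hrp hp).mp (hrp.dvd_of_dvd_pow h1)
    exact this ▸ hr
  -- the two-point stabiliser is abelian
  have hMidx : ∀ h : C.H, h * h ∈ M := by
    intro h
    have h1 := M.card_mul_index
    have hpos : 0 < Nat.card M := Nat.card_pos
    have h2 : M.index ≤ 2 := by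
      by_contra hlt
      push Not at hlt
      have : 3 * Nat.card M ≤ Nat.card C.H := by rw [← h1, mul_comm]; exact Nat.mul_le_mul_left _ hlt
      omega
    rcases Nat.lt_or_ge M.index 2 with h3' | h3'
    · have : M.index = 1 := by have := M.index_ne_zero_of_finite; omega
      rw [Subgroup.index_eq_one.mp this]; exact Subgroup.mem_top _
    · exact Subgroup.mul_self_mem_of_index_two (le_antisymm h2 h3') h
  have hcent : ∀ h : C.H, ∀ x ∈ M, h * x = x * h := by
    intro h
    have hconj : ∀ r ∈ R, C.actEnd h * r * C.actEnd h⁻¹ ∈ R := by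
      intro r hr
      induction hr using Subring.closure_induction with
      | mem y hy =>
        obtain ⟨x, rfl⟩ := hy
        rw [← map_mul, ← map_mul]
        exact hgen ⟨_, hMn.conj_mem x x.2 h⟩
      | zero => rw [mul_zero, zero_mul]; exact R.zero_mem
      | one => rw [mul_one, ← map_mul, mul_inv_cancel, map_one]; exact R.one_mem
      | add y z _ _ hy hz => rw [mul_add, add_mul]; exact R.add_mem hy hz
      | neg y _ hy => rw [mul_neg, neg_mul]; exact R.neg_mem hy
      | mul y z _ _ hy hz =>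
        have : C.actEnd h * (y * z) * C.actEnd h⁻¹ =
            (C.actEnd h * y * C.actEnd h⁻¹) * (C.actEnd h * z * C.actEnd h⁻¹) := by
          calc C.actEnd h * (y * z) * C.actEnd h⁻¹ = C.actEnd h * y * (1 : AddMonoid.End A) * z * C.actEnd h⁻¹ := by
                simp only [mul_one, mul_assoc]
            _ = _ := by rw [← map_one C.actEnd, ← inv_mul_cancel h, map_mul]; simp only [mul_assoc]
        rw [this]; exact R.mul_mem hy hz
    let θ : R →+* R :=
      { toFun := fun r => ⟨C.actEnd h * r.1 * C.actEnd h⁻¹, hconj r.1 r.2⟩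
        map_one' := Subtype.ext (by
          show C.actEnd h * 1 * C.actEnd h⁻¹ = 1
          rw [mul_one, ← map_mul, mul_inv_cancel, map_one])
        map_mul' := fun r r' => Subtype.ext (by
          show C.actEnd h * (r.1 * r'.1) * C.actEnd h⁻¹ =
            (C.actEnd h * r.1 * C.actEnd h⁻¹) * (C.actEnd h * r'.1 * C.actEnd h⁻¹)
          calc C.actEnd h * (r.1 * r'.1) * C.actEnd h⁻¹
              = C.actEnd h * r.1 * (1 : AddMonoid.End A) * r'.1 * C.actEnd h⁻¹ := by
                simp only [mul_one, mul_assoc]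
            _ = _ := by rw [← map_one C.actEnd, ← inv_mul_cancel h, map_mul]; simp only [mul_assoc])
        map_zero' := Subtype.ext (by
          show C.actEnd h * 0 * C.actEnd h⁻¹ = 0
          rw [mul_zero, zero_mul])
        map_add' := fun r r' => Subtype.ext (by
          show C.actEnd h * (r.1 + r'.1) * C.actEnd h⁻¹ = _
          rw [mul_add, add_mul]; rfl) }
    letI : Algebra (ZMod p) R := ZMod.algebra R p
    haveI : Module.Finite (ZMod p) R := Module.Finite.of_finite
    let θ' : R ≃ₐ[ZMod p] R :=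
      AlgEquiv.ofRingEquiv (f := RingEquiv.ofBijective θ (Finite.injective_iff_bijective.mp θ.injective))
        (fun z => RingHom.congr_fun (RingHom.ext_zmod (θ.comp (algebraMap (ZMod p) R)) (algebraMap _ _)) z)
    have hfin : Module.finrank (ZMod p) R = f := by
      have := Module.natCard_eq_pow_finrank (K := ZMod p) (V := R)
      rw [hRcard, Nat.card_zmod] at this
      exact (Nat.pow_right_injective hp.two_le this).symm
    have hθ2 : θ' ^ 2 = 1 := by
      refine AlgEquiv.ext fun r => Subtype.ext ?_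
      show C.actEnd h * (C.actEnd h * r.1 * C.actEnd h⁻¹) * C.actEnd h⁻¹ = r.1
      have hh := hMidx h
      have h1 : C.actEnd (h * h) * r.1 = r.1 * C.actEnd (h * h) :=
        congrArg Subtype.val (mul_comm (⟨_, hgen ⟨_, hh⟩⟩ : R) r)
      calc C.actEnd h * (C.actEnd h * r.1 * C.actEnd h⁻¹) * C.actEnd h⁻¹
          = C.actEnd (h * h) * r.1 * (C.actEnd h⁻¹ * C.actEnd h⁻¹) := by rw [map_mul]; simp only [mul_assoc]
        _ = r.1 * C.actEnd ((h * h) * (h⁻¹ * h⁻¹)) := by rw [h1]; simp only [map_mul, mul_assoc]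
        _ = _ := by rw [show h * h * (h⁻¹ * h⁻¹) = 1 by group, map_one, mul_one]
    have hθ1 : θ' = 1 := by
      rw [← orderOf_eq_one_iff]
      refine Nat.eq_one_of_dvd_coprimes ?_ (orderOf_dvd_of_pow_eq_one hθ2) (orderOf_dvd_natCard θ')
      rw [IsGalois.card_aut_eq_finrank, hfin]
      exact Nat.coprime_two_left.mpr hfo
    intro x hx
    have h1 : C.actEnd h * C.actEnd x * C.actEnd h⁻¹ = C.actEnd x :=
      congrArg Subtype.val (AlgEquiv.congr_fun hθ1 ⟨_, hgen ⟨x, hx⟩⟩)
    rw [← map_mul, ← map_mul] at h1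
    refine mul_inv_eq_iff_eq_mul.mp (C.act_inj h3 he ?_)
    exact DFunLike.congr_fun h1 e
  have hcomm : ∀ h k : C.H, h * k = k * h := by
    intro h k
    by_cases hh : h ∈ M
    · exact (hcent k h hh).symm
    by_cases hk : k ∈ M
    · exact hcent h k hk
    have : h * k⁻¹ ∈ M := by
      have h2 : M.index = 2 := by
        have h1 := M.card_mul_index
        have h2 : M.index ≤ 2 := by
          by_contra hlt
          push Not at hlt
          have : 3 * Nat.card M ≤ Nat.card C.H := by rw [← h1, mul_comm]; exact Nat.mul_le_mul_left _ hlt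
          have hpos : 0 < Nat.card M := Nat.card_pos
          omega
        have h0 := M.index_ne_zero_of_finite
        have hne1 : M.index ≠ 1 := fun e' => hh (Subgroup.index_eq_one.mp e' ▸ Subgroup.mem_top _)
        omega
      rw [Subgroup.mul_mem_iff_of_index_two h2, M.inv_mem_iff]
      exact iff_of_false hh hk
    have h1 := hcent k _ this
    calc h * k = (h * k⁻¹) * k * k := by group
      _ = k * (h * k⁻¹) * k := by rw [h1]
      _ = k * h := by group
  have hirrH : ∀ B : AddSubgroup A, (∀ (h : C.H), ∀ a ∈ B, C.act h a ∈ B) → B = ⊥ ∨ B = ⊤ :=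
    fun B hB => hirr B fun x => hB x
  obtain ⟨K, instK, instKf, φ, μ, hμ, hφ1, hφ⟩ := C.exists_field h3 hcomm hirrH e he
  have hK : Fintype.card K = p ^ f := by
    rw [← Nat.card_eq_fintype_card, Nat.card_congr φ.toEquiv, hA]
  have hchar : ringChar K ≠ 2 := by
    intro h
    have h1 := FiniteField.even_card_of_char_two h
    rw [hK] at h1
    have h2 : Odd (p ^ f) := (hp.odd_of_ne_two hp2).pow
    rw [Nat.odd_iff] at h2; omega
  have hμsurj : ∀ y : K, y ≠ 0 → ∃ h, (μ h : K) = y := by
    have hb : Function.Bijective μ := (Fintype.bijective_iff_injective_and_card μ).mpr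
      ⟨hμ, by rw [← Nat.card_eq_fintype_card, hH, Fintype.card_units, hK]⟩
    intro y hy
    obtain ⟨h, hh⟩ := hb.2 (Units.mk0 y hy)
    exact ⟨h, by rw [hh]; rfl⟩
  have hφne : ∀ {y : K}, y ≠ 0 → φ y ≠ 0 := fun {y} hy h => hy (φ.injective (by rw [h, map_zero]))
  let F : K → K := fun y => φ.symm (W.S (φ y))
  have hF : ∀ y, φ (F y) = W.S (φ y) := fun y => φ.apply_symm_apply _
  have hF0 : ∀ y, y ≠ 0 → F y ≠ 0 := fun y hy h => W.S_ne _ (hφne hy) (by rw [← hF, h, map_zero])
  have hFF : ∀ y, y ≠ 0 → F (F y) = y := fun y hy =>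
    φ.injective (by rw [hF, hF, W.S_S (hφne hy)])
  have hFμ : ∀ h, F (μ h : K) = (μ (σ h) : K) := fun h => φ.injective (by
    rw [hF, ← mul_one ((μ h : K)), ← hφ, hφ1, hσS, ← hφ1, hφ, mul_one])
  have hmul : ∀ y z, y ≠ 0 → z ≠ 0 → F (y * z) = F y * F z := by
    intro y z hy hz
    obtain ⟨h, rfl⟩ := hμsurj y hy
    obtain ⟨k, rfl⟩ := hμsurj z hz
    rw [← Units.val_mul, ← map_mul, hFμ, hFμ, hFμ, map_mul, map_mul, Units.val_mul]
  have hsq : ∀ y, y ≠ 0 → IsSquare y → F y = y⁻¹ := by
    intro y hy ⟨r, hr⟩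
    have hr0 : r ≠ 0 := fun e' => hy (by rw [hr, e', mul_zero])
    obtain ⟨k, rfl⟩ := hμsurj r hr0
    let D : C.H →* C.H :=
      { toFun := fun h => h⁻¹ * σ h
        map_one' := by simp
        map_mul' := fun h h' => by
          rw [map_mul, mul_inv_rev, hcomm h'⁻¹ h⁻¹, mul_assoc, mul_assoc, ← mul_assoc h'⁻¹ (σ h),
            hcomm h'⁻¹ (σ h), mul_assoc] }
    have hkerle : Nat.card D.ker ≤ 2 := by
      refine le_trans ?_ hFx
      rw [← Fintype.card_coe, ← Nat.card_eq_fintype_card]
      refine Nat.card_le_card_of_injective (fun h : D.ker => (⟨h.1, ?_⟩ : Fx)) ?_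
      · rw [Finset.mem_filter]
        exact ⟨Finset.mem_univ _, (inv_mul_eq_one.mp (MonoidHom.mem_ker.mp h.2)).symm⟩
      · intro h h' e'
        exact Subtype.ext (congrArg (fun z : Fx => z.1) e')
    obtain ⟨h, hh⟩ : k * k ∈ D.range := by
      have h1 := D.ker.card_mul_index
      rw [D.ker.index_eq_card, Nat.card_congr (QuotientGroup.quotientKerEquivRange D).toEquiv] at h1
      have h2 := D.range.card_mul_index
      have hpos : 0 < Nat.card D.range := Nat.card_pos
      have h3' : D.range.index ≤ 2 := by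
        by_contra hlt
        push Not at hlt
        have : 3 * Nat.card D.range ≤ Nat.card C.H := by rw [← h2, mul_comm]; exact Nat.mul_le_mul_left _ hlt
        have : Nat.card D.ker * Nat.card D.range ≤ 2 * Nat.card D.range := Nat.mul_le_mul_right _ hkerle
        omega
      rcases Nat.lt_or_ge D.range.index 2 with h4 | h4
      · have : D.range.index = 1 := by have := D.range.index_ne_zero_of_finite; omega
        rw [Subgroup.index_eq_one.mp this]; exact Subgroup.mem_top _
      · exact Subgroup.mul_self_mem_of_index_two (le_antisymm h3' h4) k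
    have hinv : σ (k * k) = (k * k)⁻¹ := by
      rw [← hh]
      show σ (h⁻¹ * σ h) = (h⁻¹ * σ h)⁻¹
      rw [map_mul, map_inv, hσσ, mul_inv_rev, inv_inv]
    rw [hr, ← Units.val_mul, ← map_mul, hFμ, hinv, map_inv, Units.val_inv_eq_inv_val]
  obtain ⟨k, hk⟩ := W.exists_cocycle he
  have hm : (-1 : K) ≠ 0 := neg_ne_zero.mpr one_ne_zero
  have hF1 : F 1 = 1 := φ.injective (by rw [hF, hφ1, hSe])
  have hfm1 : W.S (-e) = -e := by
    have := hmul (-1) (-1) hm hm
    rw [neg_mul_neg, one_mul, hF1] at this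
    rcases mul_self_eq_one_iff.mp this.symm with h | h
    · exfalso
      exact Ring.neg_one_ne_one_of_char_ne_two hchar ((hFF _ hm).symm.trans ((congrArg F h).trans hF1))
    · rw [← hφ1, ← map_neg, ← hF, h]
  have hinv : ∀ y, y ≠ 0 → F y = y⁻¹ := by
    refine eq_inv_of_cocycle_squares hchar F (μ k : K) hmul hFF hF0 hsq fun y hy hy1 => ?_
    have h1 : e + W.S (φ y) ≠ 0 := by
      intro h
      apply hy1
      have h' : W.S (φ y) = -e := eq_neg_of_add_eq_zero_right h
      have := (W.S_S (hφne hy)).symm.trans ((congrArg W.S h').trans hfm1)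
      rw [← hφ1, ← map_neg] at this
      rw [φ.injective this]; exact neg_add_cancel 1
    have h2 : φ y - W.S (-e) ≠ 0 := by
      rw [hfm1, sub_neg_eq_add, ← hφ1, ← map_add]; exact hφne hy1
    apply φ.injective
    rw [hF, map_add, map_add, hφ1, hF, hk _ (hφne hy) h1 h2, hSe, hfm1, sub_neg_eq_add, ← hφ, hF,
      map_add, hφ1]
  let eΩ : OnePoint K ≃ Ω := Equiv.ofBijective
      (fun q => OnePoint.elim q C.inf (fun k => C.pt (φ k))) ⟨by
    intro q q' hqq
    cases q <;> cases q'
    · rfl
    · exact absurd hqq.symm (C.pt_ne_inf _)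
    · exact absurd hqq (C.pt_ne_inf _)
    · exact congrArg _ (φ.injective (C.pt_injective hqq)), by
    intro y
    by_cases hy : y = C.inf
    · exact ⟨OnePoint.infty, hy.symm⟩
    · obtain ⟨a, ha⟩ := C.exists_pt hy
      exact ⟨((φ.symm a : K) : OnePoint K), by simp [ha]⟩⟩
  have hei : eΩ OnePoint.infty = C.inf := rfl
  have hek : ∀ k : K, eΩ (k : OnePoint K) = C.pt (φ k) := fun k => rfl
  let P : G → Prop := fun g =>
    ∃ M : Matrix.GeneralLinearGroup (Fin 2) K, ∀ q, g • eΩ q = eΩ (moebiusHom _ M q)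
  have hPmul : ∀ g g', P g → P g' → P (g * g') := by
    rintro g g' ⟨M, hM⟩ ⟨M', hM'⟩
    exact ⟨M * M', fun q => by rw [mul_smul, hM', hM, map_mul, Equiv.Perm.mul_apply]⟩
  have hPτ : ∀ a, P (C.τ a) := by
    intro a
    refine ⟨mkGL 1 (φ.symm a) 0 1 (by simp), fun q => ?_⟩
    cases q with
    | infty => rw [mkGL_apply_infty, hei, C.τ_inf]; simp [hei]
    | coe k => rw [mkGL_apply_coe, hek, C.τ_pt]; simp [hek, add_comm]
  have hPH : ∀ k : C.H, P k := by
    intro k
    refine ⟨mkGL (μ k : K) 0 0 1 (by simp), fun q => ?_⟩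
    cases q with
    | infty => rw [mkGL_apply_infty, hei, C.smul_inf k.2]; simp [hei]
    | coe y => rw [mkGL_apply_coe, hek, C.act_pt, hφ]; simp [hek]
  have hPs : P W.s := by
    refine ⟨mkGL 0 1 1 0 (by simp), fun q => ?_⟩
    cases q with
    | infty => rw [mkGL_apply_infty, hei, W.s_inf]; simp [hek]
    | coe y =>
      rw [mkGL_apply_coe, hek]
      by_cases hy : y = 0
      · subst hy; simp [W.s_o, hei]
      · rw [← W.S_pt _ (hφne hy), ← hF, hinv y hy]; simp [hek, hy]
  have hPall : ∀ g : G, P g := by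
    have hfix : ∀ g : G, g • C.inf = C.inf → P g := by
      intro g hg
      obtain ⟨a, h, rfl⟩ := C.exists_decomp hg
      exact hPmul _ _ (hPτ a) (hPH h)
    intro g
    by_cases hg : g • C.inf = C.inf
    · exact hfix g hg
    · obtain ⟨a, ha⟩ := C.exists_pt hg
      have hm : (W.s * (C.τ a)⁻¹ * g) • C.inf = C.inf := by
        rw [mul_smul, mul_smul, ← ha, ← C.τ_smul_o, inv_smul_smul, W.s_o]
      have := hPmul _ _ (hPmul _ _ (hPτ a) hPs) (hfix _ hm)
      rwa [mul_assoc W.s, mul_assoc (C.τ a), ← mul_assoc W.s W.s, W.sq, one_mul, mul_inv_cancel_left] at this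
  exact ⟨K, instK, instKf, hK, nonempty_mulEquiv_PGL eΩ hPall (by rw [hK]; exact hG)⟩

end CfsgLib.AltGroups
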